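import Mathlib
import Cfsg.Agent.Class.Max.Bridge
import Cfsg.Agent.Class.Max.C1Sing

/-!
Symplectic and quadratic geometry over the field with two elements.
-/

set_option autoImplicit false

namespace Cfsg.Agent.Class.C6P

open Module Cfsg.Agent.Class.Max

/-- The field with two elements. -/
abbrev F2 := ZMod 2

theorem f2_cases (a : F2) : a = 0 ∨ a = 1 := by revert a; decide

theorem f2_ne_zero {a : F2} : a ≠ 0 ↔ a = 1 := by revert a; decide

theorem f2_ne_one {a : F2} : a ≠ 1 ↔ a = 0 := by revert a; decide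

theorem f2_add_self (a : F2) : a + a = 0 := by revert a; decide

theorem f2_two : (2 : F2) = 0 := by decide

theorem f2_one_add_one : (1 : F2) + 1 = 0 := by decide

variable {E : Type*} [AddCommGroup E] [Module F2 E]

theorem add_self (u : E) : u + u = 0 := by
  rw [← two_smul F2, f2_two, zero_smul]

theorem add_eq_zero {u v : E} : u + v = 0 ↔ u = v := by
  constructor
  · intro h
    rw [← add_zero u, ← add_self v, ← add_assoc, h, zero_add]
  · rintro rfl; exact add_self u

theorem add_add_cancel (u v : E) : u + v + v = u := by rw [add_assoc, add_self, add_zero]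

theorem add_add_cancel' (u v : E) : u + (u + v) = v := by rw [← add_assoc, add_self, zero_add]

theorem add_eq_iff {u v w : E} : u + v = w ↔ u = w + v := by
  constructor
  · rintro rfl; rw [add_add_cancel]
  · rintro rfl; rw [add_add_cancel]

theorem mem_span_one {a v : E} : v ∈ Submodule.span F2 {a} ↔ v = 0 ∨ v = a := by
  rw [Submodule.mem_span_singleton]
  constructor
  · rintro ⟨c, rfl⟩
    rcases f2_cases c with rfl | rfl <;> simp
  · rintro (rfl | rfl)
    exacts [⟨0, by simp⟩, ⟨1, by simp⟩]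

theorem mem_span_two {a b v : E} :
    v ∈ Submodule.span F2 {a, b} ↔ v = 0 ∨ v = a ∨ v = b ∨ v = a + b := by
  rw [Submodule.mem_span_pair]
  constructor
  · rintro ⟨c, d, rfl⟩
    rcases f2_cases c with rfl | rfl <;> rcases f2_cases d with rfl | rfl <;> simp
  · rintro (rfl | rfl | rfl | rfl)
    exacts [⟨0, 0, by simp⟩, ⟨1, 0, by simp⟩, ⟨0, 1, by simp⟩, ⟨1, 1, by simp⟩]

/-- A non-degenerate alternating form. -/
structure Sy (B : E →ₗ[F2] E →ₗ[F2] F2) : Prop where
  alt : ∀ u, B u u = 0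
  nd : ∀ u, (∀ v, B u v = 0) → u = 0

/-- The transvection in `u`. -/
def tv (B : E →ₗ[F2] E →ₗ[F2] F2) (u : E) : E →ₗ[F2] E := LinearMap.id + (B u).smulRight u

variable {B : E →ₗ[F2] E →ₗ[F2] F2}

theorem tv_apply (u v : E) : tv B u v = v + B u v • u := rfl

theorem tv_zero {u v : E} (h : B u v = 0) : tv B u v = v := by simp [tv_apply, h]

theorem tv_one {u v : E} (h : B u v = 1) : tv B u v = v + u := by simp [tv_apply, h]

namespace Sy

variable (h : Sy B)
include h

theorem symm (u v : E) : B u v = B v u := by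
  have := h.alt (u + v)
  simp only [map_add, LinearMap.add_apply, h.alt, zero_add, add_zero] at this
  exact (add_eq_zero (E := F2)).1 ((add_comm _ _).trans this)

/-- The form as a formed space. -/
def fm : Fm F2 E := fmAlt B h.alt h.nd

theorem tv_self (u : E) : tv B u u = u := tv_zero (h.alt u)

theorem tv_tv (u v : E) : tv B u (tv B u v) = v := by
  rcases f2_cases (B u v) with e | e
  · rw [tv_zero e, tv_zero e]
  · rw [tv_one e, tv_one (by simp [e, h.alt]), add_add_cancel]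

theorem B_tv (u v w : E) : B (tv B u v) (tv B u w) = B v w := by
  simp only [tv_apply, map_add, map_smul, LinearMap.add_apply, LinearMap.smul_apply, h.alt,
    smul_eq_mul, h.symm v u]
  linear_combination (B u v * B u w) * f2_two

theorem tv_conj (a b v : E) : tv B a (tv B b (tv B a v)) = tv B (tv B a b) v := by
  rw [tv_apply b, map_add, map_smul, h.tv_tv, tv_apply (tv B a b), ← h.B_tv a (tv B a b) v, h.tv_tv]

theorem ex_one {a : E} (ha : a ≠ 0) : ∃ w, B a w = 1 := by
  by_contra hc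
  push Not at hc
  exact ha (h.nd a fun v => f2_ne_one.1 (hc v))

variable [Finite E]

theorem ex_sub (W : Submodule F2 E) {v : E} (hv : v ∉ W) :
    ∃ w, (∀ x ∈ W, B x w = 0) ∧ B v w = 1 := by
  obtain ⟨w, h1, h2⟩ := h.fm.exists_perp_not_perp hv
  exact ⟨w, h1, by rw [h.symm]; exact h2⟩

theorem ex01 {a b : E} (h0 : b ≠ 0) (h1 : b ≠ a) : ∃ w, B a w = 0 ∧ B b w = 1 := by
  obtain ⟨w, e1, e2⟩ := h.ex_sub (Submodule.span F2 {a}) (v := b) (by simp [mem_span_one, h0, h1])
  exact ⟨w, e1 a (Submodule.mem_span_singleton_self a), e2⟩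

theorem ex001 {a b c : E} (h0 : c ≠ 0) (h1 : c ≠ a) (h2 : c ≠ b) (h3 : c ≠ a + b) :
    ∃ w, B a w = 0 ∧ B b w = 0 ∧ B c w = 1 := by
  obtain ⟨w, e1, e2⟩ := h.ex_sub (Submodule.span F2 {a, b}) (v := c)
    (by simp [mem_span_two, h0, h1, h2, h3])
  exact ⟨w, e1 a (Submodule.subset_span (by simp)), e1 b (Submodule.subset_span (by simp)), e2⟩

theorem ex11 {a b : E} (ha : a ≠ 0) (hb : b ≠ 0) : ∃ w, B a w = 1 ∧ B b w = 1 := by
  obtain ⟨w, e1, e2⟩ := h.ex01 (a := a + b) ha (by simpa using hb)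
  refine ⟨w, e2, ?_⟩
  rw [map_add, LinearMap.add_apply, e2] at e1
  exact ((add_eq_zero (E := F2)).1 e1).symm

theorem ex011 {y a b : E} (ha : a ≠ 0) (hb : b ≠ 0) (ha' : a ≠ y) (hb' : b ≠ y) :
    ∃ w, B y w = 0 ∧ B a w = 1 ∧ B b w = 1 := by
  obtain ⟨w, e0, e1, e2⟩ := h.ex001 (a := y) (b := a + b) ha ha' (by simpa using hb) (by
    intro e
    rw [add_left_comm, left_eq_add, add_eq_zero] at e
    exact hb' e.symm)
  refine ⟨w, e0, e2, ?_⟩
  rw [map_add, LinearMap.add_apply, e2] at e1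
  exact ((add_eq_zero (E := F2)).1 e1).symm

/-- The perpendicular of a list of vectors. -/
def pp (l : List E) : Submodule F2 E := h.fm.perp (Submodule.span F2 {a | a ∈ l})

omit [Finite E] in
theorem mem_pp {l : List E} {w : E} : w ∈ h.pp l ↔ ∀ a ∈ l, B a w = 0 := by
  refine ⟨fun hw a ha => hw a (Submodule.subset_span ha), fun hw x hx => ?_⟩
  induction hx using Submodule.span_induction with
  | mem x hx => exact hw x hx
  | zero => simp
  | add x y _ _ h1 h2 => rw [map_add, LinearMap.add_apply, h1, h2, add_zero]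
  | smul c x _ h1 => rw [LinearMap.map_smulₛₗ, LinearMap.smul_apply, h1, smul_zero]

theorem finrank_pp (l : List E) : finrank F2 E ≤ finrank F2 (h.pp l) + l.length := by
  classical
  have h1 := h.fm.finrank_add_perp (Submodule.span F2 {a | a ∈ l})
  have h2 : finrank F2 (Submodule.span F2 {a | a ∈ l}) ≤ l.length := by
    have : {a | a ∈ l} = (l.toFinset : Set E) := by ext; simp
    rw [this]
    exact (finrank_span_finset_le_card _).trans (List.toFinset_card_le l)
  unfold pp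
  omega

theorem ex_perp (l : List E) (W : Submodule F2 E) (hl : l.length + finrank F2 W < finrank F2 E) :
    ∃ w, w ∉ W ∧ ∀ a ∈ l, B a w = 0 := by
  by_contra hc
  push Not at hc
  have : h.pp l ≤ W := fun w hw => by
    by_contra h1
    obtain ⟨a, h2, h3⟩ := hc w h1
    exact h3 (h.mem_pp.1 hw a h2)
  have := Submodule.finrank_mono this
  have := h.finrank_pp l
  omega

theorem ex_perp_zero (l : List E) (hl : l.length < finrank F2 E) :
    ∃ w, w ≠ 0 ∧ ∀ a ∈ l, B a w = 0 := by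
  simpa using h.ex_perp l ⊥ (by simpa using hl)

theorem ex_perp_one (l : List E) (y : E) (hl : l.length + 1 < finrank F2 E) :
    ∃ w, w ≠ 0 ∧ w ≠ y ∧ ∀ a ∈ l, B a w = 0 := by
  have : finrank F2 (Submodule.span F2 {y}) ≤ 1 := by
    have := finrank_span_finset_le_card (R := F2) ({y} : Finset E)
    rwa [Set.finrank, Finset.coe_singleton] at this
  simpa [mem_span_one, and_assoc] using h.ex_perp l (Submodule.span F2 {y}) (by omega)

theorem two_mul_finrank_le {W : Submodule F2 E} (hW : ∀ a ∈ W, ∀ b ∈ W, B a b = 0) :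
    2 * finrank F2 W ≤ finrank F2 E := by
  have h1 := h.fm.finrank_add_perp W
  have h2 : W ≤ h.fm.perp W := fun b hb a ha => hW a ha b hb
  have := Submodule.finrank_mono h2
  omega

theorem mem_of_lagr {W : Submodule F2 E} (hW : ∀ a ∈ W, ∀ b ∈ W, B a b = 0)
    (h2 : finrank F2 E ≤ 2 * finrank F2 W) {v : E} (hv : ∀ a ∈ W, B a v = 0) : v ∈ W := by
  have h1 := h.fm.finrank_add_perp W
  have h3 : W ≤ h.fm.perp W := fun b hb a ha => hW a ha b hb
  rw [Submodule.eq_of_le_of_finrank_le h3 (by omega)]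
  exact hv

section Trans

variable {S : (E →ₗ[F2] E) → Prop} {N : E → Prop}
  (hmul : ∀ σ τ, S σ → S τ → S (σ ∘ₗ τ))
  (htt : ∀ u w, N u → N w → S (tv B u ∘ₗ tv B w))
include hmul htt

omit [Finite E] hmul in
theorem mv_one {y u v w : E} (huv : B u v = 1) (hN : N (u + v)) (hw : N w) (hwu : B w u = 0)
    (hwy : B w y = 0) (hyu : B y u = B y v) : ∃ σ, S σ ∧ σ y = y ∧ σ u = v := by
  refine ⟨_, htt _ _ hN hw, ?_, ?_⟩
  · rw [LinearMap.comp_apply, tv_zero hwy, tv_zero]
    rw [h.symm, map_add, hyu, f2_add_self]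
  · rw [LinearMap.comp_apply, tv_zero hwu, tv_one, add_add_cancel']
    rw [map_add, LinearMap.add_apply, h.alt, zero_add, h.symm, huv]

omit [Finite E] h htt in
theorem mv_trans {y u v w : E} (h1 : ∃ σ, S σ ∧ σ y = y ∧ σ u = v) (h2 : ∃ σ, S σ ∧ σ y = y ∧ σ v = w) :
    ∃ σ, S σ ∧ σ y = y ∧ σ u = w := by
  obtain ⟨σ, a1, a2, a3⟩ := h1
  obtain ⟨τ, b1, b2, b3⟩ := h2
  exact ⟨_, hmul _ _ b1 a1, by simp [a2, b2], by simp [a3, b3]⟩

omit [Finite E] hmul in
theorem mv_refl {w : E} (hw : N w) (y u : E) : ∃ σ, S σ ∧ σ y = y ∧ σ u = u :=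
  ⟨_, htt _ _ hw hw, h.tv_tv _ _, h.tv_tv _ _⟩

/-- Transitivity on non-zero vectors. -/
theorem lu_trans (hN : ∀ u, u ≠ 0 → N u) {u v : E} (hu : u ≠ 0) (hv : v ≠ 0) : ∃ σ, S σ ∧ σ u = v := by
  have key : ∀ u v, u ≠ 0 → B u v = 1 → ∃ σ, S σ ∧ σ 0 = 0 ∧ σ u = v := fun u v hu e =>
    h.mv_one htt e (hN _ fun e' => by simp [add_eq_zero.1 e', h.alt] at e) (hN _ hu) (h.alt u)
      (by simp) (by simp)
  obtain ⟨w, e1, e2⟩ := h.ex11 hu hv
  obtain ⟨σ, h1, -, h2⟩ := mv_trans hmul (key u w hu e1)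
    (key w v (fun e => by simp [e] at e1) (h.symm _ _ ▸ e2))
  exact ⟨σ, h1, h2⟩

/-- Transitivity of the stabiliser of a vector on its perpendicular. -/
theorem lu_trans₂ (hN : ∀ u, u ≠ 0 → N u) {y u v : E} (hy : y ≠ 0) (hu : u ≠ 0) (hv : v ≠ 0)
    (hu' : u ≠ y) (hv' : v ≠ y) (h1 : B y u = 0) (h2 : B y v = 0) : ∃ σ, S σ ∧ σ y = y ∧ σ u = v := by
  have key : ∀ u v, B y u = 0 → B y v = 0 → B u v = 1 → ∃ σ, S σ ∧ σ y = y ∧ σ u = v :=
    fun u v a b e => h.mv_one htt e (hN _ fun e' => by simp [add_eq_zero.1 e', h.alt] at e) (hN _ hy) a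
      (h.alt y) (a.trans b.symm)
  obtain ⟨w, e0, e1, e2⟩ := h.ex011 hu hv hu' hv'
  exact mv_trans hmul (key u w h1 e0 e1) (key w v e0 h2 (h.symm _ _ ▸ e2))

end Trans

end Sy

/-- A quadratic form with polar form `B`. -/
def Qd (B : E →ₗ[F2] E →ₗ[F2] F2) (q : E → F2) : Prop := ∀ u v, q (u + v) = q u + q v + B u v

/-- There is a non-singular vector perpendicular to the given ones. -/
def Ns (B : E →ₗ[F2] E →ₗ[F2] F2) (q : E → F2) (l : List E) : Prop :=
  ∃ w, q w = 1 ∧ ∀ a ∈ l, B a w = 0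

variable {q : E → F2}

theorem Qd.zero (hq : Qd B q) : q 0 = 0 := by
  have := hq 0 0
  simpa using this

theorem Qd.ne (hq : Qd B q) {u : E} (hu : q u = 1) : u ≠ 0 := fun e => by
  rw [e, hq.zero] at hu
  exact zero_ne_one hu

theorem Qd.tv (hq : Qd B q) (h : Sy B) {u : E} (hu : q u = 1) (v : E) : q (tv B u v) = q v := by
  rcases f2_cases (B u v) with e | e
  · rw [tv_zero e]
  · rw [tv_one e, hq, hu, h.symm, e, add_add_cancel]

theorem Qd.B_map (hq : Qd B q) {σ : E →ₗ[F2] E} (hσ : ∀ u, q (σ u) = q u) (u v : E) :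
    B (σ u) (σ v) = B u v := by
  have := hq (σ u) (σ v)
  rw [← map_add, hσ, hσ, hσ, hq] at this
  exact (add_left_cancel this).symm

theorem Sy.exists_qd [Finite E] (h : Sy B) : ∃ q, Qd B q := by
  classical
  let b := Module.finBasis F2 E
  let β : E →ₗ[F2] E →ₗ[F2] F2 :=
    Matrix.toLinearMap₂ b b fun i j => if i < j then B (b i) (b j) else 0
  have hβ : ∀ i j, β (b i) (b j) = if i < j then B (b i) (b j) else 0 := fun i j =>
    Matrix.toLinearMap₂_apply_basis b b _ i j
  have key : β + β.flip = B := LinearMap.ext_basis b b fun i j => by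
    simp only [LinearMap.add_apply, LinearMap.flip_apply, hβ]
    rcases lt_trichotomy i j with e | rfl | e
    · simp [e, e.not_gt]
    · simp [h.alt]
    · simp [e, e.not_gt, h.symm (b i)]
  refine ⟨fun u => β u u, fun u v => ?_⟩
  rw [← key]
  simp only [map_add, LinearMap.add_apply, LinearMap.flip_apply]
  ring

theorem Qd.sum_eq_zero [Fintype E] (hq : Qd B q) (h : Sy B) {a b : E} (ha : a ≠ 0) (hb : b ≠ 0)
    (hab : a ≠ b) (h0 : B a b = 0) : ∑ u, q u = 0 := by
  classical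
  let d : E → E := fun u => if q a + B a u = 0 then a else if q b + B b u = 0 then b else a + b
  have h0' : B b a = 0 := h.symm _ _ ▸ h0
  have h1 : ∀ u, B a (d u) = 0 ∧ B b (d u) = 0 ∧ d u ≠ 0 ∧ q (u + d u) = q u := fun u => by
    simp only [d]
    split_ifs with e1 e2
    · exact ⟨h.alt a, h0', ha, by rw [hq, h.symm u, add_assoc, e1, add_zero]⟩
    · exact ⟨h0, h.alt b, hb, by rw [hq, h.symm u, add_assoc, e2, add_zero]⟩
    · refine ⟨by simp [h.alt, h0], by simp [h.alt, h0'], fun e => hab (add_eq_zero.1 e), ?_⟩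
      rw [hq, hq, h0, map_add, h.symm u, h.symm u]
      linear_combination f2_ne_zero.1 e1 + f2_ne_zero.1 e2 + f2_two
  have h2 : ∀ u, d (u + d u) = d u := fun u => by
    conv_lhs => simp only [d]
    rw [map_add, map_add, (h1 u).1, (h1 u).2.1, add_zero, add_zero]
  exact Finset.sum_involution (fun u _ => u + d u) (fun u _ => by rw [(h1 u).2.2.2, f2_add_self])
    (fun u _ _ => by simpa using (h1 u).2.2.1) (fun _ _ => Finset.mem_univ _)
    fun u _ => by rw [h2, add_add_cancel]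

theorem sum_one_eq_zero [Fintype E] {a : E} (ha : a ≠ 0) : ∑ _u : E, (1 : F2) = 0 :=
  Finset.sum_involution (fun u _ => u + a) (fun _ _ => f2_add_self 1)
    (fun u _ _ => by simpa using ha) (fun _ _ => Finset.mem_univ _) fun u _ => add_add_cancel u a

namespace Qd

variable [Finite E] (hq : Qd B q) (h : Sy B)
include hq h

omit [Finite E] h in
theorem iso_of_sing {W : Submodule F2 E} (hW : ∀ w ∈ W, q w = 0) : ∀ a ∈ W, ∀ b ∈ W, B a b = 0 :=
  fun a ha b hb => by simpa [hW a ha, hW b hb, hW _ (W.add_mem ha hb)] using (hq a b).symm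

omit [Finite E] hq in
theorem sing_of_not {l : List E} (hc : ¬ Ns B q l) : ∀ w ∈ h.pp l, q w = 0 := fun w hw =>
  f2_ne_one.1 fun e => hc ⟨w, e, h.mem_pp.1 hw⟩

theorem ns_of_lt {l : List E} (hl : 2 * l.length < finrank F2 E) : Ns B q l := by
  by_contra hc
  have := h.two_mul_finrank_le (hq.iso_of_sing (sing_of_not h hc))
  have := h.finrank_pp l
  omega

theorem ns_of_le {l : List E} (hl : 2 * l.length ≤ finrank F2 E) {a : E} (ha : a ∈ l) (h1 : q a = 1) :
    Ns B q l := by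
  by_contra hc
  have h2 := h.finrank_pp l
  have := sing_of_not h hc a (h.mem_of_lagr (hq.iso_of_sing (sing_of_not h hc)) (by omega)
    fun w hw => h.symm _ _ ▸ h.mem_pp.1 hw a ha)
  rw [h1] at this
  exact one_ne_zero this

omit hq in
theorem ns_of_two {l : List E} (hl : l.length + 2 ≤ finrank F2 E)
    (hm : ∀ a b, q a = 0 → q b = 0 → B a b = 0 → a = 0 ∨ b = 0 ∨ a = b)
    (hq : Qd B q) : Ns B q l := by
  by_contra hc
  obtain ⟨a, a0, a1⟩ := h.ex_perp_zero l (by omega)
  obtain ⟨b, b0, b1, b2⟩ := h.ex_perp_one l a (by omega)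
  have h1 := sing_of_not h hc
  have ha := h.mem_pp.2 a1
  have hb := h.mem_pp.2 b2
  rcases hm a b (h1 a ha) (h1 b hb) (hq.iso_of_sing h1 a ha b hb) with e | e | e
  exacts [a0 e, b0 e, b1 e.symm]

omit hq in
theorem ns_of_three {l : List E} (hl : l.length + 3 ≤ finrank F2 E)
    (hm : ∀ a b c, q a = 0 → q b = 0 → q c = 0 → B a b = 0 → B a c = 0 → B b c = 0 →
      a = 0 ∨ b = 0 ∨ a = b ∨ c = 0 ∨ c = a ∨ c = b ∨ c = a + b) (hq : Qd B q) : Ns B q l := by
  by_contra hc
  obtain ⟨a, a0, a1⟩ := h.ex_perp_zero l (by omega)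
  obtain ⟨b, b0, b1, b2⟩ := h.ex_perp_one l a (by omega)
  have : finrank F2 (Submodule.span F2 {a, b}) ≤ 2 := by
    classical
    have := finrank_span_finset_le_card (R := F2) ({a, b} : Finset E)
    rw [Set.finrank, Finset.coe_pair] at this
    exact this.trans Finset.card_le_two
  obtain ⟨c, c0, c1⟩ := h.ex_perp l (Submodule.span F2 {a, b}) (by omega)
  have h1 := sing_of_not h hc
  have ha := h.mem_pp.2 a1
  have hb := h.mem_pp.2 b2
  have hc := h.mem_pp.2 c1
  have h2 := hq.iso_of_sing h1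
  rcases hm a b c (h1 a ha) (h1 b hb) (h1 c hc) (h2 a ha b hb) (h2 a ha c hc) (h2 b hb c hc) with
    e | e | e | e
  exacts [a0 e, b0 e, b1 e.symm, c0 (mem_span_two.2 e)]

omit [Finite E] in
theorem span₁ (H : ∀ a b, Ns B q [a, b]) {f : E} (hf : f ≠ 0) : ∃ b, q b = 1 ∧ B f b = 1 := by
  obtain ⟨v, hv⟩ := h.ex_one hf
  rcases f2_cases (q v) with e | e
  · obtain ⟨w, h1, h2⟩ := H f v
    exact ⟨v + w, by simp [hq v w, e, h1, h2 v], by simp [hv, h2 f]⟩
  · exact ⟨v, e, hv⟩

theorem span₂ (H : ∀ a b c, Ns B q [a, b, c]) {y f : E} (hf : f ≠ 0) (hf' : f ≠ y) :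
    ∃ b, q b = 1 ∧ B y b = 0 ∧ B f b = 1 := by
  obtain ⟨v, hv', hv⟩ := h.ex01 hf hf'
  rcases f2_cases (q v) with e | e
  · obtain ⟨w, h1, h2⟩ := H y f v
    exact ⟨v + w, by simp [hq v w, e, h1, h2 v], by simp [hv', h2 y], by simp [hv, h2 f]⟩
  · exact ⟨v, e, hv', hv⟩

section Trans

variable {S : (E →ₗ[F2] E) → Prop}
  (hmul : ∀ σ τ, S σ → S τ → S (σ ∘ₗ τ))
  (htt : ∀ u w, q u = 1 → q w = 1 → S (C6P.tv B u ∘ₗ C6P.tv B w))
include hmul htt

/-- The stabiliser of a non-singular vector is transitive on the other non-singular vectors in its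
perpendicular. -/
theorem trans_fix {x u v : E} (hx : q x = 1) (hu : q u = 1) (hv : q v = 1) (hu' : u ≠ x)
    (hv' : v ≠ x) (h1 : B x u = 0) (h2 : B x v = 0) : ∃ σ, S σ ∧ σ x = x ∧ σ u = v := by
  have key : ∀ u v, q u = 1 → q v = 1 → B x u = 0 → B x v = 0 → B u v = 1 →
      ∃ σ, S σ ∧ σ x = x ∧ σ u = v := fun u v a' b' a b e =>
    h.mv_one (N := fun u => q u = 1) htt e (by simp [hq u v, a', b', e, f2_one_add_one]) hx a (h.alt x)
      (a.trans b.symm)
  obtain ⟨w, e0, e1, e2⟩ := h.ex011 (hq.ne hu) (hq.ne hv) hu' hv'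
  obtain ⟨w, e0, e1, e2, e3⟩ : ∃ w, B x w = 0 ∧ B u w = 1 ∧ B v w = 1 ∧ q w = 1 := by
    rcases f2_cases (q w) with e | e
    · exact ⟨w + x, by simp [e0, h.alt], by simp [e1, h.symm u x, h1], by simp [e2, h.symm v x, h2],
        by simp [hq w x, e, hx, h.symm w x, e0]⟩
    · exact ⟨w, e0, e1, e2, e⟩
  exact Sy.mv_trans hmul (key u w hu e3 h1 e0 e1) (key w v e3 hv e0 h2 (h.symm _ _ ▸ e2))

/-- Transitivity on the vectors of a given norm. -/
theorem trans_all (H1 : ∀ a, Ns B q [a])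
    (H : ∀ x x' w, q x = 1 → q x' = 1 → x ≠ x' → B x x' = 0 → B x w = 1 → B x' w = 1 → q w = 0 →
      Ns B q [x, x', w]) {u v : E} (hu : u ≠ 0) (hv : v ≠ 0) (e : q u = q v) : ∃ σ, S σ ∧ σ u = v := by
  have key : ∀ u v, q u = q v → B u v = 1 → ∃ σ, S σ ∧ σ 0 = 0 ∧ σ u = v := fun u v a e => by
    obtain ⟨w, w1, w2⟩ := H1 u
    exact h.mv_one (N := fun u => q u = 1) htt e (by simp [hq u v, a, e, f2_add_self]) w1
      (h.symm _ _ ▸ w2 u (by simp)) (by simp) (by simp)
  suffices ∃ σ, S σ ∧ σ 0 = 0 ∧ σ u = v from let ⟨σ, a, _, b⟩ := this; ⟨σ, a, b⟩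
  rcases f2_cases (B u v) with e0 | e0
  swap
  · exact key u v e e0
  by_cases huv : u = v
  · obtain ⟨w, w1, -⟩ := H1 u
    exact huv ▸ h.mv_refl (N := fun u => q u = 1) htt w1 0 u
  obtain ⟨w, e1, e2⟩ := h.ex11 hu hv
  obtain ⟨w, e1, e2, e3⟩ : ∃ w, B u w = 1 ∧ B v w = 1 ∧ q w = q u := by
    by_cases e3 : q w = q u
    · exact ⟨w, e1, e2, e3⟩
    rcases f2_cases (q u) with e4 | e4
    · rw [e4] at e3
      exact ⟨w + u, by simp [e1, h.alt], by simp [e2, h.symm v u, e0],
        by simp [hq w u, f2_ne_zero.1 e3, e4, h.symm w u, e1, f2_one_add_one]⟩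
    · rw [e4] at e3
      obtain ⟨z, z1, z2⟩ := H u v w e4 (e ▸ e4) huv e0 e1 e2 (f2_ne_one.1 e3)
      exact ⟨w + z, by simp [e1, z2 u], by simp [e2, z2 v],
        by simp [hq w z, f2_ne_one.1 e3, e4, z1, z2 w]⟩
  exact Sy.mv_trans hmul (key u w e3.symm e1) (key w v (e3.trans e) (h.symm _ _ ▸ e2))

end Trans

/-- A family of isometries acting semiregularly on the non-singular vectors and normalised by
products of two reflections is trivial. -/
theorem eq_id_of_semireg {J : (E →ₗ[F2] E) → Prop} (iso : ∀ σ, J σ → ∀ u, q (σ u) = q u)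
    (fix : ∀ σ, J σ → ∀ u, q u = 1 → σ u = u → σ = LinearMap.id)
    (comm : ∀ σ, J σ → ∀ u w, q u = 1 → q w = 1 →
      J (C6P.tv B (σ u) ∘ₗ C6P.tv B (σ w) ∘ₗ C6P.tv B w ∘ₗ C6P.tv B u))
    (sq : ∀ σ, J σ → J (σ ∘ₗ σ))
    (hd : 6 ≤ finrank F2 E ∨ (4 ≤ finrank F2 E ∧
      ∀ a b, q a = 0 → q b = 0 → B a b = 0 → a = 0 ∨ b = 0 ∨ a = b))
    {σ : E →ₗ[F2] E} (hσ : J σ) : σ = LinearMap.id := by
  have H : ∀ a b, Ns B q [a, b] := fun a b =>
    hd.elim (fun e => hq.ns_of_lt h (by simp; omega)) fun e => ns_of_two h (by simp; omega) e.2 hq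
  by_contra hne
  have hs := iso σ hσ
  have hB := hq.B_map hs
  have key : ∀ u, q u = 1 → σ (σ u) = C6P.tv B (σ u) u := fun u hu => by
    set v := C6P.tv B (σ u) (σ (σ u)) with hv
    have hv1 : q v = 1 := by rw [hv, hq.tv h (by rw [hs, hu]), hs, hs, hu]
    have e : ∀ z, (C6P.tv B (σ u) ∘ₗ C6P.tv B (σ (σ u)) ∘ₗ C6P.tv B (σ u) ∘ₗ C6P.tv B u) z =
        C6P.tv B v (C6P.tv B u z) := fun z => h.tv_conj _ _ _
    obtain ⟨w, w1, w2⟩ := H u v
    have e1 := fix _ (comm σ hσ u (σ u) hu (by rw [hs, hu])) w w1 (by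
      rw [e, tv_zero (w2 u (by simp)), tv_zero (w2 v (by simp))])
    have e2 : v = u := by
      by_contra hc
      obtain ⟨z, z1, z2⟩ := h.ex01 (hq.ne hv1) hc
      have := e z
      rw [e1, tv_zero z1, tv_one z2] at this
      exact hq.ne hv1 (by simpa using this)
    rw [← h.tv_tv (σ u) (σ (σ u)), ← hv, e2]
  by_cases h0 : ∃ u, q u = 1 ∧ B (σ u) u = 0
  · obtain ⟨u, hu, h0⟩ := h0
    have e1 := fix _ (sq σ hσ) u hu (by rw [LinearMap.comp_apply, key u hu, tv_zero h0])
    have e2 : ∀ v, σ (σ v) = v := fun v => LinearMap.congr_fun e1 v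
    have e3 : ∀ a b, B a (σ b) = B (σ a) b := fun a b => by rw [← hB, e2]
    have e4 : ∀ w, q w = 1 → B w (σ w) = 0 := fun w hw => f2_ne_one.1 fun e => by
      have := key w hw
      rw [e2, tv_one (h.symm _ _ ▸ e), left_eq_add] at this
      exact hq.ne (by rw [hs, hw]) this
    have e5 : ∀ w, q w = 1 → q (w + σ w) = 0 := fun w hw => by
      simp [hq w, hs, hw, e4 w hw, f2_one_add_one]
    have e6 : ∀ w, q w = 1 → w + σ w ≠ 0 := fun w hw e =>
      hne (fix σ hσ w hw (add_eq_zero.1 e).symm)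
    have e7 : ∀ a b, B (a + σ a) (b + σ b) = 0 := fun a b => by
      simp only [map_add, LinearMap.add_apply, hB, e3, e2]
      linear_combination (B a b + B (σ a) b) * f2_two
    have e8 : ∀ a b, B a (b + σ b) = B (a + σ a) b := fun a b => by simp [e3]
    have e9 : B u (u + σ u) = 0 := by simp [h.alt, e4 u hu]
    rcases hd with hd | hd
    · obtain ⟨v, v1, v2⟩ := h.ex01 (a := u + σ u) (hq.ne hu) fun e => by
        have := e5 u hu
        rw [← e, hu] at this
        exact one_ne_zero this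
      obtain ⟨w, w1, w2⟩ := hq.ns_of_le h (l := [u + σ u, u, v]) (by simp; omega) (a := u) (by simp) hu
      have w3 := w2 _ (List.mem_cons_self)
      have w4 := w2 u (by simp)
      have w5 := w2 v (by simp)
      obtain ⟨z, z1, z2, z3, z4, z5, z6⟩ : ∃ z, σ z = z ∧ q z = 0 ∧ z ≠ 0 ∧ z ≠ u + σ u ∧ B u z = 0 ∧
          B (u + σ u) z = 0 := by
        by_cases e : w + σ w = u + σ u
        · refine ⟨u + w, ?_, by simp [hq u, hu, w1, w4, f2_one_add_one], fun e' => ?_, fun e' => ?_,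
            by simp [h.alt, w4], by rw [map_add, w3, h.symm, e9, add_zero]⟩
          · rw [map_add, ← add_eq_zero]
            calc σ u + σ w + (u + w) = (u + σ u) + (w + σ w) := by abel
              _ = 0 := by rw [e, add_self]
          · rw [← add_eq_zero.1 e', h.symm, v2] at w5
            exact one_ne_zero w5
          · rw [← e', map_add, LinearMap.add_apply, v2, h.symm w, w5] at v1
            simp at v1
        · exact ⟨w + σ w, by rw [map_add, e2, add_comm], e5 w w1, e6 w w1, e, by rw [e8, w3], e7 _ _⟩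
      have z7 : B (σ u) z = 0 := by simpa [z5] using z6
      have e10 := fix _ (comm σ hσ u (u + z) hu (by simp [hq u, hu, z2, z5])) u hu (by
        simp [tv_apply, h.alt, h.symm z u, z5, z1, h0])
      obtain ⟨t, t1, t2⟩ := h.ex01 z3 z4
      have t3 : B (σ u) t = B u t := by
        rw [map_add, LinearMap.add_apply] at t1
        exact ((add_eq_zero (E := F2)).1 t1).symm
      have := LinearMap.congr_fun e10 t
      simp only [LinearMap.comp_apply, tv_apply, map_add, map_smul, LinearMap.add_apply, z1, h.alt,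
        h.symm z u, h.symm z (σ u), z5, z7, h0, t2, t3, smul_eq_mul, LinearMap.id_apply] at this
      apply e6 u hu
      rcases f2_cases (B u t) with e | e <;>
        simp only [e, zero_add, add_zero, one_smul, zero_smul, f2_one_add_one] at this
      · rw [← add_left_cancel_iff (a := t), add_zero]
        conv_rhs => rw [← this]
        rw [← add_zero (t + (u + σ u)), ← add_self z]
        abel
      · rw [← add_left_cancel_iff (a := t), add_zero]
        conv_rhs => rw [← this]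
        abel
    · obtain ⟨w, w1, w2⟩ := hq.span₁ h H (e6 u hu)
      rcases hd.2 _ _ (e5 u hu) (e5 w w1) (e7 _ _) with e | e | e
      · exact e6 u hu e
      · exact e6 w w1 e
      · rw [← e8, ← e, e9] at w2
        exact zero_ne_one w2
  · push Not at h0
    have e1 : ∀ u, q u = 1 → B (σ u) u = 1 := fun u hu => f2_ne_zero.1 (h0 u hu)
    obtain ⟨u, hu, -⟩ := H 0 0
    obtain ⟨w, hw, w2⟩ := H u (σ u)
    have w3 := w2 u (by simp)
    have w4 := w2 (σ u) (by simp)
    have w5 : B u (σ w) = 0 := by rw [← hB, key w hw, tv_one (e1 w hw), map_add, w4, hB, w3, add_zero]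
    have u1 := e1 u hu
    have u2 : B u (σ u) = 1 := h.symm _ _ ▸ u1
    have w6 := e1 w hw
    have w7 : B w (σ w) = 1 := h.symm _ _ ▸ w6
    have w8 : B (σ u) (σ w) = 0 := by rw [hB, w3]
    rcases hd with hd | hd
    · obtain ⟨f, f0, f1⟩ := h.ex_perp_zero [u, σ u, w, σ w] (by simp; omega)
      obtain ⟨g, g1⟩ := h.ex_one f0
      have a1 := f1 u (by simp)
      have a2 := f1 (σ u) (by simp)
      have a3 := f1 w (by simp)
      have a4 := f1 (σ w) (by simp)
      obtain ⟨g, g1, b1, b2, b3, b4⟩ : ∃ g, B f g = 1 ∧ B u g = 0 ∧ B (σ u) g = 0 ∧ B w g = 0 ∧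
          B (σ w) g = 0 := by
        refine ⟨g + B (σ u) g • u + B u g • σ u + B (σ w) g • w + B w g • σ w, ?_, ?_, ?_, ?_, ?_⟩ <;>
        simp [h.symm f, a1, a2, a3, a4, h.symm g f ▸ g1, h.alt, u1, u2, w3, w4, w5, w6, w7, w8,
          h.symm w u, h.symm w (σ u), h.symm (σ w) u, h.symm (σ w) (σ u), f2_add_self]
      obtain ⟨t, t0, t1, t2, t3, t4⟩ : ∃ t, q t = 1 ∧ B u t = 0 ∧ B (σ u) t = 0 ∧ B w t = 0 ∧
          B (σ w) t = 0 := by
        rcases f2_cases (q f) with c | c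
        · rcases f2_cases (q g) with d | d
          · exact ⟨f + g, by simp [hq f, c, d, g1], by simp [a1, b1], by simp [a2, b2], by simp [a3, b3],
              by simp [a4, b4]⟩
          · exact ⟨g, d, b1, b2, b3, b4⟩
        · exact ⟨f, c, a1, a2, a3, a4⟩
      have e2 := fix _ (comm σ hσ u w hu hw) t t0 (by simp [tv_apply, t1, t2, t3, t4])
      have := LinearMap.congr_fun e2 u
      simp only [LinearMap.comp_apply, h.tv_self, tv_zero (h.symm _ _ ▸ w3 : B w u = 0),
        tv_zero (h.symm _ _ ▸ w5 : B (σ w) u = 0), tv_one u1, LinearMap.id_apply, add_eq_left] at this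
      exact hq.ne (by rw [hs, hu]) this
    · rcases hd.2 (u + w) (σ u + σ w) (by simp [hq u, hu, hw, w3, f2_one_add_one])
        (by simp [hq (σ u), hs, hu, hw, w8, f2_one_add_one])
        (by simp [u2, w5, w7, h.symm w (σ u), w4, f2_one_add_one]) with e | e | e
      · rw [← add_eq_zero.1 e, u1] at w4
        exact one_ne_zero w4
      · rw [← add_eq_zero.1 e, u2] at w5
        exact one_ne_zero w5
      · have := congrArg (B u) e
        simp [h.alt, w3, u2, w5] at this

end Qd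

end Cfsg.Agent.Class.C6P
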