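import Mathlib
import Cfsg.Agent.Class.C6P.F2

/-!
Two criteria for an elementary abelian `2`-subgroup of a finite group to be normal.
-/

set_option autoImplicit false

namespace Cfsg.Agent.Class.C6P

section Dih

variable {G : Type*} [Group G] {x y : G}

theorem mul_pow_inv (hx : x * x = 1) (hy : y * y = 1) (j : ℕ) :
    x * ((x * y) ^ j)⁻¹ = (x * y) ^ j * x := by
  have hx' : x⁻¹ = x := inv_eq_of_mul_eq_one_right hx
  have hy' : y⁻¹ = y := inv_eq_of_mul_eq_one_right hy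
  have : x * (x * y)⁻¹ * x⁻¹ = x * y := by
    rw [mul_inv_rev, hy', mul_assoc, mul_assoc, hx', hx, mul_one]
  rw [← inv_pow, ← mul_inv_eq_iff_eq_mul, ← conj_pow, this]

theorem pow_mul_conj (hx : x * x = 1) (hy : y * y = 1) {L : Subgroup G} (hxL : x ∈ L) (hyL : y ∈ L)
    (j : ℕ) : ∃ l ∈ L, (x * y) ^ j * x = l * x * l⁻¹ ∨ (x * y) ^ j * x = l * y * l⁻¹ := by
  have hx' : x⁻¹ = x := inv_eq_of_mul_eq_one_right hx
  have hm := L.mul_mem hxL hyL
  obtain ⟨i, rfl | rfl⟩ := Nat.even_or_odd' j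
  · refine ⟨_, L.pow_mem hm i, Or.inl ?_⟩
    rw [mul_assoc, mul_pow_inv hx hy, ← mul_assoc, ← pow_add, two_mul]
  · refine ⟨(x * y) ^ i * x, L.mul_mem (L.pow_mem hm i) hxL, Or.inr ?_⟩
    rw [mul_inv_rev, hx', mul_assoc, mul_assoc, mul_pow_inv hx hy, ← mul_assoc, ← mul_assoc,
      ← mul_assoc, mul_assoc _ x y, ← pow_succ, ← pow_add]
    congr 2
    omega

theorem dihedral [Finite G] (hx : x * x = 1) (hy : y * y = 1) {L : Subgroup G} (hxL : x ∈ L)
    (hyL : y ∈ L) :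
    (∃ f ∈ L, f * f = 1 ∧ f * x * f⁻¹ = y ∧ (∃ l, f = l * x * l⁻¹ ∨ f = l * y * l⁻¹) ∧
      ∀ g, g * x * g⁻¹ = y → g * y * g⁻¹ = x → g * f * g⁻¹ = f) ∨
    ∃ z ∈ L, z ≠ 1 ∧ Commute z x ∧ Commute z y ∧
      (∃ l, z * x = l * x * l⁻¹ ∨ z * x = l * y * l⁻¹) ∧
      ∃ l ∈ L, z * y = l * y * l⁻¹ ∨ z * y = l * x * l⁻¹ := by
  have hx' : x⁻¹ = x := inv_eq_of_mul_eq_one_right hx
  have hy' : y⁻¹ = y := inv_eq_of_mul_eq_one_right hy
  have hm := L.mul_mem hxL hyL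
  have h1 := mul_pow_inv hx hy
  have h0 := orderOf_pos (x * y)
  have h2 := pow_orderOf_eq_one (x * y)
  have h5 : ∀ j, (y * x) ^ j = ((x * y) ^ j)⁻¹ := fun j => by rw [← inv_pow, mul_inv_rev, hx', hy']
  obtain ⟨j, hj | hj⟩ := Nat.even_or_odd' (orderOf (x * y))
  · rw [hj, two_mul, pow_add] at h2
    have h4 := inv_eq_of_mul_eq_one_right h2
    have h3 : Commute ((x * y) ^ j) x := by rw [Commute, SemiconjBy, ← h1, h4]
    obtain ⟨l, -, hl⟩ := pow_mul_conj hx hy hxL hyL j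
    refine Or.inr ⟨_, L.pow_mem hm j, pow_ne_one_of_lt_orderOf (by omega) (by omega), h3, ?_, ⟨l, hl⟩,
      ?_⟩
    · have := h3.mul_right ((Commute.refl (x * y)).pow_left j)
      rwa [← mul_assoc, hx, one_mul] at this
    · rw [← h4, ← h5]
      exact pow_mul_conj hy hx hyL hxL j
  · rw [hj] at h2
    obtain ⟨l, -, hl⟩ := pow_mul_conj hx hy hxL hyL j
    have h3 : (x * y) ^ j * (x * y) ^ j * x = y := by
      rw [← pow_add, ← two_mul, ← mul_left_inj y, mul_assoc, ← pow_succ, h2, hy]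
    refine Or.inl ⟨(x * y) ^ j * x, L.mul_mem (L.pow_mem hm j) hxL, ?_, ?_, ⟨l, hl⟩, fun g g1 g2 => ?_⟩
    · conv_lhs => rw [mul_assoc, ← h1, ← mul_assoc x, hx, one_mul, mul_inv_cancel]
    · rw [mul_assoc _ x x, hx, mul_one, mul_inv_rev, hx', h1, ← mul_assoc, h3]
    · have : g * ((x * y) ^ j * x) * g⁻¹ = (g * x * g⁻¹ * (g * y * g⁻¹)) ^ j * (g * x * g⁻¹) := by
        rw [show g * x * g⁻¹ * (g * y * g⁻¹) = g * (x * y) * g⁻¹ by group, conj_pow]; group
      rw [this, g1, g2, h5, inv_mul_eq_iff_eq_mul, ← mul_assoc, h3]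

end Dih

variable {G : Type*} [Group G] [Finite G]

theorem mem_normalizer_of {A : Subgroup G} {g : G} (h : ∀ a ∈ A, g * a * g⁻¹ ∈ A) :
    g ∈ Subgroup.normalizer (A : Set G) :=
  Subgroup.mem_normalizer_fintype h

/-- Normality from self-centralising involutions in a normal subgroup. -/
theorem normal_of_selfcent {A L : Subgroup G} [hL : L.Normal] (hAL : A ≤ L)
    (hA : ∀ a ∈ A, a * a = 1) {T : G → Prop} (hT : ∀ t, T t → t ∈ A)
    (ha : ∀ t, T t → ∀ l ∈ L, l * t = t * l → l ∈ A)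
    (hb : ∀ l ∈ L, l ∈ Subgroup.normalizer (A : Set G) → l ∈ A)
    (hc : ∀ t k, T t → k * t * k⁻¹ ∈ A → T (k * t * k⁻¹)) {w w' : G} (h1 : T w) (h2 : T w')
    (h3 : T (w * w')) : A.Normal := by
  have hcomm : ∀ a ∈ A, ∀ b ∈ A, a * b = b * a := fun a m b m' => by
    rw [← inv_eq_of_mul_eq_one_right (hA _ (A.mul_mem m m')), mul_inv_rev,
      inv_eq_of_mul_eq_one_right (hA a m), inv_eq_of_mul_eq_one_right (hA b m')]
  have nf : ∀ v, T v → ∀ l ∈ L, l * v * l⁻¹ ∈ A → l * v * l⁻¹ = v := fun v hv l hl e => by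
    have : l⁻¹ ∈ A := hb _ (L.inv_mem hl) (mem_normalizer_of fun a m =>
      ha v hv _ (hL.conj_mem _ (hAL m) _) (by
        have := hcomm a m _ e
        rw [inv_inv]
        calc l⁻¹ * a * l * v = l⁻¹ * (a * (l * v * l⁻¹)) * l := by group
          _ = v * (l⁻¹ * a * l) := by rw [this]; group))
    rw [mul_assoc, ← hcomm _ this _ (hT v hv), mul_inv_cancel_left]
  refine ⟨fun a m k => ?_⟩
  have hu : k * w * k⁻¹ ∈ L := hL.conj_mem _ (hAL (hT w h1)) k
  have hu2 : k * w * k⁻¹ * (k * w * k⁻¹) = 1 := by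
    rw [show k * w * k⁻¹ * (k * w * k⁻¹) = k * (w * w) * k⁻¹ by group, hA w (hT w h1)]; group
  have key : ∀ v, T v → ∃ z ∈ A, k⁻¹ * z * k ∈ A ∧ ∃ l ∈ L, z * v = l * (k * w * k⁻¹) * l⁻¹ :=
    fun v hv => by
      rcases dihedral hu2 (hA v (hT v hv)) hu (hAL (hT v hv)) with
        ⟨f, hf, -, e, -⟩ | ⟨z, hz, z1, z2, z3, -, l, hl, e | e⟩
      · exact ⟨1, A.one_mem, by simp, f, hf, by rw [one_mul, e]⟩
      · have := nf v hv l hl (e ▸ A.mul_mem (ha v hv z hz z3) (hT v hv))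
        rw [← e, mul_eq_right] at this
        exact (z1 this).elim
      · refine ⟨z, ha v hv z hz z3, ha w h1 _ (by simpa using hL.conj_mem _ hz k⁻¹) ?_, l, hl, e⟩
        calc k⁻¹ * z * k * w = k⁻¹ * (z * (k * w * k⁻¹)) * k := by group
          _ = w * (k⁻¹ * z * k) := by rw [z2.eq]; group
  obtain ⟨z, z1, z2, l, l1, e⟩ := key w h1
  obtain ⟨z', z1', z2', l', l1', e'⟩ := key w' h2
  have t1 : z * w ∈ A := A.mul_mem z1 (hT w h1)
  have t2 : T (z * w) := by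
    have e2 : z * w = l * k * w * (l * k)⁻¹ := by rw [e]; group
    rw [e2] at t1 ⊢
    exact hc _ _ h1 t1
  have e2 : z' * w' = l' * l⁻¹ * (z * w) * (l' * l⁻¹)⁻¹ := by rw [e, e']; group
  rw [nf _ t2 _ (L.mul_mem l1' (L.inv_mem l1)) (e2 ▸ A.mul_mem z1' (hT w' h2))] at e2
  have e3 : w * w' = z⁻¹ * z' := by
    rw [eq_inv_mul_iff_mul_eq, ← mul_assoc, ← e2, mul_assoc, hA w' (hT w' h2), mul_one]
  have e4 : k⁻¹ * (w * w') * k ∈ A := by
    rw [e3, show k⁻¹ * (z⁻¹ * z') * k = (k⁻¹ * z * k)⁻¹ * (k⁻¹ * z' * k) by group]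
    exact A.mul_mem (A.inv_mem z2) z2'
  refine ha _ h3 _ (hL.conj_mem _ (hAL m) k) ?_
  calc k * a * k⁻¹ * (w * w') = k * (a * (k⁻¹ * (w * w') * k)) * k⁻¹ := by group
    _ = w * w' * (k * a * k⁻¹) := by rw [hcomm a m _ e4]; group

variable {E : Type*} [AddCommGroup E] [Module F2 E] [Finite E] {B : E →ₗ[F2] E →ₗ[F2] F2}

/-- A trivial intersection subgroup with symplectic automiser, strongly closed in its normaliser,
is normal. -/
theorem normal_of_ti (A : Subgroup G) (π : G → E) (hS : Sy B)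
    (hmul : ∀ a ∈ A, ∀ b ∈ A, π (a * b) = π a + π b) (hinj : ∀ a ∈ A, π a = 0 → a = 1)
    (hsurj : ∀ u, ∃ a ∈ A, π a = u)
    (hB : ∀ g ∈ Subgroup.normalizer (A : Set G), ∀ a ∈ A, ∀ b ∈ A,
      B (π (g * a * g⁻¹)) (π (g * b * g⁻¹)) = B (π a) (π b))
    (TI : ∀ g, ∀ a ∈ A, a ≠ 1 → g * a * g⁻¹ ∈ A → g ∈ Subgroup.normalizer (A : Set G))
    (SC : ∀ g, ∀ a ∈ A, g * a * g⁻¹ ∈ Subgroup.normalizer (A : Set G) → g * a * g⁻¹ ∈ A)
    (h3 : 3 ≤ Module.finrank F2 E) : A.Normal := by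
  classical
  have := Fintype.ofFinite E
  have hsq : ∀ a ∈ A, a * a = 1 := fun a m => hinj _ (A.mul_mem m m) (by rw [hmul a m a m, add_self])
  have hone : π 1 = 0 := by simpa using hmul 1 A.one_mem 1 A.one_mem
  have hsq' : ∀ g x : G, g⁻¹ * x * g ∈ A → x * x = 1 := fun g x m => by
    have := hsq _ m
    calc x * x = g * (g⁻¹ * x * g * (g⁻¹ * x * g)) * g⁻¹ := by group
      _ = 1 := by rw [this]; group
  have L1 : ∀ g h x : G, x ≠ 1 → g⁻¹ * x * g ∈ A → h⁻¹ * x * h ∈ A → ∀ y, g⁻¹ * y * g ∈ A →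
      h⁻¹ * y * h ∈ A := fun g h x hx m m' y hy => by
    have := TI (h⁻¹ * g) _ m (fun e => hx (by
      calc x = g * (g⁻¹ * x * g) * g⁻¹ := by group
        _ = 1 := by rw [e]; group)) (by convert m' using 1; group)
    convert (Subgroup.mem_normalizer_iff.1 this _).1 hy using 1
    group
  have L2 : ∀ g h x y : G, x ≠ 1 → g⁻¹ * x * g ∈ A → h⁻¹ * y * h ∈ A → Commute y x →
      g⁻¹ * y * g ∈ A := fun g h x y hx m m' hc => by
    have e : g⁻¹ * y * g = g⁻¹ * h * (h⁻¹ * y * h) * (g⁻¹ * h)⁻¹ := by group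
    rw [e]
    refine SC _ _ m' ?_
    rw [← e]
    refine TI _ _ m (fun e => hx (by
      calc x = g * (g⁻¹ * x * g) * g⁻¹ := by group
        _ = 1 := by rw [e]; group)) ?_
    convert m using 1
    calc g⁻¹ * y * g * (g⁻¹ * x * g) * (g⁻¹ * y * g)⁻¹ = g⁻¹ * (y * x) * y⁻¹ * g := by group
      _ = g⁻¹ * x * g := by rw [hc.eq]; group
  have hD : ∀ g h x y : G, g⁻¹ * x * g ∈ A → h⁻¹ * y * h ∈ A → ∀ f : G,
      (∃ l, f = l * x * l⁻¹ ∨ f = l * y * l⁻¹) → ∃ k, k⁻¹ * f * k ∈ A := by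
    rintro g h x y m m' f ⟨l, rfl | rfl⟩
    · exact ⟨l * g, by convert m using 1; group⟩
    · exact ⟨l * h, by convert m' using 1; group⟩
  have hmulE : ∀ g x y : G, g⁻¹ * x * g ∈ A → g⁻¹ * y * g ∈ A → g⁻¹ * (x * y) * g ∈ A :=
    fun g x y m m' => by convert A.mul_mem m m' using 1; group
  have L3 : ∀ g h x y : G, x ≠ 1 → y ≠ 1 → g⁻¹ * x * g ∈ A → h⁻¹ * y * h ∈ A → g⁻¹ * y * g ∉ A →
      ∃ f, (∃ k, k⁻¹ * f * k ∈ A) ∧ f * x * f⁻¹ = y ∧
        ∀ f', (∃ k, k⁻¹ * f' * k ∈ A) → f' * x * f'⁻¹ = y → f' = f := fun g h x y hx hy m m' hn => by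
    have x2 := hsq' g x m
    have y2 := hsq' h y m'
    rcases dihedral x2 y2 (L := ⊤) trivial trivial with
      ⟨f, -, f1, f2, f3, f4⟩ | ⟨z, -, z1, z2, z3, z4, l, -, z5⟩
    · obtain ⟨k, hk⟩ := hD g h x y m m' f f3
      refine ⟨f, ⟨k, hk⟩, f2, ?_⟩
      rintro f' ⟨k', hk'⟩ e
      have i1 := inv_eq_of_mul_eq_one_right (hsq' k' f' hk')
      have i2 := inv_eq_of_mul_eq_one_right f1
      have e' : f' * y * f'⁻¹ = x := by
        rw [← e, i1]
        calc f' * (f' * x * f') * f' = f' * f' * x * (f' * f') := by group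
          _ = x := by rw [hsq' k' f' hk']; group
      have f2' : f * y * f⁻¹ = x := by
        rw [← f2, i2]
        calc f * (f * x * f) * f = f * f * x * (f * f) := by group
          _ = x := by rw [f1]; group
      have f0 : f ≠ 1 := fun e0 => hn (by rw [← f2, e0]; simpa using m)
      have c : Commute f' f := by
        have := f4 f' e e'
        rwa [mul_inv_eq_iff_eq_mul] at this
      have w1 := hmulE k _ _ (L2 k k' f f' f0 hk hk' c) hk
      by_contra hne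
      have w0 : f' * f ≠ 1 := fun e0 => hne (by rw [← i2]; exact eq_inv_of_mul_eq_one_left e0)
      have cx : Commute x (f' * f) := by
        symm
        rw [Commute, SemiconjBy, ← mul_inv_eq_iff_eq_mul]
        conv_rhs => rw [← e', ← f2]
        group
      have cy : Commute y (f' * f) := by
        symm
        rw [Commute, SemiconjBy, ← mul_inv_eq_iff_eq_mul]
        conv_rhs => rw [← e, ← f2']
        group
      exact hn (L1 k g x hx (L2 k g _ x w0 w1 m cx) m y (L2 k h _ y w0 w1 m' cy))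
    · obtain ⟨k, hk⟩ := hD g h x y m m' _ z4
      obtain ⟨k', hk'⟩ := hD h g y x m' m _ ⟨l, z5⟩
      have a1 := hmulE g _ _ (L2 g k x _ hx m hk (z2.mul_left (Commute.refl x))) m
      have a2 := hmulE h _ _ (L2 h k' y _ hy m' hk' (z3.mul_left (Commute.refl y))) m'
      rw [mul_assoc z, x2, mul_one] at a1
      rw [mul_assoc z, y2, mul_one] at a2
      exact (hn (L1 h g z z1 a2 a1 y m')).elim
  by_contra hN
  obtain ⟨g, hg⟩ : ∃ g, g⁻¹ ∉ Subgroup.normalizer (A : Set G) := by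
    by_contra hc
    push Not at hc
    exact hN ⟨fun a m g => (Subgroup.mem_normalizer_iff.1 (by simpa using hc g⁻¹) a).1 m⟩
  have hg' : ∀ a ∈ A, a ≠ 1 → g⁻¹ * a * g ∉ A := fun a m a1 e =>
    hg (TI g⁻¹ a m a1 (by simpa using e))
  choose e he1 he2 using hsurj
  have he3 : ∀ u, u ≠ 0 → e u ≠ 1 := fun u hu e0 => hu (by rw [← he2 u, e0, hone])
  have he4 : ∀ u, g⁻¹ * (g * e u * g⁻¹) * g ∈ A := fun u => by convert he1 u using 1; group
  have he5 : ∀ u, u ≠ 0 → g * e u * g⁻¹ ≠ 1 := fun u hu e0 => he3 u hu (by simpa using e0)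
  have one : ∀ x, x ∈ A → (1 : G)⁻¹ * x * 1 ∈ A := fun x m => by simpa using m
  obtain ⟨a, a0, -⟩ := hS.ex_perp_zero [] (by simp; omega)
  obtain ⟨b, b0, b1, b2⟩ := hS.ex_perp_one [a] a (by simp; omega)
  obtain ⟨c, hc⟩ := hS.ex_one a0
  obtain ⟨q, hq⟩ := hS.exists_qd
  have hf : ∀ u, ∃ f, u ≠ 0 → (∃ k, k⁻¹ * f * k ∈ A) ∧ f * (g * e a * g⁻¹) * f⁻¹ = e u := fun u => by
    by_cases hu : u = 0
    · exact ⟨1, fun h => (h hu).elim⟩
    · obtain ⟨f, f1, f2, -⟩ := L3 g 1 _ _ (he5 a a0) (he3 u hu) (he4 a) (one _ (he1 u))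
        (hg' _ (he1 u) (he3 u hu))
      exact ⟨f, fun _ => ⟨f1, f2⟩⟩
  choose f hf using hf
  have hn : ∀ u, u ≠ 0 → f u * g ∈ Subgroup.normalizer (A : Set G) := fun u hu =>
    TI _ _ (he1 a) (he3 a a0) (by convert he1 u using 1; rw [← (hf u hu).2]; group)
  have hm : ∀ u, u ≠ 0 → ∀ v, f u * g * e v * (f u * g)⁻¹ ∈ A := fun u hu v =>
    (Subgroup.mem_normalizer_iff.1 (hn u hu) _).1 (he1 v)
  have hsum : ∀ v, v ≠ 0 → ∑ u ∈ Finset.univ.erase 0, q (π (f u * g * e v * (f u * g)⁻¹)) = 0 :=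
    fun v hv => by
      have h0 : ∀ u, u ≠ 0 → f u * g * e v * (f u * g)⁻¹ ≠ 1 := fun u hu e0 =>
        he3 v hv (conj_eq_one_iff.1 e0)
      have h1 : ∑ u ∈ Finset.univ.erase 0, q u = 0 := by
        rw [Finset.sum_erase _ hq.zero]
        exact hq.sum_eq_zero hS a0 b0 b1.symm (b2 a (by simp))
      rw [← h1]
      have hmaps : ∀ u ∈ Finset.univ.erase (0 : E),
          π (f u * g * e v * (f u * g)⁻¹) ∈ Finset.univ.erase 0 := fun u hu => by
        rw [Finset.mem_erase] at hu ⊢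
        exact ⟨fun e0 => h0 u hu.1 (hinj _ (hm u hu.1 v) e0), Finset.mem_univ _⟩
      have hi : ∀ u ∈ Finset.univ.erase (0 : E), ∀ u' ∈ Finset.univ.erase (0 : E),
          π (f u * g * e v * (f u * g)⁻¹) = π (f u' * g * e v * (f u' * g)⁻¹) → u = u' :=
        fun u hu u' hu' e0 => by
          have hu := (Finset.mem_erase.1 hu).1
          have hu' := (Finset.mem_erase.1 hu').1
          have e1 : f u * g * e v * (f u * g)⁻¹ = f u' * g * e v * (f u' * g)⁻¹ := by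
            rw [← inv_eq_of_mul_eq_one_right (hsq _ (hm u' hu' v))]
            refine eq_inv_of_mul_eq_one_left (hinj _ (A.mul_mem (hm u hu v) (hm u' hu' v)) ?_)
            rw [hmul _ (hm u hu v) _ (hm u' hu' v), e0, add_self]
          obtain ⟨f0, -, -, f3⟩ := L3 g 1 _ _ (he5 v hv) (h0 u hu) (he4 v) (one _ (hm u hu v))
            (hg' _ (hm u hu v) (h0 u hu))
          have e2 := (f3 _ (hf u hu).1 (by group)).trans
            (f3 _ (hf u' hu').1 (by rw [e1]; group)).symm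
          rw [← he2 u, ← he2 u', ← (hf u hu).2, ← (hf u' hu').2, e2]
      exact Finset.sum_nbij _ hmaps hi (Finset.surjOn_of_injOn_of_card_le _ hmaps hi le_rfl)
        fun _ _ => rfl
  have c0 : c ≠ 0 := fun e0 => by simp [e0] at hc
  have ac : a + c ≠ 0 := fun e0 => by simp [add_eq_zero.1 e0, hS.alt] at hc
  have e1 : e (a + c) = e a * e c := by
    rw [← inv_eq_of_mul_eq_one_right (hsq _ (A.mul_mem (he1 a) (he1 c)))]
    refine eq_inv_of_mul_eq_one_left (hinj _ (A.mul_mem (he1 _) (A.mul_mem (he1 a) (he1 c))) ?_)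
    rw [hmul _ (he1 _) _ (A.mul_mem (he1 a) (he1 c)), hmul _ (he1 a) _ (he1 c), he2, he2, he2, add_self]
  have s1 := hsum _ ac
  rw [Finset.sum_congr rfl fun u hu => show _ = q (π (f u * g * e a * (f u * g)⁻¹)) +
      q (π (f u * g * e c * (f u * g)⁻¹)) + 1 by
    have hu := (Finset.mem_erase.1 hu).1
    rw [e1, show f u * g * (e a * e c) * (f u * g)⁻¹ =
      f u * g * e a * (f u * g)⁻¹ * (f u * g * e c * (f u * g)⁻¹) by group,
      hmul _ (hm u hu a) _ (hm u hu c), hq, hB _ (hn u hu) _ (he1 a) _ (he1 c), he2, he2, hc],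
    Finset.sum_add_distrib, Finset.sum_add_distrib, hsum a a0, hsum c c0] at s1
  have s2 := sum_one_eq_zero a0
  rw [← Finset.add_sum_erase _ _ (Finset.mem_univ 0)] at s2
  simp only [zero_add] at s1
  rw [s1] at s2
  exact one_ne_zero s2

end Cfsg.Agent.Class.C6P
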