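import Mathlib
import Cfsg.Agent.Class.C6P.Fin

/-!
Groups of units of an algebra containing a "Pauli group": basic properties.
-/

set_option autoImplicit false

namespace Cfsg.Agent.Class.C6P

variable {F A G E : Type*} [Field F] [Ring A] [Algebra F A] [Group G] [AddCommGroup E] [Module F2 E]

variable (F) in
/-- `g` is represented by a scalar. -/
def Sc (ρ : G →* A) (g : G) : Prop := ∃ c : F, ρ g = c • (1 : A)

variable (F) in
/-- `P` is a group of anticommuting or commuting elements, containing the scalars of `G`, with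
trivial centraliser in the algebra; `π` is the projection to `P` modulo scalars. -/
structure PD (ρ : G →* A) (P : Subgroup G) (π : G → E) (B : E →ₗ[F2] E →ₗ[F2] F2) : Prop where
  inj : Function.Injective ρ
  two : (2 : F) ≠ 0
  nt : (1 : A) ≠ 0
  sy : Sy B
  mul : ∀ a ∈ P, ∀ b ∈ P, π (a * b) = π a + π b
  surj : ∀ u, ∃ a ∈ P, π a = u
  ker : ∀ a ∈ P, π a = 0 ↔ Sc F ρ a
  sc : ∀ g, Sc F ρ g → g ∈ P
  comm0 : ∀ a ∈ P, ∀ b ∈ P, B (π a) (π b) = 0 → ρ a * ρ b = ρ b * ρ a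
  comm1 : ∀ a ∈ P, ∀ b ∈ P, B (π a) (π b) = 1 → ρ a * ρ b = -(ρ b * ρ a)
  cent : ∀ a : A, (∀ r ∈ P, a * ρ r = ρ r * a) → ∃ c : F, a = c • 1

variable {ρ : G →* A}

theorem ρ_mul_inv (g : G) : ρ g * ρ g⁻¹ = 1 := by rw [← map_mul, mul_inv_cancel, map_one]

theorem ρ_inv_mul (g : G) : ρ g⁻¹ * ρ g = 1 := by rw [← map_mul, inv_mul_cancel, map_one]

theorem ρ_mul_inv' (g : G) (a : A) : ρ g * (ρ g⁻¹ * a) = a := by
  rw [← mul_assoc, ρ_mul_inv, one_mul]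

theorem ρ_inv_mul' (g : G) (a : A) : ρ g⁻¹ * (ρ g * a) = a := by
  rw [← mul_assoc, ρ_inv_mul, one_mul]

theorem ρ_left_cancel (g : G) {a b : A} (h : ρ g * a = ρ g * b) : a = b := by
  rw [← ρ_inv_mul' (ρ := ρ) g a, h, ρ_inv_mul']

theorem ρ_right_cancel (g : G) {a b : A} (h : a * ρ g = b * ρ g) : a = b := by
  rw [← mul_one a, ← ρ_mul_inv (ρ := ρ) g, ← mul_assoc, h, mul_assoc, ρ_mul_inv, mul_one]

theorem eq_zero_of_eq_neg (h2 : (2 : F) ≠ 0) {M : Type*} [AddCommGroup M] [Module F M] {a : M}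
    (h : a = -a) : a = 0 := by
  have : (2 : F) • a = 0 := by rw [two_smul]; nth_rw 1 [h]; exact neg_add_cancel a
  exact (smul_eq_zero.1 this).resolve_left h2

theorem sc_one : Sc F ρ 1 := ⟨1, by simp⟩

theorem Sc.mul {a b : G} (ha : Sc F ρ a) (hb : Sc F ρ b) : Sc F ρ (a * b) := by
  obtain ⟨c, hc⟩ := ha
  obtain ⟨d, hd⟩ := hb
  exact ⟨c * d, by rw [map_mul, hc, hd, smul_mul_smul_comm, one_mul]⟩

theorem Sc.inv {a : G} (ha : Sc F ρ a) : Sc F ρ a⁻¹ := by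
  obtain ⟨c, hc⟩ := ha
  have := ρ_mul_inv (ρ := ρ) a
  rw [hc, smul_mul_assoc, one_mul] at this
  by_cases h : c = 0
  · rw [h, zero_smul] at this
    exact ⟨0, by rw [zero_smul, ← mul_one (ρ a⁻¹), ← this, mul_zero]⟩
  · exact ⟨c⁻¹, by rw [← this, smul_smul, inv_mul_cancel₀ h, one_smul]⟩

variable (F ρ) in
/-- The scalars in `G`. -/
def ScS : Subgroup G where
  carrier := {g | Sc F ρ g}
  mul_mem' := Sc.mul
  one_mem' := sc_one
  inv_mem' := Sc.inv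

theorem Sc.conj {a : G} (ha : Sc F ρ a) (g : G) : Sc F ρ (g * a * g⁻¹) := by
  obtain ⟨c, hc⟩ := ha
  exact ⟨c, by rw [map_mul, map_mul, hc, mul_smul_comm, smul_mul_assoc, mul_one, ρ_mul_inv]⟩

instance : (ScS F ρ).Normal := ⟨fun _ h g => h.conj g⟩

theorem sc_conj_iff {a g : G} : Sc F ρ (g * a * g⁻¹) ↔ Sc F ρ a :=
  ⟨fun h => by simpa [mul_assoc] using h.conj g⁻¹, fun h => h.conj g⟩

theorem Sc.of_smul {a b : G} {c : F} (h : ρ a = c • ρ b) : Sc F ρ (a * b⁻¹) :=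
  ⟨c, by rw [map_mul, h, smul_mul_assoc, ρ_mul_inv]⟩

variable {P : Subgroup G} {π : G → E} {B : E →ₗ[F2] E →ₗ[F2] F2}

/-- `g` normalises `P` and acts as `σ` on the quotient. -/
structure IsAct (P : Subgroup G) (π : G → E) (g : G) (σ : E →ₗ[F2] E) : Prop where
  mem : g ∈ Subgroup.normalizer (P : Set G)
  eq : ∀ a ∈ P, π (g * a * g⁻¹) = σ (π a)

theorem conj_mem {g a : G} (hg : g ∈ Subgroup.normalizer (P : Set G)) (ha : a ∈ P) :
    g * a * g⁻¹ ∈ P := (Subgroup.mem_normalizer_iff.1 hg a).1 ha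

theorem IsAct.conj_mem {g a : G} {σ : E →ₗ[F2] E} (hg : IsAct P π g σ) (ha : a ∈ P) :
    g * a * g⁻¹ ∈ P := C6P.conj_mem hg.mem ha

theorem IsAct.mul {g k : G} {σ τ : E →ₗ[F2] E} (hg : IsAct P π g σ) (hk : IsAct P π k τ) :
    IsAct P π (g * k) (σ ∘ₗ τ) :=
  ⟨Subgroup.mul_mem _ hg.mem hk.mem, fun a ha => by
    rw [LinearMap.comp_apply, ← hk.eq a ha, ← hg.eq _ (hk.conj_mem ha)]
    congr 1
    group⟩

theorem IsAct.congr {g : G} {σ τ : E →ₗ[F2] E} (hg : IsAct P π g σ) (e : ∀ u, σ u = τ u) :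
    IsAct P π g τ := ⟨hg.mem, fun a ha => e _ ▸ hg.eq a ha⟩

/-- The maps induced by the normaliser. -/
def Re (P : Subgroup G) (π : G → E) (σ : E →ₗ[F2] E) : Prop := ∃ g, IsAct P π g σ

theorem re_mul (σ τ : E →ₗ[F2] E) (h1 : Re P π σ) (h2 : Re P π τ) : Re P π (σ ∘ₗ τ) :=
  let ⟨_, a⟩ := h1; let ⟨_, b⟩ := h2; ⟨_, a.mul b⟩

/-- The non-scalar elements of `P` with square `-1`. -/
structure T (ρ : G →* A) (P : Subgroup G) (π : G → E) (x : G) : Prop where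
  mem : x ∈ P
  sq : ρ x * ρ x = -1
  ne : π x ≠ 0

/-- The non-scalar involutions of `P`. -/
structure Iv (ρ : G →* A) (P : Subgroup G) (π : G → E) (x : G) : Prop where
  mem : x ∈ P
  sq : ρ x * ρ x = 1
  ne : π x ≠ 0

variable (F ρ) in
/-- `g` is a scalar multiple of `(1 + x) (1 + x')`. -/
def IsTT (g x x' : G) : Prop := ∃ c : F, ρ g = c • ((1 + ρ x) * (1 + ρ x'))

variable (F ρ P π) in
/-- `G` contains the products of two "transvections". -/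
def TT : Prop := ∀ x x', T ρ P π x → T ρ P π x' → ∃ g, IsTT F ρ g x x'

/-- The centraliser of `x` normalises `P`. -/
def Cen (P : Subgroup G) (x : G) : Prop := ∀ g, g * x = x * g → g ∈ Subgroup.normalizer (P : Set G)

/-- The centraliser of `x` normalises the centraliser of `x` in `P`. -/
def KN (P : Subgroup G) (x : G) : Prop :=
  ∀ g, g * x = x * g → ∀ r ∈ P, r * x = x * r → g * r * g⁻¹ ∈ P

namespace PD

variable (h : PD F ρ P π B)
include h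

theorem ρ_ne (g : G) : ρ g ≠ 0 := fun e => h.nt (by rw [← ρ_mul_inv (ρ := ρ) g, e, zero_mul])

theorem smul_inj {c d : F} {g : G} (e : c • ρ g = d • ρ g) : c = d :=
  smul_left_injective F (h.ρ_ne g) e

theorem smul_one_inj {c d : F} (e : c • (1 : A) = d • 1) : c = d := smul_left_injective F h.nt e

theorem neg_ne {a : A} (ha : a ≠ 0) : a ≠ -a := fun e => ha (eq_zero_of_eq_neg h.two e)

theorem π_one : π 1 = 0 := (h.ker 1 P.one_mem).2 sc_one

theorem π_inv {a : G} (ha : a ∈ P) : π a⁻¹ = π a := by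
  rw [← add_eq_zero, ← h.mul _ (P.inv_mem ha) _ ha, inv_mul_cancel, h.π_one]

theorem sc_comm {z : G} (hz : Sc F ρ z) (g : G) : z * g = g * z := by
  obtain ⟨c, hc⟩ := hz
  exact h.inj (by rw [map_mul, map_mul, hc, smul_mul_assoc, mul_smul_comm, one_mul, mul_one])

theorem sc_conj {z : G} (hz : Sc F ρ z) (g : G) : z * g * z⁻¹ = g := by
  rw [h.sc_comm hz, mul_inv_cancel_right]

theorem conj_sc {z : G} (hz : Sc F ρ z) (g : G) : g * z * g⁻¹ = z := by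
  rw [← h.sc_comm hz, mul_inv_cancel_right]

theorem comm_iff {a b : G} (ha : a ∈ P) (hb : b ∈ P) : a * b = b * a ↔ B (π a) (π b) = 0 := by
  refine ⟨fun e => f2_ne_one.1 fun e1 => ?_, fun e => h.inj (by simpa using h.comm0 a ha b hb e)⟩
  have := h.comm1 a ha b hb e1
  rw [← map_mul, ← map_mul, e] at this
  exact h.neg_ne (h.ρ_ne _) this

theorem sq_sc {a : G} (ha : a ∈ P) : Sc F ρ (a * a) :=
  (h.ker _ (P.mul_mem ha ha)).1 (by rw [h.mul a ha a ha, add_self])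

theorem sc_of_π {a b : G} (ha : a ∈ P) (hb : b ∈ P) (e : π a = π b) : Sc F ρ (a * b⁻¹) :=
  (h.ker _ (P.mul_mem ha (P.inv_mem hb))).1
    (by rw [h.mul a ha _ (P.inv_mem hb), h.π_inv hb, e, add_self])

theorem smul_of_π {a b : G} (ha : a ∈ P) (hb : b ∈ P) (e : π a = π b) : ∃ c : F, ρ a = c • ρ b := by
  obtain ⟨c, hc⟩ := h.sc_of_π ha hb e
  exact ⟨c, by rw [← one_mul (ρ b), ← smul_mul_assoc, ← hc, ← map_mul, inv_mul_cancel_right]⟩

theorem mem_of_smul {a b : G} (hb : b ∈ P) {c : F} (e : ρ a = c • ρ b) : a ∈ P := by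
  simpa using P.mul_mem (h.sc _ (Sc.of_smul e)) hb

theorem π_of_smul {a b : G} (hb : b ∈ P) {c : F} (e : ρ a = c • ρ b) : π a = π b := by
  have := (h.ker _ (h.sc _ (Sc.of_smul e))).2 (Sc.of_smul e)
  rwa [h.mul _ (h.mem_of_smul hb e) _ (P.inv_mem hb), h.π_inv hb, add_eq_zero] at this

theorem π_conj {a r : G} (ha : a ∈ P) (hr : r ∈ P) : π (r * a * r⁻¹) = π a := by
  rw [h.mul _ (P.mul_mem hr ha) _ (P.inv_mem hr), h.mul _ hr _ ha, h.π_inv hr, add_right_comm,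
    add_self, zero_add]

theorem conj0 {a r : G} (ha : a ∈ P) (hr : r ∈ P) (e : B (π r) (π a) = 0) : r * a * r⁻¹ = a := by
  rw [(h.comm_iff hr ha).2 e, mul_inv_cancel_right]

theorem conj1 {a r : G} (ha : a ∈ P) (hr : r ∈ P) (e : B (π r) (π a) = 1) :
    ρ (r * a * r⁻¹) = -ρ a := by
  rw [map_mul, map_mul, h.comm1 r hr a ha e, neg_mul, mul_assoc, ρ_mul_inv, mul_one]

theorem sign_of_sq {a b : G} {c : F} (e : ρ a = c • ρ b) (e2 : ρ a * ρ a = ρ b * ρ b) :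
    c = 1 ∨ c = -1 := by
  rw [e, smul_mul_smul_comm, ← map_mul, ← one_smul F (ρ (b * b)), smul_smul, mul_one] at e2
  exact mul_self_eq_one_iff.1 (h.smul_inj e2)

theorem conj_sq {a : G} (ha : Sc F ρ (a * a)) (g : G) :
    ρ (g * a * g⁻¹) * ρ (g * a * g⁻¹) = ρ a * ρ a := by
  rw [← map_mul, ← map_mul, show g * a * g⁻¹ * (g * a * g⁻¹) = g * (a * a) * g⁻¹ by group,
    h.conj_sc ha]

theorem sign_of_conj {a g : G} (ha : Sc F ρ (a * a)) {c : F} (e : ρ (g * a * g⁻¹) = c • ρ a) :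
    c = 1 ∨ c = -1 := h.sign_of_sq e (h.conj_sq ha g)

theorem exists_neg {a : E} (ha : a ≠ 0) : ∃ n ∈ P, ρ n = -1 := by
  obtain ⟨w, hw⟩ := h.sy.ex_one ha
  obtain ⟨x, hx, rfl⟩ := h.surj a
  obtain ⟨y, hy, rfl⟩ := h.surj w
  refine ⟨x * y * x⁻¹ * y⁻¹, P.mul_mem (P.mul_mem (P.mul_mem hx hy) (P.inv_mem hx)) (P.inv_mem hy), ?_⟩
  rw [map_mul, h.conj1 hy hx hw, neg_mul, ρ_mul_inv]

theorem isAct_of_mem {r : G} (hr : r ∈ P) : IsAct P π r LinearMap.id :=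
  ⟨Subgroup.le_normalizer hr, fun _ ha => h.π_conj ha hr⟩

theorem B_conj {g : G} (hg : g ∈ Subgroup.normalizer (P : Set G)) {a b : G} (ha : a ∈ P) (hb : b ∈ P) :
    B (π (g * a * g⁻¹)) (π (g * b * g⁻¹)) = B (π a) (π b) := by
  have : B (π (g * a * g⁻¹)) (π (g * b * g⁻¹)) = 0 ↔ B (π a) (π b) = 0 := by
    rw [← h.comm_iff ha hb, ← h.comm_iff (conj_mem hg ha) (conj_mem hg hb),
      show g * a * g⁻¹ * (g * b * g⁻¹) = g * (a * b) * g⁻¹ by group,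
      show g * b * g⁻¹ * (g * a * g⁻¹) = g * (b * a) * g⁻¹ by group]
    simp
  rcases f2_cases (B (π a) (π b)) with e | e
  · rw [e, this.2 e]
  · rw [e, ← f2_ne_zero, Ne, this, e]
    exact one_ne_zero

theorem exists_act {g : G} (hg : g ∈ Subgroup.normalizer (P : Set G)) : ∃ σ, IsAct P π g σ := by
  choose s hs1 hs2 using h.surj
  have key : ∀ a ∈ P, π (g * s (π a) * g⁻¹) = π (g * a * g⁻¹) := fun a ha => by
    obtain ⟨c, hc⟩ := h.smul_of_π (hs1 (π a)) ha (hs2 _)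
    exact h.π_of_smul (conj_mem hg ha) (c := c) (by simp [hc])
  let f : E →+ E := AddMonoidHom.mk' (fun u => π (g * s u * g⁻¹)) fun u v => by
    rw [← h.mul _ (conj_mem hg (hs1 u)) _ (conj_mem hg (hs1 v)),
      show g * s u * g⁻¹ * (g * s v * g⁻¹) = g * (s u * s v) * g⁻¹ by group,
      ← key _ (P.mul_mem (hs1 u) (hs1 v)), h.mul _ (hs1 u) _ (hs1 v), hs2, hs2]
  exact ⟨f.toZModLinearMap 2, hg, fun a ha => (key a ha).symm⟩

theorem act_B {g : G} {σ : E →ₗ[F2] E} (hg : IsAct P π g σ) (u v : E) : B (σ u) (σ v) = B u v := by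
  obtain ⟨a, ha, rfl⟩ := h.surj u
  obtain ⟨b, hb, rfl⟩ := h.surj v
  rw [← hg.eq a ha, ← hg.eq b hb, h.B_conj hg.mem ha hb]

theorem act_unique {g : G} {σ τ : E →ₗ[F2] E} (hg : IsAct P π g σ) (hg' : IsAct P π g τ) : σ = τ :=
  LinearMap.ext fun u => by
    obtain ⟨a, ha, rfl⟩ := h.surj u
    rw [← hg.eq a ha, ← hg'.eq a ha]

theorem act_inv {g : G} {σ τ : E →ₗ[F2] E} (hg : IsAct P π g σ) (hg' : IsAct P π g⁻¹ τ) (u : E) :
    σ (τ u) = u := by
  have := hg.mul hg'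
  rw [mul_inv_cancel] at this
  exact LinearMap.congr_fun (h.act_unique this (h.isAct_of_mem P.one_mem)) u

theorem act_inj {g : G} {σ : E →ₗ[F2] E} (hg : IsAct P π g σ) : Function.Injective σ := by
  refine (injective_iff_map_eq_zero σ).2 fun u hu => h.sy.nd u fun v => ?_
  rw [← h.act_B hg, hu]
  simp

theorem mem_of_act [Finite E] {g : G} (hg : IsAct P π g LinearMap.id) : g ∈ P := by
  classical
  choose s hs1 hs2 using h.surj
  have key : ∀ a ∈ P, ρ (g * a * g⁻¹) = ρ a ∨ ρ (g * a * g⁻¹) = -ρ a := fun a ha => by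
    obtain ⟨c, hc⟩ := h.smul_of_π (hg.conj_mem ha) ha (hg.eq a ha)
    rcases h.sign_of_conj (h.sq_sc ha) hc with rfl | rfl
    exacts [Or.inl (by simpa using hc), Or.inr (by simpa using hc)]
  let χ : G → F2 := fun a => if ρ (g * a * g⁻¹) = ρ a then 0 else 1
  have h0 : ∀ a, ρ (g * a * g⁻¹) = ρ a → χ a = 0 := fun a e => if_pos e
  have h1 : ∀ a, ρ (g * a * g⁻¹) = -ρ a → χ a = 1 := fun a e =>
    if_neg fun e' => h.neg_ne (h.ρ_ne a) (e'.symm.trans e)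
  have h2 : ∀ a ∈ P, ∀ b ∈ P, χ (a * b) = χ a + χ b := fun a ha b hb => by
    have e : ρ (g * (a * b) * g⁻¹) = ρ (g * a * g⁻¹) * ρ (g * b * g⁻¹) := by
      rw [← map_mul]; congr 1; group
    rcases key a ha with e1 | e1 <;> rcases key b hb with e2 | e2 <;> rw [e1, e2] at e
    · rw [h0 a e1, h0 b e2, h0 _ (by simpa using e), add_zero]
    · rw [h0 a e1, h1 b e2, h1 _ (by simpa using e), zero_add]
    · rw [h1 a e1, h0 b e2, h1 _ (by simpa using e), add_zero]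
    · rw [h1 a e1, h1 b e2, h0 _ (by simpa using e), f2_one_add_one]
  have h3 : ∀ a ∈ P, χ (s (π a)) = χ a := fun a ha => by
    obtain ⟨c, hc⟩ := h.smul_of_π (hs1 (π a)) ha (hs2 _)
    have e : ρ (g * s (π a) * g⁻¹) = c • ρ (g * a * g⁻¹) := by simp [hc]
    rcases key a ha with e1 | e1
    · rw [h0 a e1, h0 _ (by rw [e, e1, hc])]
    · rw [h1 a e1, h1 _ (by rw [e, e1, hc, smul_neg])]
  let f : E →+ F2 := AddMonoidHom.mk' (fun u => χ (s u)) fun u v => by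
    rw [← h2 _ (hs1 u) _ (hs1 v), ← h3 _ (P.mul_mem (hs1 u) (hs1 v)), h.mul _ (hs1 u) _ (hs1 v), hs2,
      hs2]
  obtain ⟨u, hu⟩ := h.sy.fm.exists_eq_dual (f.toZModLinearMap 2)
  obtain ⟨r, hr, rfl⟩ := h.surj u
  have h4 : ∀ a ∈ P, B (π r) (π a) = χ a := fun a ha =>
    (LinearMap.congr_fun hu (π a)).trans (h3 a ha)
  obtain ⟨c, hc⟩ := h.cent (ρ (r⁻¹ * g)) fun a ha => by
    have : ρ (r * a * r⁻¹) = ρ (g * a * g⁻¹) := by
      rcases key a ha with e | e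
      · rw [h.conj0 ha hr (by rw [h4 a ha, h0 a e]), e]
      · rw [h.conj1 ha hr (by rw [h4 a ha, h1 a e]), e]
    rw [← map_mul, ← map_mul]
    congr 1
    calc r⁻¹ * g * a = r⁻¹ * (g * a * g⁻¹) * g := by group
      _ = a * (r⁻¹ * g) := by rw [← h.inj this]; group
  simpa using P.mul_mem hr (h.sc _ ⟨c, hc⟩)

theorem T_conj {x g : G} (hx : T ρ P π x) (hm : g * x * g⁻¹ ∈ P) : T ρ P π (g * x * g⁻¹) :=
  ⟨hm, by rw [h.conj_sq (h.sq_sc hx.mem), hx.sq],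
    fun e => hx.ne ((h.ker _ hx.mem).2 (sc_conj_iff.1 ((h.ker _ hm).1 e)))⟩

theorem ne_conj {x g : G} (hx : x ∈ P) (hx0 : π x ≠ 0) (hm : g * x * g⁻¹ ∈ P) : π (g * x * g⁻¹) ≠ 0 :=
  fun e => hx0 ((h.ker _ hx).2 (sc_conj_iff.1 ((h.ker _ hm).1 e)))

open Classical in
theorem t_mul {x a : G} (hx : T ρ P π x) (ha : a ∈ P) :
    ∃ b ∈ P, π b = tv B (π x) (π a) ∧ (1 + ρ x) * ρ a = ρ b * (1 + ρ x) ∧
      (B (π x) (π a) = 0 → b = a) := by
  rcases f2_cases (B (π x) (π a)) with e | e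
  · exact ⟨a, ha, (tv_zero e).symm, by rw [add_mul, mul_add, h.comm0 x hx.mem a ha e, one_mul, mul_one],
      fun _ => rfl⟩
  · refine ⟨x * a, P.mul_mem hx.mem ha, by rw [tv_one e, h.mul x hx.mem a ha, add_comm], ?_,
      fun e' => by simp [e'] at e⟩
    rw [map_mul, add_mul, mul_add, one_mul, mul_one, h.comm1 x hx.mem a ha e, neg_mul, mul_assoc, hx.sq,
      mul_neg, neg_neg, mul_one, add_comm]

theorem tt_conj {g x x' a : G} (hg : IsTT F ρ g x x') (hx : T ρ P π x) (hx' : T ρ P π x') (ha : a ∈ P) :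
    g * a * g⁻¹ ∈ P ∧ π (g * a * g⁻¹) = tv B (π x) (tv B (π x') (π a)) ∧
      (B (π x) (π a) = 0 → B (π x') (π a) = 0 → g * a = a * g) := by
  obtain ⟨c, hc⟩ := hg
  obtain ⟨b, b1, b2, b3, b4⟩ := h.t_mul hx' ha
  obtain ⟨d, d1, d2, d3, d4⟩ := h.t_mul hx b1
  have : g * a = d * g := h.inj (by
    rw [map_mul, map_mul, hc, smul_mul_assoc, mul_smul_comm, mul_assoc, b3, ← mul_assoc, d3, mul_assoc])
  rw [this, mul_inv_cancel_right]
  exact ⟨d1, by rw [d2, b2], fun e e' => by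
    obtain rfl := b4 e'
    rw [d4 e]⟩

theorem tt_act [Finite G] {g x x' : G} (hg : IsTT F ρ g x x') (hx : T ρ P π x) (hx' : T ρ P π x') :
    IsAct P π g (tv B (π x) ∘ₗ tv B (π x')) :=
  ⟨mem_normalizer_of fun _ ha => (h.tt_conj hg hx hx' ha).1, fun _ ha => (h.tt_conj hg hx hx' ha).2.1⟩

theorem re_tt [Finite G] (hT : TT F ρ P π) (u w : E) (hu : ∃ x, T ρ P π x ∧ π x = u)
    (hw : ∃ x, T ρ P π x ∧ π x = w) : Re P π (tv B u ∘ₗ tv B w) := by
  obtain ⟨x, hx, rfl⟩ := hu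
  obtain ⟨x', hx', rfl⟩ := hw
  obtain ⟨g, hg⟩ := hT x x' hx hx'
  exact ⟨g, h.tt_act hg hx hx'⟩

theorem tt_ne {g : G} {c : F} {a : A} (e : ρ g = c • a) : c ≠ 0 := fun e' =>
  h.ρ_ne g (by rw [e, e', zero_smul])

omit h in
theorem one_add_mul_one_sub {a : A} (ha : a * a = -1) : (1 + a) * (1 - a) = (2 : F) • 1 := by
  rw [mul_sub, add_mul, add_mul, ha, two_smul, one_mul, one_mul, mul_one]; abel

omit h in
theorem one_sub_mul_one_add {a : A} (ha : a * a = -1) : (1 - a) * (1 + a) = (2 : F) • 1 := by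
  rw [mul_add, sub_mul, sub_mul, ha, two_smul, one_mul, one_mul, mul_one]; abel

theorem tt_inv {g : G} {c : F} {a b : A} (e : ρ g = c • ((1 + a) * (1 + b))) (ha : a * a = -1)
    (hb : b * b = -1) : ρ g⁻¹ = (4 * c)⁻¹ • ((1 - b) * (1 - a)) := by
  have hc := h.tt_ne e
  have h2 := h.two
  have h4 : (4 : F) ≠ 0 := by rw [show (4 : F) = 2 * 2 by norm_num]; exact mul_ne_zero h2 h2
  refine ρ_left_cancel (ρ := ρ) g ?_
  rw [ρ_mul_inv, e, smul_mul_smul_comm, mul_assoc, ← mul_assoc (1 + b), one_add_mul_one_sub (F := F) hb,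
    smul_mul_assoc, one_mul, mul_smul_comm, one_add_mul_one_sub (F := F) ha, smul_smul, smul_smul]
  rw [show c * (4 * c)⁻¹ * 2 * 2 = 1 by field_simp; norm_num, one_smul]

theorem cen_smul {x g : G} (hx : x ∈ P) (hx0 : π x ≠ 0) (hC : Cen P x) {c : F}
    (e : ρ (g * x * g⁻¹) = c • ρ x) : g ∈ Subgroup.normalizer (P : Set G) := by
  rcases h.sign_of_conj (h.sq_sc hx) e with rfl | rfl
  · exact hC g (by rw [← mul_inv_eq_iff_eq_mul]; exact h.inj (by simpa using e))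
  · obtain ⟨w, hw⟩ := h.sy.ex_one hx0
    obtain ⟨r, hr, rfl⟩ := h.surj w
    have e1 := h.conj1 hx hr (h.sy.symm _ _ ▸ hw)
    have := hC (r⁻¹ * g) (by
      rw [← mul_inv_eq_iff_eq_mul]
      calc r⁻¹ * g * x * (r⁻¹ * g)⁻¹ = r⁻¹ * (g * x * g⁻¹) * r := by group
        _ = x := by rw [h.inj (e.trans (by rw [e1, neg_one_smul]) : _ = ρ (r * x * r⁻¹))]; group)
    simpa using Subgroup.mul_mem _ (Subgroup.le_normalizer hr) this

theorem mem_normalizer_of_mv {x g : G} (hx : x ∈ P) (hx0 : π x ≠ 0) (hC : Cen P x)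
    (hm : g * x * g⁻¹ ∈ P) {σ : E →ₗ[F2] E} (hσ : Re P π σ) (e : σ (π (g * x * g⁻¹)) = π x) :
    g ∈ Subgroup.normalizer (P : Set G) := by
  obtain ⟨k, hk⟩ := hσ
  obtain ⟨c, hc⟩ := h.smul_of_π (hk.conj_mem hm) hx (by rw [hk.eq _ hm, e])
  have := h.cen_smul hx hx0 hC (g := k * g) (c := c) (by rw [← hc]; congr 1; group)
  simpa using Subgroup.mul_mem _ (Subgroup.inv_mem _ hk.mem) this

variable [Finite E] [Finite G]

theorem mem_normalizer_of_two {g a b : G} (ha : a ∈ P) (hb : b ∈ P) (ha0 : π a ≠ 0) (hb0 : π b ≠ 0)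
    (hab : π a ≠ π b) (ka : KN P a) (kb : KN P b) {c d : F} (e1 : ρ (g * a * g⁻¹) = c • ρ a)
    (e2 : ρ (g * b * g⁻¹) = d • ρ b) : g ∈ Subgroup.normalizer (P : Set G) := by
  obtain ⟨w, w1, w2⟩ := h.sy.ex01 hb0 hab.symm
  obtain ⟨w', w1', w2'⟩ := h.sy.ex01 ha0 hab
  have key : ∀ g, g * a = a * g → g * b = b * g → g ∈ Subgroup.normalizer (P : Set G) :=
    fun g g1 g2 => mem_normalizer_of fun r hr => by
      rcases f2_cases (B (π r) (π b)) with e | e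
      · exact kb g g2 r hr ((h.comm_iff hr hb).2 e)
      rcases f2_cases (B (π r) (π a)) with e' | e'
      · exact ka g g1 r hr ((h.comm_iff hr ha).2 e')
      obtain ⟨s, hs, rfl⟩ := h.surj w
      have m1 := ka g g1 s hs ((h.comm_iff hs ha).2 (h.sy.symm _ _ ▸ w1))
      have m2 := kb g g2 _ (P.mul_mem hr hs) ((h.comm_iff (P.mul_mem hr hs) hb).2 (by
        rw [h.mul r hr s hs, map_add, LinearMap.add_apply, e, h.sy.symm, w2, f2_one_add_one]))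
      convert P.mul_mem m2 (P.inv_mem m1) using 1
      group
  have fin : ∀ v, (B (π a) v = 0 ∧ c = 1 ∨ B (π a) v = 1 ∧ c = -1) →
      (B (π b) v = 0 ∧ d = 1 ∨ B (π b) v = 1 ∧ d = -1) → g ∈ Subgroup.normalizer (P : Set G) :=
    fun v v1 v2 => by
      obtain ⟨r, hr, rfl⟩ := h.surj v
      have k : ∀ {a : G} {c : F}, a ∈ P → ρ (g * a * g⁻¹) = c • ρ a →
          (B (π a) (π r) = 0 ∧ c = 1 ∨ B (π a) (π r) = 1 ∧ c = -1) → r⁻¹ * g * a = a * (r⁻¹ * g) :=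
        fun {a c} ha e v => by
          have : ρ (r * a * r⁻¹) = ρ (g * a * g⁻¹) := by
            rcases v with ⟨v, rfl⟩ | ⟨v, rfl⟩
            · rw [h.conj0 ha hr (h.sy.symm _ _ ▸ v), e, one_smul]
            · rw [h.conj1 ha hr (h.sy.symm _ _ ▸ v), e, neg_one_smul]
          calc r⁻¹ * g * a = r⁻¹ * (g * a * g⁻¹) * g := by group
            _ = a * (r⁻¹ * g) := by rw [← h.inj this]; group
      simpa using Subgroup.mul_mem _ (Subgroup.le_normalizer hr) (key _ (k ha e1 v1) (k hb e2 v2))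
  rcases h.sign_of_conj (h.sq_sc ha) e1 with c1 | c1 <;>
    rcases h.sign_of_conj (h.sq_sc hb) e2 with d1 | d1
  · exact fin 0 (Or.inl ⟨by simp, c1⟩) (Or.inl ⟨by simp, d1⟩)
  · exact fin w (Or.inl ⟨w1, c1⟩) (Or.inr ⟨w2, d1⟩)
  · exact fin w' (Or.inr ⟨w2', c1⟩) (Or.inl ⟨w1', d1⟩)
  · exact fin (w + w') (Or.inr ⟨by simp [w1, w2'], c1⟩) (Or.inr ⟨by simp [w2, w1'], d1⟩)

theorem cen_of_kn {g x u : G} (hx : x ∈ P) (hx0 : π x ≠ 0) (hu : u ∈ P) (hu0 : π u ≠ 0)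
    (hxu : π x ≠ π u) (kx : KN P x) (ku : KN P u) (hg : g * x = x * g) (hm : g * u * g⁻¹ ∈ P)
    {σ : E →ₗ[F2] E} (hσ : Re P π σ) (e1 : σ (π x) = π x) (e2 : σ (π (g * u * g⁻¹)) = π u) :
    g ∈ Subgroup.normalizer (P : Set G) := by
  obtain ⟨k, hk⟩ := hσ
  obtain ⟨c, hc⟩ := h.smul_of_π (hk.conj_mem hx) hx (by rw [hk.eq _ hx, e1])
  obtain ⟨d, hd⟩ := h.smul_of_π (hk.conj_mem hm) hu (by rw [hk.eq _ hm, e2])
  have := h.mem_normalizer_of_two (g := k * g) hx hu hx0 hu0 hxu kx ku (c := c) (d := d)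
    (by rw [← hc, mul_assoc k g, hg]; congr 1; group) (by rw [← hd]; congr 1; group)
  simpa using Subgroup.mul_mem _ (Subgroup.inv_mem _ hk.mem) this

end PD

end Cfsg.Agent.Class.C6P
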