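import Mathlib
import Cfsg.Agent.Class.C6P.PD
import Cfsg.Agent.Class.Max.FmHyp

/-!
If the centralisers of the non-scalar elements of a Pauli group normalise it, it is normal.
-/

set_option autoImplicit false

namespace Cfsg.Agent.Class.C6P

open Module

variable {F A G E : Type*} [Field F] [Ring A] [Algebra F A] [Group G] [AddCommGroup E] [Module F2 E]
  {ρ : G →* A} {P P' : Subgroup G} {π π' : G → E} {B : E →ₗ[F2] E →ₗ[F2] F2}

theorem card_f2 (W : Type*) [AddCommGroup W] [Module F2 W] [Finite W] :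
    Nat.card W = 2 ^ finrank F2 W := by
  rw [Module.natCard_eq_pow_finrank (K := F2), Nat.card_zmod]

theorem sc2_calc {X Y α : A} (hX : X * X = -1) (hY : Y * Y = -1) (hα : α * α = 1)
    (hXY : Y * X = -(X * Y)) (h1 : α * X = X * α) (h2 : α * Y = Y * α) :
    ((1 - X * α) * (1 - X) * ((1 + Y) * (1 + -(Y * α)))) *
      ((1 - X * α) * (1 - X) * ((1 + Y) * (1 + -(Y * α)))) = (-16 : F) • 1 ∧
    ((1 - X * α) * (1 - X) * ((1 + Y) * (1 + Y * α))) *
      ((1 - X * α) * (1 - X) * ((1 + Y) * (1 + Y * α))) = (-16 : F) • α := by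
  have a1 : ∀ z, X * (X * z) = -z := fun z => by rw [← mul_assoc, hX, neg_one_mul]
  have a2 : ∀ z, Y * (Y * z) = -z := fun z => by rw [← mul_assoc, hY, neg_one_mul]
  have a3 : ∀ z, α * (α * z) = z := fun z => by rw [← mul_assoc, hα, one_mul]
  have a4 : ∀ z, Y * (X * z) = -(X * (Y * z)) := fun z => by rw [← mul_assoc, hXY, neg_mul, mul_assoc]
  have a5 : ∀ z, α * (X * z) = X * (α * z) := fun z => by rw [← mul_assoc, h1, mul_assoc]
  have a6 : ∀ z, α * (Y * z) = Y * (α * z) := fun z => by rw [← mul_assoc, h2, mul_assoc]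
  have e1 : (1 - X * α) * (1 - X) * ((1 + Y) * (1 + -(Y * α))) =
      (2 : F) • (Y - Y * α - X - X * α) := by
    simp only [mul_add, add_mul, mul_sub, sub_mul, mul_neg, neg_mul, one_mul, mul_one, mul_assoc, a1, a2,
      a3, a4, a5, a6, hX, hY, hα, hXY, h1, h2, neg_neg]
    module
  have e2 : (1 - X * α) * (1 - X) * ((1 + Y) * (1 + Y * α)) =
      (2 : F) • (1 - α - X * Y - X * (Y * α)) := by
    simp only [mul_add, add_mul, mul_sub, sub_mul, mul_neg, neg_mul, one_mul, mul_one, mul_assoc, a1, a2,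
      a3, a4, a5, a6, hX, hY, hα, hXY, h1, h2, neg_neg]
    module
  rw [e1, e2, smul_mul_smul_comm, smul_mul_smul_comm]
  constructor <;>
  · simp only [mul_add, add_mul, mul_sub, sub_mul, mul_neg, neg_mul, one_mul, mul_one, mul_assoc, a1, a2,
      a3, a4, a5, a6, hX, hY, hα, hXY, h1, h2, neg_neg]
    module

/-- The conjugate subgroup. -/
def cj (g : G) (P : Subgroup G) : Subgroup G := P.comap (MulAut.conj g⁻¹).toMonoidHom

theorem mem_cj {g a : G} : a ∈ cj g P ↔ g⁻¹ * a * g ∈ P := by simp [cj]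

theorem mem_normalizer_cj {g k : G} (h : g⁻¹ * k * g ∈ Subgroup.normalizer (P : Set G)) :
    k ∈ Subgroup.normalizer (cj g P : Set G) := by
  rw [Subgroup.mem_normalizer_iff] at h ⊢
  intro a
  rw [mem_cj, mem_cj, h]
  congr! 1
  group

theorem Cen.cj {g x : G} (h : Cen P (g⁻¹ * x * g)) : Cen (cj g P) x := fun k hk =>
  mem_normalizer_cj (h _ (by
    calc g⁻¹ * k * g * (g⁻¹ * x * g) = g⁻¹ * (k * x) * g := by group
      _ = g⁻¹ * x * g * (g⁻¹ * k * g) := by rw [hk]; group))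

theorem PD.cj (h : PD F ρ P π B) (g : G) : PD F ρ (cj g P) (fun a => π (g⁻¹ * a * g)) B where
  inj := h.inj
  two := h.two
  nt := h.nt
  sy := h.sy
  mul a ha b hb := by
    rw [← h.mul _ (mem_cj.1 ha) _ (mem_cj.1 hb)]; congr 1; group
  surj u := by
    obtain ⟨a, ha, rfl⟩ := h.surj u
    exact ⟨g * a * g⁻¹, mem_cj.2 (by convert ha using 1; group), by congr 1; group⟩
  ker a ha := by
    rw [h.ker _ (mem_cj.1 ha), ← sc_conj_iff (g := g)]
    congr! 1
    group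
  sc k hk := mem_cj.2 (h.sc _ (by simpa using hk.conj g⁻¹))
  comm0 a ha b hb e := by
    have := h.comm0 _ (mem_cj.1 ha) _ (mem_cj.1 hb) e
    simp only [map_mul, mul_assoc, ρ_mul_inv'] at this
    exact ρ_right_cancel (ρ := ρ) g (by simpa [mul_assoc] using ρ_left_cancel _ this)
  comm1 a ha b hb e := by
    have := h.comm1 _ (mem_cj.1 ha) _ (mem_cj.1 hb) e
    simp only [map_mul, mul_assoc, ρ_mul_inv', ← mul_neg] at this
    exact ρ_right_cancel (ρ := ρ) g (by simpa [mul_assoc] using ρ_left_cancel _ this)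
  cent a ha := by
    obtain ⟨c, hc⟩ := h.cent (ρ g⁻¹ * a * ρ g) fun r hr => by
      have := ha (g * r * g⁻¹) (mem_cj.2 (by convert hr using 1; group))
      simp only [map_mul, mul_assoc] at this
      refine ρ_left_cancel (ρ := ρ) g (ρ_right_cancel (ρ := ρ) g⁻¹ ?_)
      simp only [mul_assoc, ρ_mul_inv', ρ_mul_inv, mul_one, this]
    refine ⟨c, ρ_left_cancel (ρ := ρ) g⁻¹ (ρ_right_cancel (ρ := ρ) g ?_)⟩
    rw [hc, mul_smul_comm, smul_mul_assoc, mul_one, ρ_inv_mul]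

namespace PD

/-- The classes of the elements of `P` normalising `P'`. -/
def sub (h : PD F ρ P π B) (P' : Subgroup G) : Submodule F2 E where
  carrier := {u | ∃ a ∈ P, a ∈ Subgroup.normalizer (P' : Set G) ∧ π a = u}
  add_mem' := by
    rintro _ _ ⟨a, a1, a2, rfl⟩ ⟨b, b1, b2, rfl⟩
    exact ⟨a * b, P.mul_mem a1 b1, Subgroup.mul_mem _ a2 b2, h.mul a a1 b b1⟩
  zero_mem' := ⟨1, P.one_mem, Subgroup.one_mem _, h.π_one⟩
  smul_mem' c u hu := by
    rcases f2_cases c with rfl | rfl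
    · exact ⟨1, P.one_mem, Subgroup.one_mem _, by rw [h.π_one, zero_smul]⟩
    · rwa [one_smul]

variable [Finite E] (h : PD F ρ P π B) (h' : PD F ρ P' π' B)
  (hC : ∀ x ∈ P, π x ≠ 0 → Cen P x) (hC' : ∀ x ∈ P', π' x ≠ 0 → Cen P' x)
  (hd : ∀ a ∈ P, a ∈ P' → Sc F ρ a)
include h h' hC' hd

omit [Finite E] in
theorem fix_iff {b : G} (hb : b ∈ P') (hb0 : π' b ≠ 0) {σ : E →ₗ[F2] E} (hσ : IsAct P π b σ) (u : E) :
    σ u = u ↔ u ∈ h.sub P' := by
  constructor
  · intro e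
    obtain ⟨a, ha, rfl⟩ := h.surj u
    refine ⟨a, ha, ?_, rfl⟩
    obtain ⟨c, hc⟩ := (h.sc_of_π (hσ.conj_mem ha) ha (by rw [hσ.eq a ha, e])).inv
    refine h'.cen_smul hb hb0 (hC' b hb hb0) (c := c) ?_
    rw [show a * b * a⁻¹ = (b * a * b⁻¹ * a⁻¹)⁻¹ * b by group, map_mul, hc, smul_mul_assoc, one_mul]
  · rintro ⟨a, ha, ha', rfl⟩
    have m := P.mul_mem (hσ.conj_mem ha) (P.inv_mem ha)
    have := (h.ker _ m).2 (hd _ m (by
      convert P'.mul_mem hb (conj_mem ha' (P'.inv_mem hb)) using 1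
      group))
    rwa [h.mul _ (hσ.conj_mem ha) _ (P.inv_mem ha), h.π_inv ha, add_eq_zero, hσ.eq a ha] at this

omit hC' hd in
theorem act_sq {b : G} (hb : b ∈ P') {σ : E →ₗ[F2] E} (hσ : IsAct P π b σ) (u : E) : σ (σ u) = u :=
  LinearMap.congr_fun (h.act_unique (hσ.mul hσ) (h.isAct_of_mem (h.sc _ (h'.sq_sc hb)))) u

theorem half {b : G} (hb : b ∈ P') (hb0 : π' b ≠ 0) (hn : b ∈ Subgroup.normalizer (P : Set G)) :
    finrank F2 E ≤ 2 * finrank F2 (h.sub P') ∧ h.sub P' ≠ ⊤ := by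
  obtain ⟨σ, hσ⟩ := h.exists_act hn
  have h0 := h.fix_iff h' hC' hd hb hb0 hσ
  constructor
  · have h1 := LinearMap.finrank_range_add_finrank_ker (σ + LinearMap.id)
    have h2 : LinearMap.ker (σ + LinearMap.id) ≤ h.sub P' := fun u hu =>
      (h0 u).1 (add_eq_zero.1 hu)
    have h3 : LinearMap.range (σ + LinearMap.id) ≤ h.sub P' := by
      rintro _ ⟨u, rfl⟩
      exact (h0 _).1 (by simp [h.act_sq h' hb hσ, add_comm])
    have := Submodule.finrank_mono h2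
    have := Submodule.finrank_mono h3
    omega
  · intro e
    exact hb0 ((h'.ker b hb).2 (hd b (h.mem_of_act (hσ.congr fun u => (h0 u).2 (e ▸ trivial))) hb))

include hC in
theorem lagr (h1 : 1 ≤ finrank F2 E) {b : G} (hb : b ∈ P') (hb0 : π' b ≠ 0)
    (hn : b ∈ Subgroup.normalizer (P : Set G)) :
    (∀ u ∈ h.sub P', ∀ v ∈ h.sub P', B u v = 0) ∧ finrank F2 E ≤ 2 * finrank F2 (h.sub P') ∧
      (∃ a ∈ P, π a ≠ 0 ∧ a ∈ Subgroup.normalizer (P' : Set G)) ∧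
      ∀ x ∈ P, π x ∉ h.sub P' → ∀ u ∈ h.sub P', ∃ b ∈ P', b ∈ Subgroup.normalizer (P : Set G) ∧
        π (b * x * b⁻¹) = π x + u := by
  obtain ⟨h2, h3⟩ := h.half h' hC' hd hb hb0 hn
  obtain ⟨_, ⟨a, a1, a2, rfl⟩, a0⟩ := Submodule.exists_mem_ne_zero_of_ne_bot (p := h.sub P') (by
    intro e
    rw [e, finrank_bot] at h2
    omega)
  obtain ⟨h4, -⟩ := h'.half h hC (fun a m m' => hd a m' m) a1 a0 a2
  have key : ∀ x ∈ P, π x ∉ h.sub P' → h.sub P' ⊓ h.sy.fm.perp (h.sub P') = h.sub P' ∧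
      ∀ u ∈ h.sub P', ∃ b ∈ P', b ∈ Subgroup.normalizer (P : Set G) ∧
        π (b * x * b⁻¹) = π x + u := fun x hx hx' => by
    choose s s1 s2 s3 using fun v : h'.sub P => v.2
    choose σ hσ using fun v => h.exists_act (s2 v)
    have m : ∀ v, σ v (π x) + π x ∈ h.sub P' ⊓ h.sy.fm.perp (h.sub P') := fun v => by
      by_cases e : π' (s v) = 0
      · rw [h.act_unique (hσ v) (h.isAct_of_mem (h.sc _ ((h'.ker _ (s1 v)).1 e))), LinearMap.id_apply,
          add_self]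
        exact Submodule.zero_mem _
      · have h0 := h.fix_iff h' hC' hd (s1 v) e (hσ v)
        refine ⟨(h0 _).1 (by simp [h.act_sq h' (s1 v) (hσ v), add_comm]), fun u hu => ?_⟩
        change B u _ = 0
        rw [map_add, ← h.act_B (hσ v) u (π x), (h0 u).2 hu, f2_add_self]
    let φ : h'.sub P → ↥(h.sub P' ⊓ h.sy.fm.perp (h.sub P')) := fun v => ⟨_, m v⟩
    have hφ : Function.Injective φ := fun v v' e => by
      have e1 : σ v (π x) = σ v' (π x) := add_right_cancel (congrArg Subtype.val e)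
      by_contra hne
      have m1 := P'.mul_mem (s1 v') (s1 v)
      refine hx' ((h.fix_iff h' hC' hd m1 (fun e2 => hne (Subtype.ext ?_))
        ((hσ v').mul (hσ v)) _).1 ?_)
      · rw [h'.mul _ (s1 v') _ (s1 v), s3, s3, add_eq_zero] at e2
        exact e2.symm
      · rw [LinearMap.comp_apply, e1, h.act_sq h' (s1 v') (hσ v')]
    have c1 := Nat.card_le_card_of_injective φ hφ
    rw [card_f2, card_f2, Nat.pow_le_pow_iff_right (by norm_num)] at c1
    have c2 := Submodule.finrank_mono (inf_le_right : h.sub P' ⊓ h.sy.fm.perp (h.sub P') ≤ _)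
    have c3 := h.sy.fm.finrank_add_perp (h.sub P')
    have c4 := Submodule.eq_of_le_of_finrank_le
      (inf_le_left : h.sub P' ⊓ h.sy.fm.perp (h.sub P') ≤ _) (by omega)
    refine ⟨c4, fun u hu => ?_⟩
    obtain ⟨v, hv⟩ := (hφ.bijective_of_nat_card_le (by
      rw [card_f2, card_f2]
      exact Nat.pow_le_pow_right two_pos (by omega))).2 ⟨u, c4.symm ▸ hu⟩
    exact ⟨s v, s1 v, s2 v, by rw [(hσ v).eq x hx, add_comm, ← add_eq_iff]; exact congrArg Subtype.val hv⟩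
  refine ⟨fun u hu v hv => ?_, h2, ⟨a, a1, a0, a2⟩, fun x hx hx' => (key x hx hx').2⟩
  obtain ⟨w, hw⟩ : ∃ w, w ∉ h.sub P' := by
    by_contra hc
    push Not at hc
    exact h3 (eq_top_iff.2 fun w _ => hc w)
  obtain ⟨x, hx, rfl⟩ := h.surj w
  rw [← (key x hx hw).1] at hv
  exact hv.2 u hu

include hC in
theorem strongly_closed [Finite G] (h3 : 3 ≤ finrank F2 E) (hT : TT F ρ P π)
    (hS : ∀ W : Submodule F2 E, W ≠ ⊤ → ∃ x, T ρ P π x ∧ π x ∉ W) {d : G} (hd1 : d ∈ P')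
    (hd0 : π' d ≠ 0) (hn : d ∈ Subgroup.normalizer (P : Set G)) : False := by
  obtain ⟨l1, l2, ⟨a', a1', a0', a2'⟩, l3⟩ := h.lagr h' hC hC' hd (by omega) hd1 hd0 hn
  obtain ⟨l4, -⟩ := h'.lagr h hC' hC (fun a m m' => hd a m' m) (by omega) a1' a0' a2'
  obtain ⟨x, hx, hx'⟩ := hS _ (h.half h' hC' hd hd1 hd0 hn).2
  obtain ⟨a2, m2, e2⟩ : ∃ u ∈ h.sub P', B (π x) u = 1 := by
    by_contra hc
    push Not at hc
    exact hx' (h.sy.mem_of_lagr l1 l2 fun a ha => h.sy.symm _ _ ▸ f2_ne_one.1 (hc a ha))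
  obtain ⟨a, m, a0, e⟩ := Max.exists_ne_zero_ker [B (π x)] (h.sub P') (by simp; omega)
  replace e : B (π x) a = 0 := e _ (by simp)
  obtain ⟨b, b1, b2, b3⟩ := l3 x hx.mem hx' a m
  obtain ⟨c, c1, c2, c3⟩ := l3 x hx.mem hx' a2 m2
  have t1 := h.T_conj hx (conj_mem b2 hx.mem)
  have t2 := h.T_conj hx (conj_mem c2 hx.mem)
  have k1 : x * (b * x * b⁻¹) = b * x * b⁻¹ * x :=
    (h.comm_iff hx.mem t1.mem).2 (by rw [b3, map_add, e, h.sy.alt, add_zero])
  obtain ⟨g, hg⟩ := hT _ _ hx t1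
  have g1 := (h.tt_act hg hx t1).mem
  obtain ⟨κ, hκ⟩ := hg
  have conj : ∀ k, ρ (k * g * k⁻¹) =
      κ • ((1 + ρ (k * x * k⁻¹)) * (1 + ρ (k * (b * x * b⁻¹) * k⁻¹))) := fun k => by
    simp only [map_mul, hκ, mul_add, add_mul, mul_assoc, mul_smul_comm, smul_mul_assoc, one_mul, mul_one,
      ρ_mul_inv, ρ_inv_mul', smul_add]
  have b0 : π' b ≠ 0 := fun e0 => a0 (by
    rwa [h.sc_conj ((h'.ker b b1).1 e0), left_eq_add] at b3)
  have g2 : g ∈ Subgroup.normalizer (P' : Set G) := hC' b b1 b0 g (by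
    rw [eq_comm, ← mul_inv_eq_iff_eq_mul]
    refine h.inj ?_
    rw [conj, hκ, show b * (b * x * b⁻¹) * b⁻¹ = b * b * x * (b * b)⁻¹ by group,
      h.sc_conj (h'.sq_sc b1)]
    simp only [mul_add, add_mul, one_mul, mul_one, ← map_mul, k1]
    congr 1
    abel)
  set w := g⁻¹ * (c * g * c⁻¹) with hw
  have w1 : w ∈ P' := by
    convert P'.mul_mem (conj_mem (Subgroup.inv_mem _ g2) c1) (P'.inv_mem c1) using 1
    rw [hw]; group
  have w2 : w ∈ Subgroup.normalizer (P : Set G) :=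
    Subgroup.mul_mem _ (Subgroup.inv_mem _ g1)
      (Subgroup.mul_mem _ (Subgroup.mul_mem _ c2 g1) (Subgroup.inv_mem _ c2))
  have w3 := (h'.comm_iff c1 w1).2 (l4 _ ⟨c, c1, c2, rfl⟩ _ ⟨w, w1, w2, rfl⟩)
  have w4 : w * w = 1 := by
    calc w * w = w * (c * w * c⁻¹) := by rw [w3]; group
      _ = g⁻¹ * (c * c * g * (c * c)⁻¹) := by rw [hw]; group
      _ = 1 := by rw [h.sc_conj (h'.sq_sc c1), inv_mul_cancel]
  set α := x⁻¹ * (b * x * b⁻¹) with hα
  have α1 : α ∈ P := P.mul_mem (P.inv_mem hx.mem) t1.mem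
  have α2 : π α = a := by rw [h.mul _ (P.inv_mem hx.mem) _ t1.mem, h.π_inv hx.mem, b3, add_add_cancel']
  have α3 : b * x * b⁻¹ = x * α := by rw [hα]; group
  have α4 := h.comm0 _ α1 _ hx.mem (by rw [α2, h.sy.symm, e])
  have α5 := h.comm0 _ α1 _ t2.mem (by rw [α2, c3, map_add, h.sy.symm, e, l1 _ m _ m2, add_zero])
  have α6 : ρ α * ρ α = 1 := by
    have := t1.sq
    rw [α3, map_mul, mul_assoc, ← mul_assoc (ρ α), α4, mul_assoc, ← mul_assoc, hx.sq, neg_one_mul] at this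
    exact neg_injective this
  have α7 := h.comm1 _ t2.mem _ hx.mem (by
    rw [c3, map_add, LinearMap.add_apply, h.sy.alt, zero_add, h.sy.symm, e2])
  obtain ⟨σ, hσ⟩ := h.exists_act c2
  have c0 : π' c ≠ 0 := fun e0 => by
    rw [h.sc_conj ((h'.ker c c1).1 e0), left_eq_add] at c3
    simp [c3] at e2
  obtain ⟨ε, hε⟩ := h.smul_of_π (conj_mem c2 α1) α1 (by
    rw [hσ.eq _ α1, α2, (h.fix_iff h' hC' hd c1 c0 hσ a).2 m])
  have e3 : ρ w = (4 : F)⁻¹ • ((1 - ρ x * ρ α) * (1 - ρ x) *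
      ((1 + ρ (c * x * c⁻¹)) * (1 + ε • (ρ (c * x * c⁻¹) * ρ α)))) := by
    rw [hw, map_mul, h.tt_inv hκ hx.sq t1.sq, conj, smul_mul_smul_comm, α3,
      show c * (x * α) * c⁻¹ = c * x * c⁻¹ * (c * α * c⁻¹) by group, map_mul ρ (c * x * c⁻¹), hε,
      map_mul ρ x, mul_smul_comm, mul_inv, mul_assoc, inv_mul_cancel₀ (h.tt_ne hκ), mul_one]
  have e4 := congrArg ρ w4
  obtain ⟨s1, s2⟩ := sc2_calc (F := F) hx.sq t2.sq α6 α7 α4 α5
  have h4 : (4 : F) ≠ 0 := by rw [show (4 : F) = 2 * 2 by norm_num]; exact mul_ne_zero h.two h.two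
  have h5 : (4 : F)⁻¹ * 4⁻¹ * -16 = -1 := by field_simp; norm_num
  rw [map_mul, map_one, e3, smul_mul_smul_comm] at e4
  rcases h.sign_of_conj (h.sq_sc α1) hε with rfl | rfl
  · rw [one_smul, s2, smul_smul, h5] at e4
    exact a0 (α2 ▸ (h.ker _ α1).2 ⟨-1, by rw [← e4, smul_smul]; simp⟩)
  · rw [neg_one_smul, s1, smul_smul, h5, neg_one_smul] at e4
    exact h.neg_ne h.nt e4.symm

end PD

end Cfsg.Agent.Class.C6P
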