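import Mathlib
import Cfsg.Agent.Class.C6P.Finish

/-!
Normality criteria for Pauli groups; construction of the quotient space.
-/

set_option autoImplicit false

namespace Cfsg.Agent.Class.C6P

open Module

universe u

variable {F A G E : Type*} [Field F] [Ring A] [Algebra F A] [Group G] [AddCommGroup E] [Module F2 E]
  {ρ : G →* A} {P : Subgroup G} {π : G → E} {B : E →ₗ[F2] E →ₗ[F2] F2}

section Quot

variable {Z : Subgroup G} [Z.Normal] (hZ : Z ≤ P)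
include hZ

theorem mk_mem_map {g : G} : (g : G ⧸ Z) ∈ P.map (QuotientGroup.mk' Z) ↔ g ∈ P := by
  refine ⟨?_, fun h => ⟨g, h, rfl⟩⟩
  rintro ⟨k, hk, e⟩
  simpa using P.mul_mem hk (hZ (QuotientGroup.eq.1 e))

theorem mk_mem_normalizer {g : G} :
    (g : G ⧸ Z) ∈ Subgroup.normalizer (P.map (QuotientGroup.mk' Z) : Set (G ⧸ Z)) ↔
      g ∈ Subgroup.normalizer (P : Set G) := by
  simp only [Subgroup.mem_normalizer_iff]
  refine ⟨fun h a => ?_, fun h a => ?_⟩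
  · rw [← mk_mem_map hZ, h, ← mk_mem_map hZ (g := g * a * g⁻¹)]
    rfl
  · induction a using QuotientGroup.induction_on with | H a =>
    rw [mk_mem_map hZ, h, ← mk_mem_map hZ (g := g * a * g⁻¹)]
    rfl

theorem normal_of_map (h : (P.map (QuotientGroup.mk' Z)).Normal) : P.Normal :=
  ⟨fun a ha g => (mk_mem_map hZ).1 (h.conj_mem (a : G ⧸ Z) ((mk_mem_map hZ).2 ha) g)⟩

end Quot

theorem IsTT.conj {g x x' : G} (hg : IsTT F ρ g x x') (k : G) :
    IsTT F ρ (k * g * k⁻¹) (k * x * k⁻¹) (k * x' * k⁻¹) := by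
  obtain ⟨c, hc⟩ := hg
  refine ⟨c, ?_⟩
  simp only [map_mul, hc, mul_add, add_mul, mul_assoc, mul_smul_comm, smul_mul_assoc, one_mul, mul_one,
    ρ_mul_inv, ρ_inv_mul', smul_add]

theorem IsAct.inv_of {g : G} {σ τ : E →ₗ[F2] E} (hg : IsAct P π g σ) (e : ∀ u, τ (σ u) = u) :
    IsAct P π g⁻¹ τ :=
  ⟨Subgroup.inv_mem _ hg.mem, fun a ha => by
    rw [← e (π _), ← hg.eq _ (C6P.conj_mem (Subgroup.inv_mem _ hg.mem) ha)]
    congr 2
    group⟩

/-- `q` records the squares of the elements of `P`. -/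
structure IsQ (ρ : G →* A) (P : Subgroup G) (π : G → E) (B : E →ₗ[F2] E →ₗ[F2] F2) (q : E → F2) :
    Prop where
  qd : Qd B q
  zero : ∀ a ∈ P, q (π a) = 0 ↔ ρ a * ρ a = 1
  one : ∀ a ∈ P, q (π a) = 1 ↔ ρ a * ρ a = -1

theorem IsQ.T {q : E → F2} (hq : IsQ ρ P π B q) {a : G} (ha : a ∈ P) (e : q (π a) = 1) : T ρ P π a :=
  ⟨ha, (hq.one a ha).1 e, hq.qd.ne e⟩

theorem IsQ.of_T {q : E → F2} (hq : IsQ ρ P π B q) {a : G} (ha : C6P.T ρ P π a) : q (π a) = 1 :=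
  (hq.one a ha.mem).2 ha.sq

theorem exists_pd {G : Type u} [Group G] [Finite G] {ρ : G →* A} {P : Subgroup G}
    (inj : Function.Injective ρ) (two : (2 : F) ≠ 0) (nt : (1 : A) ≠ 0)
    (sc : ∀ g, Sc F ρ g → g ∈ P)
    (comm : ∀ a ∈ P, ∀ b ∈ P, ρ a * ρ b = ρ b * ρ a ∨ ρ a * ρ b = -(ρ b * ρ a))
    (sq : ∀ a ∈ P, Sc F ρ (a * a))
    (cent : ∀ a : A, (∀ r ∈ P, a * ρ r = ρ r * a) → ∃ c : F, a = c • 1) :
    ∃ (E : Type u) (_ : AddCommGroup E) (_ : Module F2 E) (_ : Finite E) (π : G → E)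
      (B : E →ₗ[F2] E →ₗ[F2] F2), PD F ρ P π B := by
  classical
  let Q := P ⧸ (ScS F ρ).subgroupOf P
  have ne : ∀ g, ρ g ≠ -ρ g := fun g e =>
    nt (by rw [← ρ_mul_inv (ρ := ρ) g, eq_zero_of_eq_neg two e, zero_mul])
  let _ : CommGroup Q := { (inferInstance : Group Q) with
    mul_comm := fun a b => by
      induction a using QuotientGroup.induction_on with | H a =>
      induction b using QuotientGroup.induction_on with | H b =>
      refine QuotientGroup.eq.2 ?_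
      change Sc F ρ ((a * b : G)⁻¹ * (b * a))
      rcases comm b b.2 a a.2 with e | e
      · exact ⟨1, by rw [map_mul, map_mul ρ (b : G), e, ← map_mul, ρ_inv_mul, one_smul]⟩
      · exact ⟨-1, by rw [map_mul, map_mul ρ (b : G), e, ← map_mul, mul_neg, ρ_inv_mul, neg_one_smul]⟩ }
  let _ : Module F2 (Additive Q) := AddCommGroup.zmodModule fun x => by
    obtain ⟨x, rfl⟩ := Additive.ofMul.surjective x
    induction x using QuotientGroup.induction_on with | H a =>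
    rw [← ofMul_pow, ← QuotientGroup.mk_pow, ofMul_eq_zero, QuotientGroup.eq_one_iff, pow_two]
    exact sq a a.2
  let π : G → Additive Q := fun g => if hg : g ∈ P then Additive.ofMul (⟨g, hg⟩ : P) else 0
  have hπ : ∀ g (hg : g ∈ P), π g = Additive.ofMul ((⟨g, hg⟩ : P) : Q) := fun g hg => dif_pos hg
  have mul : ∀ a ∈ P, ∀ b ∈ P, π (a * b) = π a + π b := fun a ha b hb => by
    rw [hπ a ha, hπ b hb, hπ _ (P.mul_mem ha hb)]; rfl
  have surj : ∀ u, ∃ a ∈ P, π a = u := fun x => by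
    obtain ⟨x, rfl⟩ := Additive.ofMul.surjective x
    induction x using QuotientGroup.induction_on with | H a =>
    exact ⟨a, a.2, hπ a a.2⟩
  have ker : ∀ a ∈ P, π a = 0 ↔ Sc F ρ a := fun a ha => by
    rw [hπ a ha, ofMul_eq_zero, QuotientGroup.eq_one_iff]; rfl
  have sm : ∀ a ∈ P, ∀ b ∈ P, π a = π b → ∃ c : F, c ≠ 0 ∧ ρ a = c • ρ b := fun a ha b hb e => by
    rw [hπ a ha, hπ b hb] at e
    obtain ⟨c, hc⟩ : Sc F ρ (b⁻¹ * a) := QuotientGroup.eq.1 (Additive.ofMul.injective e).symm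
    have : ρ a = c • ρ b := by rw [← mul_one (ρ b), ← mul_smul_comm, ← hc, ← map_mul, mul_inv_cancel_left]
    exact ⟨c, fun e => ne a (by simp [this, e]), this⟩
  let β : G → G → F2 := fun a b => if ρ a * ρ b = ρ b * ρ a then 0 else 1
  have b0 : ∀ a b, ρ a * ρ b = ρ b * ρ a → β a b = 0 := fun a b e => if_pos e
  have b1 : ∀ a b, ρ a * ρ b = -(ρ b * ρ a) → β a b = 1 := fun a b e => if_neg fun e' =>
    ne (b * a) (by rw [map_mul, ← e, e'])
  have bs : ∀ a b, β a b = β b a := fun a b => by simp only [β, eq_comm]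
  have bm : ∀ a ∈ P, ∀ a' ∈ P, ∀ b ∈ P, β (a * a') b = β a b + β a' b := fun a ha a' ha' b hb => by
    rcases comm a ha b hb with e | e <;> rcases comm a' ha' b hb with e' | e'
    · rw [b0 _ _ e, b0 _ _ e', b0, add_zero]
      rw [map_mul, mul_assoc, e', ← mul_assoc, e, mul_assoc]
    · rw [b0 _ _ e, b1 _ _ e', b1, zero_add]
      rw [map_mul, mul_assoc, e', mul_neg, ← mul_assoc, e, mul_assoc]
    · rw [b1 _ _ e, b0 _ _ e', b1, add_zero]
      rw [map_mul, mul_assoc, e', ← mul_assoc, e, neg_mul, mul_assoc]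
    · rw [b1 _ _ e, b1 _ _ e', b0, f2_one_add_one]
      rw [map_mul, mul_assoc, e', mul_neg, ← mul_assoc, e, neg_mul, neg_neg, mul_assoc]
  have bc : ∀ a ∈ P, ∀ a' ∈ P, π a = π a' → ∀ b, β a b = β a' b := fun a ha a' ha' e b => by
    obtain ⟨c, c0, hc⟩ := sm a ha a' ha' e
    simp only [β, hc, smul_mul_assoc, mul_smul_comm, (smul_right_injective A c0).eq_iff]
  choose s s1 s2 using surj
  have hadd : ∀ u u' v, β (s (u + u')) (s v) = β (s u) (s v) + β (s u') (s v) := fun u u' v => by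
    rw [← bm _ (s1 u) _ (s1 u') _ (s1 v)]
    exact bc _ (s1 _) _ (P.mul_mem (s1 u) (s1 u')) (by rw [mul _ (s1 u) _ (s1 u'), s2, s2, s2]) _
  have hsm : ∀ (c : F2) u v, β (s (c • u)) (s v) = c • β (s u) (s v) := fun c u v => by
    rcases f2_cases c with rfl | rfl
    · simpa using hadd 0 0 v
    · simp
  let B : Additive Q →ₗ[F2] Additive Q →ₗ[F2] F2 := LinearMap.mk₂ F2 (fun u v => β (s u) (s v)) hadd hsm
    (fun u v v' => by simpa only [bs (s u)] using hadd v v' u)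
    (fun c u v => by simpa only [bs (s u)] using hsm c v u)
  have hB : ∀ a ∈ P, ∀ b ∈ P, B (π a) (π b) = β a b := fun a ha b hb => by
    change β (s (π a)) (s (π b)) = _
    rw [bc _ (s1 _) a ha (s2 _), bs, bc _ (s1 _) b hb (s2 _), bs]
  have c0 : ∀ a ∈ P, ∀ b ∈ P, B (π a) (π b) = 0 → ρ a * ρ b = ρ b * ρ a := fun a ha b hb e => by
    by_contra e'
    rw [hB a ha b hb, show β a b = 1 from if_neg e'] at e
    exact one_ne_zero e
  refine ⟨Additive Q, inferInstance, inferInstance, inferInstance, π, B, inj, two, nt,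
    ⟨fun u => b0 _ _ rfl, fun u hu => ?_⟩, mul, fun u => ⟨s u, s1 u, s2 u⟩, ker, sc, c0,
    fun a ha b hb e => (comm a ha b hb).resolve_left fun e' => ?_, cent⟩
  · rw [← s2 u, ker _ (s1 u)]
    exact cent _ fun r hr => c0 _ (s1 u) r hr (by rw [s2, hu])
  · rw [hB a ha b hb, b0 a b e'] at e
    exact zero_ne_one e

namespace PD

variable (h : PD F ρ P π B)
include h

theorem π_out {g : G} (hg : g ∈ P) : π (Quotient.out (g : G ⧸ ScS F ρ)) = π g := by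
  obtain ⟨z, hz⟩ := QuotientGroup.mk_out_eq_mul (ScS F ρ) g
  rw [hz, h.mul g hg _ (h.sc _ z.2), (h.ker _ (h.sc _ z.2)).2 z.2, add_zero]

theorem exists_q (hsq : ∀ a ∈ P, ρ a * ρ a = 1 ∨ ρ a * ρ a = -1)
    (hZ : ∀ z, Sc F ρ z → ρ z * ρ z = 1) : ∃ q, IsQ ρ P π B q := by
  classical
  choose s s1 s2 using h.surj
  have n1 : (1 : A) ≠ -1 := h.neg_ne h.nt
  have key : ∀ a ∈ P, ρ (s (π a)) * ρ (s (π a)) = ρ a * ρ a := fun a ha => by
    have h1 := h.sc_of_π (s1 (π a)) ha (s2 _)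
    obtain ⟨z, hz⟩ : ∃ z, s (π a) = z * a := ⟨s (π a) * a⁻¹, by group⟩
    rw [hz, mul_inv_cancel_right] at h1
    rw [hz, map_mul, mul_assoc, ← mul_assoc (ρ a), ← map_mul ρ a z, ← h.sc_comm h1, map_mul, mul_assoc,
      ← mul_assoc, ← mul_assoc, hZ _ h1, one_mul]
  let q : E → F2 := fun u => if ρ (s u) * ρ (s u) = 1 then 0 else 1
  have q0 : ∀ a ∈ P, q (π a) = 0 ↔ ρ a * ρ a = 1 := fun a ha => by simp [q, key a ha]
  have q1 : ∀ a ∈ P, q (π a) = 1 ↔ ρ a * ρ a = -1 := fun a ha => by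
    rw [← f2_ne_zero, Ne, q0 a ha]
    exact ⟨(hsq a ha).resolve_left, fun e e' => n1 (e'.symm.trans e)⟩
  refine ⟨q, fun u v => ?_, q0, q1⟩
  obtain ⟨a, ha, rfl⟩ := h.surj u
  obtain ⟨b, hb, rfl⟩ := h.surj v
  rw [← h.mul a ha b hb]
  have m := P.mul_mem ha hb
  rcases f2_cases (B (π a) (π b)) with e | e
  · have e1 : ρ (a * b) * ρ (a * b) = ρ a * ρ a * (ρ b * ρ b) := by
      rw [map_mul, mul_assoc, ← mul_assoc (ρ b), ← h.comm0 a ha b hb e, mul_assoc, mul_assoc]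
    rcases hsq a ha with e2 | e2 <;> rcases hsq b hb with e3 | e3 <;> rw [e2, e3] at e1
    · rw [(q0 a ha).2 e2, (q0 b hb).2 e3, (q0 _ m).2 (by simpa using e1), e]; decide
    · rw [(q0 a ha).2 e2, (q1 b hb).2 e3, (q1 _ m).2 (by simpa using e1), e]; decide
    · rw [(q1 a ha).2 e2, (q0 b hb).2 e3, (q1 _ m).2 (by simpa using e1), e]; decide
    · rw [(q1 a ha).2 e2, (q1 b hb).2 e3, (q0 _ m).2 (by simpa using e1), e]; decide
  · have e1 : ρ (a * b) * ρ (a * b) = -(ρ a * ρ a * (ρ b * ρ b)) := by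
      rw [map_mul, mul_assoc, ← mul_assoc (ρ b), h.comm1 b hb a ha (h.sy.symm _ _ ▸ e), neg_mul, mul_neg,
        mul_assoc, mul_assoc]
    rcases hsq a ha with e2 | e2 <;> rcases hsq b hb with e3 | e3 <;> rw [e2, e3] at e1
    · rw [(q0 a ha).2 e2, (q0 b hb).2 e3, (q1 _ m).2 (by simpa using e1), e]; decide
    · rw [(q0 a ha).2 e2, (q1 b hb).2 e3, (q0 _ m).2 (by simpa using e1), e]; decide
    · rw [(q1 a ha).2 e2, (q0 b hb).2 e3, (q0 _ m).2 (by simpa using e1), e]; decide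
    · rw [(q1 a ha).2 e2, (q1 b hb).2 e3, (q1 _ m).2 (by simpa using e1), e]; decide

theorem exists_T {q : E → F2} (hq : IsQ ρ P π B q) {u : E} (hu : q u = 1) : ∃ x, T ρ P π x ∧ π x = u := by
  obtain ⟨x, hx, rfl⟩ := h.surj u
  exact ⟨x, hq.T hx hu, rfl⟩

theorem q_conj {q : E → F2} (hq : IsQ ρ P π B q) {a g : G} (ha : a ∈ P) (hm : g * a * g⁻¹ ∈ P) :
    q (π (g * a * g⁻¹)) = q (π a) := by
  rcases f2_cases (q (π a)) with e | e <;> rw [e]
  · rw [hq.zero _ hm, h.conj_sq (h.sq_sc ha), ← hq.zero a ha, e]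
  · rw [hq.one _ hm, h.conj_sq (h.sq_sc ha), ← hq.one a ha, e]

variable [Finite G] [Finite E]

theorem normal (h3 : 3 ≤ finrank F2 E) (hT : TT F ρ P π)
    (hS : ∀ W : Submodule F2 E, W ≠ ⊤ → ∃ x, T ρ P π x ∧ π x ∉ W)
    (hC : ∀ x ∈ P, π x ≠ 0 → Cen P x)
    (hTr : ∀ a ∈ P, ∀ b ∈ P, π a ≠ 0 → π b ≠ 0 → ρ a * ρ a = ρ b * ρ b →
      ∃ σ, Re P π σ ∧ σ (π a) = π b) : P.Normal := by
  have TI : ∀ g, ∀ a ∈ P, π a ≠ 0 → g * a * g⁻¹ ∈ P → g ∈ Subgroup.normalizer (P : Set G) :=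
    fun g a ha a0 hm => by
      obtain ⟨σ, h1, h2⟩ := hTr _ hm a ha (h.ne_conj ha a0 hm) a0 (h.conj_sq (h.sq_sc ha) g)
      exact h.mem_normalizer_of_mv ha a0 (hC a ha a0) hm h1 h2
  have SC : ∀ g, ∀ a ∈ P, g * a * g⁻¹ ∈ Subgroup.normalizer (P : Set G) → g * a * g⁻¹ ∈ P :=
    fun g a ha hm => by
      by_contra hn
      have e : g⁻¹ * (g * a * g⁻¹) * g = a := by group
      refine h.strongly_closed (h.cj g) hC (fun x hx x0 => (hC _ (mem_cj.1 hx) x0).cj)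
        (fun x hx hx' => ?_) h3 hT hS (mem_cj.2 (e.symm ▸ ha)) (fun e0 => ?_) hm
      · by_contra hs
        have := TI g⁻¹ x hx (fun e0 => hs ((h.ker x hx).1 e0)) (by simpa using mem_cj.1 hx')
        exact hn (conj_mem (by simpa using this) ha)
      · rw [e, h.ker a ha] at e0
        exact hn (h.sc _ (e0.conj g))
  have hZ : ScS F ρ ≤ P := h.sc
  refine normal_of_map hZ (normal_of_ti _ (fun x => π x.out) h.sy ?_ ?_ (fun u => ?_) (fun g hg => ?_)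
    (fun g => ?_) (fun g => ?_) h3)
  · rintro _ ⟨a, ha, rfl⟩ _ ⟨b, hb, rfl⟩
    exact (h.π_out (P.mul_mem ha hb)).trans (by
      rw [h.mul a ha b hb, ← h.π_out ha, ← h.π_out hb]; rfl)
  · rintro _ ⟨a, ha, rfl⟩ e
    exact (QuotientGroup.eq_one_iff a).2 ((h.ker a ha).1 ((h.π_out ha).symm.trans e))
  · obtain ⟨a, ha, rfl⟩ := h.surj u
    exact ⟨a, ⟨a, ha, rfl⟩, h.π_out ha⟩
  · induction g using QuotientGroup.induction_on with | H g =>
    rw [mk_mem_normalizer hZ] at hg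
    rintro _ ⟨a, ha, rfl⟩ _ ⟨b, hb, rfl⟩
    have := h.B_conj hg ha hb
    rwa [← h.π_out ha, ← h.π_out hb, ← h.π_out (conj_mem hg ha), ← h.π_out (conj_mem hg hb)] at this
  · induction g using QuotientGroup.induction_on with | H g =>
    rintro _ ⟨a, ha, rfl⟩ a1 hm
    exact (mk_mem_normalizer hZ).2 (TI g a ha
      (fun e => a1 ((QuotientGroup.eq_one_iff a).2 ((h.ker a ha).1 e))) ((mk_mem_map hZ).1 hm))
  · induction g using QuotientGroup.induction_on with | H g =>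
    rintro _ ⟨a, ha, rfl⟩ hm
    exact (mk_mem_map hZ (g := g * a * g⁻¹)).2 (SC g a ha ((mk_mem_normalizer hZ).1 hm))

/-- A normal subgroup in which the elements of square `-1` are self-centralising. -/
theorem normal_of_loc {q : E → F2} (hq : IsQ ρ P π B q) (hT : TT F ρ P π) {L : Subgroup G}
    [hL : L.Normal] (hPL : P ≤ L) (hC : ∀ x, T ρ P π x → ∀ l ∈ L, l * x = x * l → l ∈ P)
    (hd : 6 ≤ finrank F2 E ∨ (4 ≤ finrank F2 E ∧
      ∀ a b, q a = 0 → q b = 0 → B a b = 0 → a = 0 ∨ b = 0 ∨ a = b)) : P.Normal ∧ L ≤ P := by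
  have hC' : ∀ x, T ρ P π x → ∀ l ∈ L, ∀ c : F, ρ (l * x * l⁻¹) = c • ρ x → l ∈ P :=
    fun x hx l hl c e => by
      rcases h.sign_of_conj (h.sq_sc hx.mem) e with rfl | rfl
      · exact hC x hx l hl (by rw [← mul_inv_eq_iff_eq_mul]; exact h.inj (by simpa using e))
      · obtain ⟨w, hw⟩ := h.sy.ex_one hx.ne
        obtain ⟨r, hr, rfl⟩ := h.surj w
        have e1 := h.conj1 hx.mem hr (h.sy.symm _ _ ▸ hw)
        have := hC x hx (r⁻¹ * l) (L.mul_mem (L.inv_mem (hPL hr)) hl) (by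
          rw [← mul_inv_eq_iff_eq_mul]
          calc r⁻¹ * l * x * (r⁻¹ * l)⁻¹ = r⁻¹ * (l * x * l⁻¹) * r := by group
            _ = x := by rw [h.inj (e.trans (by rw [e1, neg_one_smul]) : _ = ρ (r * x * r⁻¹))]; group)
        simpa using P.mul_mem hr this
  have hN : ∀ l ∈ L, l ∈ Subgroup.normalizer (P : Set G) → l ∈ P := fun l hl hn => by
    obtain ⟨σ, hσ⟩ := h.exists_act hn
    refine h.mem_of_act (hq.qd.eq_id_of_semireg h.sy (J := fun σ => ∃ l ∈ L, IsAct P π l σ)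
      ?_ ?_ ?_ ?_ hd ⟨l, hl, hσ⟩ ▸ hσ)
    · rintro σ ⟨l, -, hσ⟩ u
      obtain ⟨a, ha, rfl⟩ := h.surj u
      rw [← hσ.eq a ha, h.q_conj hq ha (hσ.conj_mem ha)]
    · rintro σ ⟨l, hl, hσ⟩ u hu e
      obtain ⟨x, hx, rfl⟩ := h.exists_T hq hu
      obtain ⟨c, hc⟩ := h.smul_of_π (hσ.conj_mem hx.mem) hx.mem (by rw [hσ.eq x hx.mem, e])
      exact h.act_unique hσ (h.isAct_of_mem (hC' x hx l hl c hc))
    · rintro σ ⟨l, hl, hσ⟩ u w hu hw
      obtain ⟨x, hx, rfl⟩ := h.exists_T hq hu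
      obtain ⟨y, hy, rfl⟩ := h.exists_T hq hw
      obtain ⟨k, hk⟩ := hT x y hx hy
      have a1 := h.tt_act (hk.conj l) (h.T_conj hx (hσ.conj_mem hx.mem)) (h.T_conj hy (hσ.conj_mem hy.mem))
      have a2 := (h.tt_act hk hx hy).inv_of (τ := tv B (π y) ∘ₗ tv B (π x)) fun u => by
        simp [h.sy.tv_tv]
      rw [hσ.eq x hx.mem, hσ.eq y hy.mem] at a1
      refine ⟨_, ?_, a1.mul a2⟩
      convert L.mul_mem hl (hL.conj_mem _ (L.inv_mem hl) k) using 1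
      group
    · rintro σ ⟨l, hl, hσ⟩
      exact ⟨_, L.mul_mem hl hl, hσ.mul hσ⟩
  have H : ∀ a b, Ns B q [a, b] := fun a b =>
    hd.elim (fun e => hq.qd.ns_of_lt h.sy (by simp; omega)) fun e =>
      Qd.ns_of_two h.sy (by simp; omega) e.2 hq.qd
  obtain ⟨u, hu, -⟩ := H 0 0
  obtain ⟨w, hw, e⟩ := hq.qd.span₁ h.sy H (hq.qd.ne hu)
  obtain ⟨x, hx, rfl⟩ := h.exists_T hq hu
  obtain ⟨y, hy, rfl⟩ := h.exists_T hq hw
  have hZ : ScS F ρ ≤ P := h.sc
  have hZ' : ScS F ρ ≤ L := hZ.trans hPL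
  have : (L.map (QuotientGroup.mk' (ScS F ρ))).Normal := hL.map _ (QuotientGroup.mk'_surjective _)
  have hn : P.Normal := by
    refine normal_of_map hZ (normal_of_selfcent (L := L.map (QuotientGroup.mk' (ScS F ρ)))
      (Subgroup.map_mono hPL) ?_ (T := fun t => ∃ x, T ρ P π x ∧ (x : G ⧸ ScS F ρ) = t) ?_ ?_ ?_ ?_
      ⟨x, hx, rfl⟩ ⟨y, hy, rfl⟩ ⟨x * y, hq.T (P.mul_mem hx.mem hy.mem) ?_, rfl⟩)
    · rintro _ ⟨a, ha, rfl⟩
      exact (QuotientGroup.eq_one_iff (a * a)).2 (h.sq_sc ha)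
    · rintro _ ⟨x, hx, rfl⟩
      exact ⟨x, hx.mem, rfl⟩
    · rintro _ ⟨x, hx, rfl⟩ _ ⟨l, hl, rfl⟩ e
      obtain ⟨c, hc⟩ : Sc F ρ ((x * l)⁻¹ * (l * x)) := QuotientGroup.eq.1 e.symm
      refine ⟨l, hC' x hx l hl c ?_, rfl⟩
      rw [show l * x * l⁻¹ = x * l * ((x * l)⁻¹ * (l * x)) * l⁻¹ by group, map_mul, map_mul, hc,
        mul_smul_comm, smul_mul_assoc, mul_one, ← map_mul, mul_inv_cancel_right]
    · rintro _ ⟨l, hl, rfl⟩ e
      exact ⟨l, hN l hl ((mk_mem_normalizer hZ).1 e), rfl⟩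
    · rintro _ k ⟨x, hx, rfl⟩ e
      induction k using QuotientGroup.induction_on with | H k =>
      exact ⟨_, h.T_conj hx ((mk_mem_map hZ (g := k * x * k⁻¹)).1 e), rfl⟩
    · rw [h.mul x hx.mem y hy.mem, hq.qd, hu, hw, e]; decide
  exact ⟨hn, fun l hl => hN l hl (by rw [Subgroup.normalizer_eq_top]; trivial)⟩

end PD

end Cfsg.Agent.Class.C6P
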