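import Mathlib
import Cfsg.Agent.Class.C6P.Norm

/-!
From the action of involution centralisers on eigenspaces to normality.
-/

set_option autoImplicit false

namespace Cfsg.Agent.Class.C6P

open Module

variable {F A G E : Type*} [Field F] [Ring A] [Algebra F A] [Group G] [AddCommGroup E] [Module F2 E]
  {ρ : G →* A} {P : Subgroup G} {π : G → E} {B : E →ₗ[F2] E →ₗ[F2] F2}

variable (ρ P π) in
/-- The centraliser of `y` normalises the centraliser in `P` on the fixed space of `y`. -/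
def NE (y : G) : Prop := ∀ g, g * y = y * g → ∀ r, T ρ P π r → r * y = y * r →
  ∃ r' ∈ P, r' * y = y * r' ∧ ρ (g * r * g⁻¹) * (1 + ρ y) = ρ r' * (1 + ρ y)

variable (ρ P π) in
/-- `z` acts as `u'` on the fixed space of `y` and as `u` on the other eigenspace. -/
structure Sp2 (y z u u' : G) : Prop where
  tu : T ρ P π u
  cu : u * y = y * u
  nu : π u ≠ π y
  tu' : T ρ P π u'
  cu' : u' * y = y * u'
  nu' : π u' ≠ π y
  cz : z * y = y * z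
  pl : ρ z * (1 + ρ y) = ρ u' * (1 + ρ y)
  mi : ρ z * (1 - ρ y) = ρ u * (1 - ρ y)

theorem ρ_comm {a b : G} (e : a * b = b * a) : ρ a * ρ b = ρ b * ρ a := by
  rw [← map_mul, e, map_mul]

theorem comm_add {a y : A} (e : a * y = y * a) : a * (1 + y) = (1 + y) * a := by
  rw [mul_add, add_mul, e, mul_one, one_mul]

theorem comm_sub {a y : A} (e : a * y = y * a) : a * (1 - y) = (1 - y) * a := by
  rw [mul_sub, sub_mul, e, mul_one, one_mul]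

theorem inv_comm {a b : G} (e : a * b = b * a) : a⁻¹ * b = b * a⁻¹ :=
  (show Commute a b from e).inv_left

theorem conj_comm {g r y : G} (hg : g * y = y * g) (hr : r * y = y * r) :
    g * r * g⁻¹ * y = y * (g * r * g⁻¹) :=
  (((show Commute g y from hg).mul_left hr).mul_left (show Commute g y from hg).inv_left).eq

theorem eq_of_pm (h2 : (2 : F) ≠ 0) {a b y : A} (e1 : a * (1 + y) = b * (1 + y))
    (e2 : a * (1 - y) = b * (1 - y)) : a = b := by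
  refine smul_right_injective A h2 ?_
  have : ∀ a : A, (2 : F) • a = a * (1 + y) + a * (1 - y) := fun a => by
    rw [← mul_add, add_add_sub_cancel, mul_add, mul_one, two_smul]
  simp only [this, e1, e2]

/-- Conjugating an identity on an eigenspace. -/
theorem conj_eig {g a : G} {p b : A} (hg : ρ g * p = p * ρ g) (e : ρ a * p = b * p) :
    ρ (g * a * g⁻¹) * p = ρ g * b * ρ g⁻¹ * p := by
  have : ρ g⁻¹ * p = p * ρ g⁻¹ := by
    rw [← ρ_mul_inv' (ρ := ρ) g⁻¹ (p * ρ g⁻¹), inv_inv, ← mul_assoc (ρ g), hg, mul_assoc, ρ_mul_inv,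
      mul_one]
  rw [map_mul, map_mul, mul_assoc, this, mul_assoc, ← mul_assoc (ρ a), e, mul_assoc, mul_assoc,
    mul_assoc, this]

namespace PD

variable (h : PD F ρ P π B)
include h

theorem comm_smul {a b : G} {c : F} (e : ρ a = c • ρ b) {g : G} : g * a = a * g ↔ g * b = b * g := by
  rw [← h.inj.eq_iff, ← h.inj.eq_iff (a := g * b), map_mul, map_mul, map_mul, map_mul, e,
    mul_smul_comm, smul_mul_assoc, (smul_right_injective A (h.tt_ne e)).eq_iff]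

theorem comm_π {a b : G} (ha : a ∈ P) (hb : b ∈ P) (e : π a = π b) {g : G} :
    g * a = a * g ↔ g * b = b * g :=
  let ⟨_, hc⟩ := h.smul_of_π ha hb e; h.comm_smul hc

theorem exists_neg' {y : G} (hy : y ∈ P) (y0 : π y ≠ 0) : ∃ y' ∈ P, ρ y' = -ρ y ∧ π y' = π y := by
  obtain ⟨n, hn, e⟩ := h.exists_neg y0
  have : ρ (n * y) = (-1 : F) • ρ y := by rw [map_mul, e, neg_one_mul, neg_one_smul]
  exact ⟨n * y, P.mul_mem hn hy, by rw [this, neg_one_smul], h.π_of_smul hy this⟩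

theorem neg_Iv {y : G} (hy : Iv ρ P π y) : ∃ y', Iv ρ P π y' ∧ ρ y' = -ρ y ∧ π y' = π y := by
  obtain ⟨y', h1, h2, h3⟩ := h.exists_neg' hy.mem hy.ne
  exact ⟨y', ⟨h1, by rw [h2, neg_mul_neg, hy.sq], h3 ▸ hy.ne⟩, h2, h3⟩

theorem neg_T {y : G} (hy : T ρ P π y) : ∃ y', T ρ P π y' ∧ ρ y' = -ρ y ∧ π y' = π y := by
  obtain ⟨y', h1, h2, h3⟩ := h.exists_neg' hy.mem hy.ne
  exact ⟨y', ⟨h1, by rw [h2, neg_mul_neg, hy.sq], h3 ▸ hy.ne⟩, h2, h3⟩

theorem T_mul_Iv {u y : G} (hu : T ρ P π u) (hy : Iv ρ P π y) (e : u * y = y * u) (e' : π u ≠ π y) :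
    T ρ P π (u * y) :=
  ⟨P.mul_mem hu.mem hy.mem, by
    rw [map_mul, mul_assoc, ← mul_assoc (ρ y), ← ρ_comm e, mul_assoc, hy.sq, mul_one, hu.sq], by
    rw [h.mul u hu.mem y hy.mem, Ne, add_eq_zero]; exact e'⟩

theorem one_add_ne {y : G} (hy : y ∈ P) (y0 : π y ≠ 0) : 1 + ρ y ≠ 0 := fun e =>
  y0 ((h.ker y hy).2 ⟨-1, by rw [neg_one_smul, eq_neg_iff_add_eq_zero, add_comm, e]⟩)

variable [Finite E]

theorem pi_ne {y y' : G} (hy : y ∈ P) (y0 : π y ≠ 0) (hy' : y' ∈ P) (y0' : π y' ≠ 0)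
    (hne : π y' ≠ π y) : (1 + ρ y) * (1 + ρ y') ≠ 0 := fun e => by
  obtain ⟨w, w1, w2⟩ := h.sy.ex01 y0' hne
  obtain ⟨w, hw, rfl⟩ := h.surj w
  have e1 : ρ w * ((1 + ρ y) * (1 + ρ y')) = (1 + ρ y) * (1 - ρ y') * ρ w := by
    rw [← mul_assoc, comm_add (h.comm0 y hy w hw w1).symm, mul_assoc, mul_assoc, mul_add, sub_mul,
      h.comm1 y' hy' w hw w2, mul_one, one_mul, sub_neg_eq_add]
  rw [e, mul_zero, ← zero_mul (ρ w)] at e1
  exact h.one_add_ne hy y0 (eq_of_pm h.two (by rw [e, zero_mul])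
    (by rw [← ρ_right_cancel w e1, zero_mul]))

theorem sc_plus {r y : G} (hr : r ∈ P) (hy : y ∈ P) (y0 : π y ≠ 0) {c : F}
    (e : ρ r * (1 + ρ y) = c • (1 + ρ y)) : π r = 0 ∨ π r = π y := by
  by_contra hc
  push Not at hc
  obtain ⟨w, w1, w2⟩ := h.sy.ex01 hc.1 hc.2
  obtain ⟨w, hw, rfl⟩ := h.surj w
  have e1 : ρ r * (1 + ρ y) * ρ w = -(ρ r * (1 + ρ y) * ρ w) := by
    nth_rw 2 [e]
    rw [mul_assoc, ← comm_add (h.comm0 y hy w hw w1).symm, ← mul_assoc, h.comm1 r hr w hw w2, neg_mul,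
      mul_assoc, e, mul_smul_comm, smul_mul_assoc, comm_add (h.comm0 y hy w hw w1).symm]
  have e2 := eq_zero_of_eq_neg h.two e1
  rw [← zero_mul (ρ w)] at e2
  exact h.one_add_ne hy y0 (ρ_left_cancel (ρ := ρ) r (by rw [ρ_right_cancel w e2, mul_zero]))

theorem π_plus {r s y : G} (hr : r ∈ P) (hs : s ∈ P) (hy : y ∈ P) (y0 : π y ≠ 0) {c : F}
    (e : ρ r * (1 + ρ y) = c • (ρ s * (1 + ρ y))) : π r = π s ∨ π r = π s + π y := by
  have := h.sc_plus (P.mul_mem (P.inv_mem hs) hr) hy y0 (c := c) (by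
    rw [map_mul, mul_assoc, e, mul_smul_comm, ρ_inv_mul'])
  rwa [h.mul _ (P.inv_mem hs) _ hr, h.π_inv hs, add_comm, add_eq_zero, add_eq_iff, add_comm] at this

omit [Finite E] in
theorem plus_of_π {r s y : G} (hr : r ∈ P) (hs : s ∈ P) (hy : Iv ρ P π y)
    (e : π r = π s ∨ π r = π s + π y) : ∃ c : F, ρ r * (1 + ρ y) = c • (ρ s * (1 + ρ y)) := by
  rcases e with e | e
  · obtain ⟨c, hc⟩ := h.smul_of_π hr hs e
    exact ⟨c, by rw [hc, smul_mul_assoc]⟩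
  · obtain ⟨c, hc⟩ := h.smul_of_π hr (P.mul_mem hs hy.mem) (by rw [e, h.mul s hs y hy.mem])
    exact ⟨c, by rw [hc, smul_mul_assoc, map_mul, mul_assoc, mul_add, hy.sq, mul_one, add_comm]⟩

omit [Finite E] in
theorem sign_plus {y : G} (hy : Iv ρ P π y) {a b : A} {c : F} (ha : a * ρ y = ρ y * a)
    (hb : b * ρ y = ρ y * b) (e : a * (1 + ρ y) = c • (b * (1 + ρ y))) (h1 : a * a = -1)
    {d : F} (h2 : b * b = d • 1) : c * c * d = -1 := by
  refine smul_left_injective F (h.one_add_ne hy.mem hy.ne) ?_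
  have : a * a * (1 + ρ y) = (c * c * d) • (1 + ρ y) := by
    rw [mul_assoc, e, mul_smul_comm, comm_add hb, ← mul_assoc, e, smul_mul_assoc, mul_assoc,
      ← comm_add hb, ← mul_assoc, h2, smul_mul_assoc, one_mul, smul_smul, smul_smul]
  simp only [← this, h1, neg_mul, one_mul, neg_smul, one_smul]

theorem not_sc_plus {y g r s : G} (hy : Iv ρ P π y) (hg : g * y = y * g) (hr : T ρ P π r)
    (hn : π r ≠ π y) (hs : s ∈ P) {c : F} (e : ρ (g * r * g⁻¹) * (1 + ρ y) = c • (ρ s * (1 + ρ y))) :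
    π s ≠ 0 ∧ π s ≠ π y := by
  rw [← not_or]
  intro hc
  obtain ⟨d, hd⟩ := h.plus_of_π hs P.one_mem hy (by simpa [h.π_one] using hc)
  rw [hd, map_one, one_mul, smul_smul, ← one_mul (1 + ρ y), ← smul_mul_assoc, one_mul] at e
  have := conj_eig (comm_add (ρ_comm (inv_comm hg))) e
  rw [mul_smul_comm, smul_mul_assoc, mul_one, ρ_mul_inv, smul_mul_assoc, one_mul,
    show g⁻¹ * (g * r * g⁻¹) * g⁻¹⁻¹ = r by group] at this
  exact (h.sc_plus hr.mem hy.mem hy.ne this).elim hr.ne hn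

theorem NE_T {y g r : G} (hy : Iv ρ P π y) (hN : NE ρ P π y) (hg : g * y = y * g) (hr : T ρ P π r)
    (e : r * y = y * r) (hn : π r ≠ π y) : ∃ u, T ρ P π u ∧ u * y = y * u ∧ π u ≠ π y ∧
      ρ (g * r * g⁻¹) * (1 + ρ y) = ρ u * (1 + ρ y) := by
  obtain ⟨u, h1, h2, h3⟩ := hN g hg r hr e
  have h4 := h.not_sc_plus hy hg hr hn h1 (c := 1) (by rw [h3, one_smul])
  obtain ⟨d, hd⟩ := h.sq_sc h1
  rw [map_mul] at hd
  have := h.sign_plus hy (ρ_comm (conj_comm hg e)) (ρ_comm h2) (c := 1) (by rw [h3, one_smul])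
    (by rw [h.conj_sq (h.sq_sc hr.mem), hr.sq]) hd
  exact ⟨u, ⟨h1, by rw [hd, show d = -1 by simpa using this, neg_one_smul], h4.1⟩, h2, h4.2, h3⟩

theorem NE_of_smul (hl : ∀ u, u ≠ 0 → ∃ x, T ρ P π x ∧ π x = u) {y : G} (hy : Iv ρ P π y)
    (hN : ∀ g, g * y = y * g → ∀ r ∈ P, r * y = y * r → ∃ s ∈ P, s * y = y * s ∧
      ∃ c : F, ρ (g * r * g⁻¹) * (1 + ρ y) = c • (ρ s * (1 + ρ y))) : NE ρ P π y := by
  intro g hg r hr e
  by_cases hn : π r = π y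
  · refine ⟨r, hr.mem, e, ?_⟩
    rw [(h.comm_π hr.mem hy.mem hn).2 hg, mul_inv_cancel_right]
  obtain ⟨s, h1, h2, c, h3⟩ := hN g hg r hr.mem e
  obtain ⟨x, hx, e1⟩ := hl _ (h.not_sc_plus hy hg hr hn h1 h3).1
  obtain ⟨d, hd⟩ := h.smul_of_π h1 hx.mem e1.symm
  have h4 : x * y = y * x := ((h.comm_smul hd).1 h2.symm).symm
  rw [hd, smul_mul_assoc, smul_smul] at h3
  have := h.sign_plus hy (ρ_comm (conj_comm hg e)) (ρ_comm h4) h3
    (by rw [h.conj_sq (h.sq_sc hr.mem), hr.sq]) (d := -1) (by rw [hx.sq, neg_one_smul])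
  rcases mul_self_eq_one_iff.1 (show c * d * (c * d) = 1 by simpa using this) with e2 | e2 <;>
    rw [e2] at h3
  · exact ⟨x, hx.mem, h4, by rw [h3, one_smul]⟩
  · obtain ⟨x', h5, h6, h7⟩ := h.neg_T hx
    exact ⟨x', h5.mem, ((h.comm_π h5.mem hx.mem h7).2 h4.symm).symm, by
      rw [h3, h6, neg_one_smul, neg_mul]⟩

theorem exists_sp2 {y g r : G} (hN : ∀ y, Iv ρ P π y → NE ρ P π y) (hy : Iv ρ P π y)
    (hg : g * y = y * g) (hr : T ρ P π r) (e : r * y = y * r) (hn : π r ≠ π y) :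
    ∃ u u', Sp2 ρ P π y (g * r * g⁻¹) u u' := by
  obtain ⟨y', h1, h2, h3⟩ := h.neg_Iv hy
  have k : ∀ {g}, g * y' = y' * g ↔ g * y = y * g := h.comm_π h1.mem hy.mem h3
  obtain ⟨u', a1, a2, a3, a4⟩ := h.NE_T hy (hN y hy) hg hr e hn
  obtain ⟨u, b1, b2, b3, b4⟩ := h.NE_T h1 (hN y' h1) (k.2 hg) hr (k.2 e) (h3 ▸ hn)
  rw [h2, ← sub_eq_add_neg] at b4
  exact ⟨u, u', b1, k.1 b2, h3 ▸ b3, a1, a2, a3, conj_comm hg e, a4, b4⟩

omit [Finite E] in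
theorem mem_of_sp2 {y z u u' : G} (hy : Iv ρ P π y) (s : Sp2 ρ P π y z u u')
    (e : π u' = π u ∨ π u' = π u + π y) : z ∈ P := by
  obtain ⟨c, hc⟩ := h.plus_of_π s.tu'.mem s.tu.mem hy e
  have := h.sign_plus hy (ρ_comm s.cu') (ρ_comm s.cu) hc s.tu'.sq (d := -1)
    (by rw [s.tu.sq, neg_one_smul])
  rw [← s.pl] at hc
  rcases mul_self_eq_one_iff.1 (show c * c = 1 by simpa using this) with rfl | rfl
  · rw [h.inj (eq_of_pm h.two (by rw [hc, one_smul]) s.mi)]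
    exact s.tu.mem
  · refine h.mem_of_smul (P.mul_mem s.tu.mem hy.mem) (c := -1) (eq_of_pm (y := ρ y) h.two ?_ ?_)
    · rw [hc, map_mul, smul_mul_assoc, mul_assoc, mul_add (ρ y), hy.sq, mul_one, add_comm (ρ y)]
    · rw [s.mi, map_mul, smul_mul_assoc, mul_assoc, mul_sub (ρ y), hy.sq, mul_one, neg_one_smul,
        ← mul_neg, neg_sub]

section LU

variable {i : F} {j : G} (hi : i * i = -1) (hj : ρ j = i • 1)
include hi hj

omit [Finite E] in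
theorem j_mul {y : G} (hy : y ∈ P) : ρ (j * y) = i • ρ y ∧ j * y ∈ P ∧ π (j * y) = π y ∧
    ρ (j * y) * ρ (j * y) = -(ρ y * ρ y) := by
  have e : ρ (j * y) = i • ρ y := by rw [map_mul, hj, smul_mul_assoc, one_mul]
  exact ⟨e, h.mem_of_smul hy e, h.π_of_smul hy e, by rw [e, smul_mul_smul_comm, hi, neg_one_smul]⟩

omit [Finite E] in
theorem j_Iv {y : G} (hy : Iv ρ P π y) : T ρ P π (j * y) :=
  let ⟨_, a, b, c⟩ := h.j_mul hi hj hy.mem; ⟨a, by rw [c, hy.sq], b ▸ hy.ne⟩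

omit [Finite E] in
theorem j_T {y : G} (hy : T ρ P π y) : Iv ρ P π (j * y) :=
  let ⟨_, a, b, c⟩ := h.j_mul hi hj hy.mem; ⟨a, by rw [c, hy.sq, neg_neg], b ▸ hy.ne⟩

omit [Finite E] in
theorem exists_ctl (hT : TT F ρ P π) {y g r u u' : G} (hy : Iv ρ P π y) (hg : g * y = y * g)
    (hr : T ρ P π r) (s : Sp2 ρ P π y (g * r * g⁻¹) u u') : ∃ (D : G) (μ : F),
      ρ D * (1 + ρ y) = μ • ((1 + ρ u') * (1 - ρ u) * (1 + ρ y)) ∧
      ρ D * (1 - ρ y) = (2 * μ) • (1 - ρ y) := by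
  have t := h.j_Iv hi hj hy
  obtain ⟨k, hk⟩ := hT r _ hr t
  obtain ⟨k', c', hk'⟩ := hT u _ s.tu t
  obtain ⟨c, hc⟩ := hk.conj g
  rw [(h.comm_smul (h.j_mul hi hj hy.mem).1).2 hg, mul_inv_cancel_right] at hc
  have e : ρ (g * k * g⁻¹ * k'⁻¹) = (c * (4 * c')⁻¹ * 2) • ((1 + ρ (g * r * g⁻¹)) * (1 - ρ u)) := by
    rw [map_mul, hc, h.tt_inv hk' s.tu.sq t.sq, smul_mul_smul_comm, mul_assoc (1 + _),
      ← mul_assoc (1 + ρ (j * y)), one_add_mul_one_sub (F := F) t.sq, smul_mul_assoc, one_mul,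
      mul_smul_comm, smul_smul]
  have e1 : ρ y * ρ u = ρ u * ρ y := (ρ_comm s.cu).symm
  have e2 : (1 - ρ u) * (1 + ρ y) = (1 + ρ y) * (1 - ρ u) := comm_add (comm_sub e1).symm
  have e3 : (1 - ρ u) * (1 - ρ y) = (1 - ρ y) * (1 - ρ u) := comm_sub (comm_sub e1).symm
  refine ⟨g * k * g⁻¹ * k'⁻¹, c * (4 * c')⁻¹ * 2, ?_, ?_⟩
  · rw [e, smul_mul_assoc, mul_assoc (1 + _), mul_assoc (1 + _), e2, ← mul_assoc (1 + _),
      ← mul_assoc (1 + _), add_mul 1 (ρ (g * r * g⁻¹)), s.pl, ← add_mul]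
  · rw [e, smul_mul_assoc, mul_assoc (1 + _), e3, ← mul_assoc (1 + _), add_mul 1 (ρ (g * r * g⁻¹)), s.mi,
      ← add_mul, mul_assoc (1 + _), ← e3, ← mul_assoc (1 + _), one_add_mul_one_sub (F := F) s.tu.sq,
      smul_mul_assoc, one_mul, smul_smul, mul_comm 2]

omit hi hj in
theorem ctl_sq (hl : ∀ u, u ≠ 0 → ∃ x, T ρ P π x ∧ π x = u) {y y' D : G} (hy : Iv ρ P π y)
    (hy' : Iv ρ P π y') (hN : NE ρ P π y') (hne : π y ≠ π y') (hD : D * y' = y' * D) {δ : A} {μ : F}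
    (hδ : δ * ρ y = ρ y * δ) (hc : y * y' = y' * y) (e1 : ρ D * (1 + ρ y) = μ • (δ * (1 + ρ y)))
    (e2 : ρ D * (1 - ρ y) = (2 * μ) • (1 - ρ y)) {w : G} (hw : w * y = y * w) (hw' : w * y' = y' * w) :
    (ρ w * (δ * δ) - δ * δ * ρ w) * ((1 + ρ y) * (1 + ρ y')) = 0 := by
  obtain ⟨v, v1, v2⟩ := h.sy.ex01 hy.ne hne
  obtain ⟨X, hX, rfl⟩ := hl v (by rintro rfl; simp at v2)
  have x1 : X * y' = y' * X := ((h.comm_iff hy'.mem hX.mem).2 v1).symm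
  obtain ⟨r, r1, r2, r3⟩ := hN D hD X hX x1
  have a1 : ρ X * (1 - ρ y) = (1 + ρ y) * ρ X := by
    rw [mul_sub, add_mul, h.comm1 y hy.mem X hX.mem v2, mul_one, one_mul, sub_eq_add_neg]
  have a2 : ρ X⁻¹ * (1 + ρ y) = (1 - ρ y) * ρ X⁻¹ := by
    refine ρ_left_cancel (ρ := ρ) X ?_
    rw [ρ_mul_inv', ← mul_assoc, a1, mul_assoc, ρ_mul_inv, mul_one]
  have a3 : (1 - ρ y) = (2 * μ) • (ρ D⁻¹ * (1 - ρ y)) := by
    rw [← mul_smul_comm, ← e2, ρ_inv_mul']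
  have y0 : 1 - ρ y ≠ 0 := by
    obtain ⟨z, z1, z2, -⟩ := h.neg_Iv hy
    simpa [z2, sub_eq_add_neg] using h.one_add_ne z1.mem z1.ne
  have m0 : μ ≠ 0 := fun e => y0 (by rw [a3, e, mul_zero, zero_smul])
  have a4 : (2 : F) • (ρ (D * X * D⁻¹ * X⁻¹) * (1 + ρ y)) = δ * (1 + ρ y) := by
    refine smul_right_injective A m0 ?_
    simp only [map_mul, mul_assoc, a2, ← e1]
    rw [smul_smul, mul_comm μ, ← mul_smul_comm, ← mul_smul_comm, ← mul_assoc (ρ D⁻¹), ← smul_mul_assoc,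
      ← a3, ← mul_assoc (ρ X), a1, mul_assoc, ρ_mul_inv, mul_one]
  set W := ρ (D * X * D⁻¹ * X⁻¹) with hW
  have a5 : W * (1 + ρ y') = ρ (r * X⁻¹) * (1 + ρ y') := by
    rw [hW, map_mul, map_mul ρ r, mul_assoc, mul_assoc (ρ r), comm_add (ρ_comm (inv_comm x1)),
      ← mul_assoc, r3, mul_assoc]
  have m : r * X⁻¹ ∈ P := P.mul_mem r1 (P.inv_mem hX.mem)
  obtain ⟨d, hd⟩ := h.sq_sc m
  have a6 : W * W * (1 + ρ y') = d • (1 + ρ y') := by
    have : ρ (r * X⁻¹) * ρ y' = ρ y' * ρ (r * X⁻¹) :=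
      ρ_comm ((show Commute r y' from r2).mul_left (inv_comm x1))
    rw [mul_assoc, a5, comm_add this, ← mul_assoc, a5, mul_assoc, ← comm_add this, ← mul_assoc,
      ← map_mul, hd, smul_mul_assoc, one_mul]
  have a7 : δ * δ * ((1 + ρ y) * (1 + ρ y')) = (4 * d) • ((1 + ρ y) * (1 + ρ y')) := by
    have b1 : (1 + ρ y) * (1 + ρ y') = (1 + ρ y') * (1 + ρ y) :=
      comm_add (comm_add (ρ_comm hc).symm).symm
    have b2 : δ * δ * (1 + ρ y) = (4 : F) • (W * W * (1 + ρ y)) := by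
      rw [mul_assoc, comm_add hδ, ← mul_assoc, ← a4, smul_mul_assoc, mul_assoc W, ← comm_add hδ, ← a4,
        mul_smul_comm, smul_smul, mul_assoc]
      norm_num
    rw [← mul_assoc, b2, smul_mul_assoc, mul_assoc (W * W), b1, ← mul_assoc, a6, smul_mul_assoc,
      smul_smul]
  have b3 : ρ w * ((1 + ρ y) * (1 + ρ y')) = (1 + ρ y) * (1 + ρ y') * ρ w := by
    rw [← mul_assoc, comm_add (ρ_comm hw), mul_assoc, comm_add (ρ_comm hw'), mul_assoc]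
  rw [sub_mul, mul_assoc, a7, mul_assoc, b3, ← mul_assoc, a7, mul_smul_comm, b3, smul_mul_assoc,
    sub_self]

variable (hT : TT F ρ P π) (hl : ∀ u, u ≠ 0 → ∃ x, T ρ P π x ∧ π x = u)
  (hN : ∀ y, Iv ρ P π y → NE ρ P π y)
  (hJ : finrank F2 E ≤ 4 → ∀ y g r u u', Iv ρ P π y → g * y = y * g → T ρ P π r → r * y = y * r →
    Sp2 ρ P π y (g * r * g⁻¹) u u' → B (π u) (π u') = 1 → False)
include hT hl hN hJ

theorem kn_lu {y : G} (hy : Iv ρ P π y) : KN P y := by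
  intro g hg r hr e
  by_cases r0 : π r = 0
  · exact h.sc _ (((h.ker r hr).1 r0).conj g)
  obtain ⟨x, hx, e1⟩ := hl _ r0
  obtain ⟨c, hc⟩ := h.smul_of_π hr hx.mem e1.symm
  have e2 : x * y = y * x := ((h.comm_smul hc).1 e.symm).symm
  suffices g * x * g⁻¹ ∈ P from h.mem_of_smul this (c := c) (by simp [hc])
  by_cases hn : π x = π y
  · rw [(h.comm_π hx.mem hy.mem hn).2 hg, mul_inv_cancel_right]
    exact hx.mem
  obtain ⟨u, u', s⟩ := h.exists_sp2 hN hy hg hx e2 hn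
  refine h.mem_of_sp2 hy s (by_contra fun hc => ?_)
  push Not at hc
  obtain ⟨D, μ, d1, d2⟩ := h.exists_ctl hi hj hT hy hg hx s
  have c1 := ρ_comm (ρ := ρ) s.cu
  have c2 := ρ_comm (ρ := ρ) s.cu'
  have key : ∀ y', Iv ρ P π y' → π y ≠ π y' → y' * y = y * y' → y' * u = u * y' → y' * u' = u' * y' →
      ∀ w, w * y = y * w → w * y' = y' * w → ∀ (a : A) (k : G),
      a * (ρ w * ((1 + ρ u') * (1 - ρ u) * ((1 + ρ u') * (1 - ρ u))) -
        (1 + ρ u') * (1 - ρ u) * ((1 + ρ u') * (1 - ρ u)) * ρ w) = (8 : F) • ρ k → False :=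
    fun y' hy' hne f1 f2 f3 w w1 w2 a k ha => by
      have g1 := comm_add (ρ_comm (ρ := ρ) f1)
      have g2 := comm_sub (ρ_comm (ρ := ρ) f1)
      have hD : D * y' = y' * D := h.inj (by
        rw [map_mul, map_mul]
        refine eq_of_pm (y := ρ y) h.two ?_ ?_
        · rw [mul_assoc, g1, ← mul_assoc, d1, mul_assoc (ρ y'), d1, mul_smul_comm, smul_mul_assoc,
            mul_assoc, ← g1, ← mul_assoc, mul_assoc (1 + ρ u'), ← comm_sub (ρ_comm f2), ← mul_assoc,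
            ← comm_add (ρ_comm f3)]
          simp only [mul_assoc]
        · rw [mul_assoc, g2, ← mul_assoc, d2, mul_assoc (ρ y'), d2, mul_smul_comm, smul_mul_assoc, g2])
      have := congrArg (a * ·) (h.ctl_sq hl hy hy' (hN y' hy') hne hD (by
        rw [mul_assoc, ← comm_sub c1.symm, ← mul_assoc, ← comm_add c2.symm, mul_assoc]) f1.symm d1 d2
          w1 w2)
      simp only [← mul_assoc a, ha, mul_zero, smul_mul_assoc, smul_eq_zero] at this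
      refine h.pi_ne hy.mem hy.ne hy'.mem hy'.ne hne.symm (ρ_left_cancel (ρ := ρ) k ?_)
      rw [mul_zero, this.resolve_left (by
        rw [show (8 : F) = 2 ^ 3 by norm_num]; exact pow_ne_zero 3 h.two)]
  have q1 := s.tu.sq
  have q2 := s.tu'.sq
  have p1 : ∀ z, ρ u * (ρ u * z) = -z := fun z => by rw [← mul_assoc, q1, neg_one_mul]
  have p2 : ∀ z, ρ u' * (ρ u' * z) = -z := fun z => by rw [← mul_assoc, q2, neg_one_mul]
  rcases f2_cases (B (π u) (π u')) with b | b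
  · obtain ⟨j1, j2, j3, -⟩ := h.j_mul hi hj s.tu.mem
    obtain ⟨w, w1, w2, w3⟩ := h.sy.ex001 s.tu'.ne s.nu' hc.1 (by rw [add_comm]; exact hc.2)
    obtain ⟨w, hw, rfl⟩ := h.surj w
    have b1 := h.comm0 u s.tu.mem u' s.tu'.mem b
    have b2 := (h.comm0 u s.tu.mem w hw w2).symm
    have b3 := h.comm1 w hw u' s.tu'.mem (h.sy.symm _ _ ▸ w3)
    have p3 : ∀ z, ρ u * (ρ u' * z) = ρ u' * (ρ u * z) := fun z => by rw [← mul_assoc, b1, mul_assoc]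
    have p4 : ∀ z, ρ w * (ρ u * z) = ρ u * (ρ w * z) := fun z => by rw [← mul_assoc, b2, mul_assoc]
    have p5 : ∀ z, ρ w * (ρ u' * z) = -(ρ u' * (ρ w * z)) := fun z => by
      rw [← mul_assoc, b3, neg_mul, mul_assoc]
    refine key _ (h.j_T hi hj s.tu) (j3 ▸ s.nu.symm) ((h.comm_smul j1).2 s.cu.symm).symm
      ((h.comm_smul j1).2 rfl).symm ((h.comm_smul j1).2 (h.inj (by simp [b1]))).symm w
      ((h.comm_iff hy.mem hw).2 w1).symm ((h.comm_smul j1).2 (h.inj (by simp [b2]))) 1 (u' * u * w) ?_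
    simp only [map_mul, mul_add, add_mul, mul_sub, sub_mul, mul_neg, neg_mul, one_mul, mul_one,
      mul_assoc, p1, p2, p3, p4, p5, q1, q2, b1, b2, b3, neg_neg]
    module
  · refine (le_or_gt (finrank F2 E) 4).elim (fun h4 => hJ h4 y g x u u' hy hg hx e2 s b) fun h4 => ?_
    obtain ⟨v, v0, v1, v2⟩ := h.sy.ex_perp_one [π y, π u, π u'] (π y) (by simpa using h4)
    obtain ⟨t, ht, rfl⟩ := hl v v0
    obtain ⟨j1, j2, j3, -⟩ := h.j_mul hi hj ht.mem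
    have k : ∀ a ∈ P, π a ∈ [π y, π u, π u'] → a * (j * t) = j * t * a := fun a ha e =>
      (h.comm_smul j1).2 ((h.comm_iff ha ht.mem).2 (v2 _ e))
    have b1 := h.comm1 u s.tu.mem u' s.tu'.mem b
    have p3 : ∀ z, ρ u * (ρ u' * z) = -(ρ u' * (ρ u * z)) := fun z => by
      rw [← mul_assoc, b1, neg_mul, mul_assoc]
    refine key _ (h.j_T hi hj ht) (j3 ▸ v1.symm) (k y hy.mem (by simp)).symm
      (k u s.tu.mem (by simp)).symm (k u' s.tu'.mem (by simp)).symm u s.cu (k u s.tu.mem (by simp))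
      (-(1 + ρ u)) u' ?_
    simp only [mul_add, add_mul, mul_sub, sub_mul, mul_neg, neg_mul, one_mul, mul_one,
      mul_assoc, p1, p2, p3, q1, q2, b1, neg_neg]
    module

theorem normal_lu [Finite G] (h3 : 3 ≤ finrank F2 E) : P.Normal := by
  have htt := fun u w (hu : u ≠ 0) (hw : w ≠ 0) => h.re_tt hT u w (hl u hu) (hl w hw)
  have kn : ∀ x ∈ P, π x ≠ 0 → KN P x := fun x hx x0 g hg r hr e => by
    obtain ⟨t, ht, e1⟩ := hl _ x0
    have e2 := (h.j_mul hi hj ht.mem).2.2.1.trans e1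
    have t2 := h.j_T hi hj ht
    exact h.kn_lu hi hj hT hl hN hJ t2 g ((h.comm_π t2.mem hx e2).2 hg) r hr
      ((h.comm_π t2.mem hx e2).2 e)
  refine h.normal h3 hT (fun W hW => ?_) (fun x hx x0 g hg => ?_) fun a _ b _ a0 b0 _ =>
    h.sy.lu_trans re_mul htt (fun _ => id) a0 b0
  · obtain ⟨v, -, hv⟩ := SetLike.exists_of_lt (lt_top_iff_ne_top.2 hW)
    obtain ⟨x, hx, rfl⟩ := hl v fun e => hv (e ▸ W.zero_mem)
    exact ⟨x, hx, hv⟩
  · obtain ⟨v, v0, v1, v2⟩ := h.sy.ex_perp_one [π x] (π x) h3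
    obtain ⟨u, hu, rfl⟩ := h.surj v
    have e := (h.comm_iff hx hu).2 (v2 _ (by simp))
    have m := kn x hx x0 g hg u hu e.symm
    obtain ⟨σ, s1, s2, s3⟩ := h.sy.lu_trans₂ re_mul htt (fun _ => id) x0 (h.ne_conj hu v0 m) v0
      (fun e' => v1 (by
        obtain ⟨c, hc⟩ := h.smul_of_π m hx e'
        refine h.π_of_smul hx (c := c) (ρ_left_cancel (ρ := ρ) g (ρ_right_cancel (ρ := ρ) g⁻¹ ?_))
        rw [← map_mul, ← map_mul, hc, mul_smul_comm, smul_mul_assoc, ρ_comm hg, mul_assoc, ρ_mul_inv,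
          mul_one])) v1 ((h.comm_iff hx m).1 (conj_comm hg e.symm).symm) (v2 _ (by simp))
    exact h.cen_of_kn hx x0 hu v0 v1.symm (kn x hx x0) (kn u hu v0) hg m s1 s2 s3

end LU

theorem loc_act {y D r : G} (hy : Iv ρ P π y) {c : F} (e : ρ D * (1 - ρ y) = c • (1 - ρ y))
    (hD : D ∈ Subgroup.normalizer (P : Set G)) (hr : r ∈ P) (hc : r * y = y * r) :
    ∃ d : F, ρ (D * r * D⁻¹) * (1 + ρ y) = d • (ρ r * (1 + ρ y)) := by
  obtain ⟨y', h1, h2, h3⟩ := h.neg_Iv hy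
  refine h.plus_of_π (conj_mem hD hr) hr hy (h3 ▸ h.π_plus (conj_mem hD hr) hr h1.mem h1.ne (c := 1) ?_)
  have e1 : 1 - ρ y = c • (ρ D⁻¹ * (1 - ρ y)) := by rw [← mul_smul_comm, ← e, ρ_inv_mul']
  have c0 : c ≠ 0 := fun e0 => h.one_add_ne h1.mem h1.ne (by
    rw [h2, ← sub_eq_add_neg, e1, e0, zero_smul])
  refine smul_right_injective A c0 ?_
  simp only [h2, ← sub_eq_add_neg, map_mul, mul_assoc, one_smul]
  rw [← mul_smul_comm, ← mul_smul_comm, ← e1, comm_sub (ρ_comm hc), ← mul_assoc, e, smul_mul_assoc]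

omit [Finite E] in
theorem comm_of_ctl {y D w : G} {c : F} (e : ρ D * (1 - ρ y) = c • (1 - ρ y)) (hc : w * y = y * w)
    (e' : ρ (D * w) * (1 + ρ y) = ρ (w * D) * (1 + ρ y)) : D * w = w * D :=
  h.inj (eq_of_pm h.two e' (by
    rw [map_mul, map_mul, mul_assoc, mul_assoc, e, comm_sub (ρ_comm hc), ← mul_assoc, e, smul_mul_assoc,
      mul_smul_comm, comm_sub (ρ_comm hc)]))

section SO

variable [Finite G] {q : E → F2} (hq : IsQ ρ P π B q) (hT : TT F ρ P π)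
  (H : ∀ a b c, Ns B q [a, b, c])
include hq hT H

theorem cen_T (hK : ∀ x, T ρ P π x → KN P x) {x : G} (hx : T ρ P π x) : Cen P x := by
  intro g hg
  obtain ⟨w, hw⟩ := h.sy.ex_one hx.ne
  obtain ⟨v, v0, v1⟩ := H (π x) w w
  obtain ⟨u, hu, rfl⟩ := h.exists_T hq v0
  have v2 : π u ≠ π x := fun e => by simpa [e, h.sy.symm w, hw] using v1 w (by simp)
  have e := (h.comm_iff hx.mem hu.mem).2 (v1 _ (by simp))
  have m := hK x hx g hg u hu.mem e.symm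
  obtain ⟨σ, s1, s2, s3⟩ := hq.qd.trans_fix h.sy re_mul
    (fun u w hu hw => h.re_tt hT u w (h.exists_T hq hu) (h.exists_T hq hw)) (hq.of_T hx)
    (hq.of_T (h.T_conj hu m)) v0 (fun e' => v2 (by
      obtain ⟨c, hc⟩ := h.smul_of_π m hx.mem e'
      refine h.π_of_smul hx.mem (c := c) (ρ_left_cancel (ρ := ρ) g (ρ_right_cancel (ρ := ρ) g⁻¹ ?_))
      rw [← map_mul, ← map_mul, hc, mul_smul_comm, smul_mul_assoc, ρ_comm hg, mul_assoc, ρ_mul_inv,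
        mul_one])) v2 ((h.comm_iff hx.mem m).1 (conj_comm hg e.symm).symm) (v1 _ (by simp))
  exact h.cen_of_kn hx.mem hx.ne hu.mem hu.ne v2.symm (hK x hx) (hK u hu) hg m s1 s2 s3

theorem exists_conj_mem (h5 : 5 ≤ finrank F2 E) (hN : ∀ y, Iv ρ P π y → NE ρ P π y) {y : G}
    (hy : Iv ρ P π y) (hL : ∀ D, D * y = y * D → ∀ c : F, ρ D * (1 - ρ y) = c • (1 - ρ y) →
      ∃ r ∈ P, r * y = y * r ∧ ∃ d : F, ρ D * (1 + ρ y) = d • (ρ r * (1 + ρ y)))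
    {g : G} (hg : g * y = y * g) : ∃ a, T ρ P π a ∧ g * a * g⁻¹ ∈ P := by
  by_contra hc
  push Not at hc
  have qy : q (π y) = 0 := (hq.zero y hy.mem).2 hy.sq
  have ne : ∀ a, T ρ P π a → π a ≠ π y := fun a ha e => by simpa [e, qy] using hq.of_T ha
  have lift : ∀ v, q v = 1 → B (π y) v = 0 → ∃ a, T ρ P π a ∧ a * y = y * a ∧ π a = v :=
    fun v v0 v1 => by
      obtain ⟨a, ha, rfl⟩ := h.exists_T hq v0
      exact ⟨a, ha, ((h.comm_iff hy.mem ha.mem).2 v1).symm, rfl⟩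
  obtain ⟨v, v0, v1⟩ := H (π y) 0 0
  obtain ⟨a, ta, ca, -⟩ := lift v v0 (v1 _ (by simp))
  obtain ⟨a₂, a₁, sa⟩ := h.exists_sp2 hN hy hg ta ca (ne a ta)
  obtain ⟨f, f0, f1, f2⟩ := h.sy.ex_perp_one [π y, π a₁, π a₂] (π y) h5
  obtain ⟨w, w0, w1, w2⟩ := hq.qd.span₂ h.sy H f0 f1
  obtain ⟨b₁, tb₁, cb₁, rfl⟩ := lift w w0 w1
  obtain ⟨b, tb, cb, nb, eb⟩ := h.NE_T hy (hN y hy) (inv_comm hg) tb₁ cb₁ (ne _ tb₁)
  obtain ⟨b₂, b₃, sb⟩ := h.exists_sp2 hN hy hg tb cb nb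
  have eb' : ρ (g * b * g⁻¹) * (1 + ρ y) = ρ b₁ * (1 + ρ y) := by
    rw [conj_eig (comm_add (ρ_comm hg)) eb.symm, ← map_mul, ← map_mul]
    congr 2
    group
  have sb' : Sp2 ρ P π y (g * b * g⁻¹) b₂ b₁ :=
    ⟨sb.tu, sb.cu, sb.nu, tb₁, cb₁, ne _ tb₁, sb.cz, eb', sb.mi⟩
  have nb' := mt (h.mem_of_sp2 hy sb') (hc b tb)
  obtain ⟨k, hk⟩ := hT a b ta tb
  obtain ⟨k₁, c₁, hk₁⟩ := hT a₁ b₁ sa.tu' tb₁
  obtain ⟨k₂, hk₂⟩ := hT a₂ b₂ sa.tu sb.tu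
  obtain ⟨c, hk'⟩ := hk.conj g
  have ck := (h.tt_conj hk ta tb hy.mem).2.2 ((h.comm_iff ta.mem hy.mem).1 ca)
    ((h.comm_iff tb.mem hy.mem).1 cb)
  have ck₁ := (h.tt_conj ⟨c₁, hk₁⟩ sa.tu' tb₁ hy.mem).2.2 ((h.comm_iff sa.tu'.mem hy.mem).1 sa.cu')
    ((h.comm_iff tb₁.mem hy.mem).1 cb₁)
  have ck₂ := (h.tt_conj hk₂ sa.tu sb.tu hy.mem).2.2 ((h.comm_iff sa.tu.mem hy.mem).1 sa.cu)
    ((h.comm_iff sb.tu.mem hy.mem).1 sb.cu)
  have gen : ∀ (p : A) (a' b' k' : G) (c' : F), ρ k₂⁻¹ * p = p * ρ k₂⁻¹ → ρ b' * p = p * ρ b' →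
      ρ (g * a * g⁻¹) * p = ρ a' * p → ρ (g * b * g⁻¹) * p = ρ b' * p →
      ρ k' = c' • ((1 + ρ a') * (1 + ρ b')) →
      ρ (g * k * g⁻¹ * k₂⁻¹) * p = (c * c'⁻¹) • (ρ (k' * k₂⁻¹) * p) := fun p a' b' k' c' e1 e2 e3 e4 e5 => by
    have e6 : (1 + ρ b') * p = p * (1 + ρ b') := (comm_add e2.symm).symm
    have e7 : (1 + ρ (g * a * g⁻¹)) * (1 + ρ (g * b * g⁻¹)) * p = (1 + ρ a') * (1 + ρ b') * p := by
      rw [mul_assoc, add_mul 1 (ρ (g * b * g⁻¹)), e4, ← add_mul, e6, ← mul_assoc,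
        add_mul 1 (ρ (g * a * g⁻¹)), e3, ← add_mul, mul_assoc, ← e6, mul_assoc]
    rw [map_mul, map_mul ρ k', mul_assoc, mul_assoc (ρ k'), e1, ← mul_assoc, ← mul_assoc (ρ k'), hk', e5,
      smul_mul_assoc, smul_mul_assoc, smul_mul_assoc, smul_mul_assoc, smul_smul,
      inv_mul_cancel_right₀ (h.tt_ne e5), e7]
  obtain ⟨c₂, hk₃⟩ := id hk₂
  obtain ⟨r, r1, r2, d, r3⟩ := hL (g * k * g⁻¹ * k₂⁻¹)
    ((show Commute _ y from conj_comm hg ck).mul_left (inv_comm ck₂)) (c * c₂⁻¹) (by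
      rw [gen _ a₂ b₂ k₂ c₂ (comm_sub (ρ_comm (inv_comm ck₂))) (comm_sub (ρ_comm sb.cu)) sa.mi sb.mi hk₃,
        mul_inv_cancel, map_one, one_mul])
  rw [gen _ a₁ b₁ k₁ c₁ (comm_add (ρ_comm (inv_comm ck₂))) (comm_add (ρ_comm cb₁)) sa.pl eb' hk₁] at r3
  have act := (h.isAct_of_mem (P.inv_mem r1)).mul ((h.tt_act ⟨c₁, hk₁⟩ sa.tu' tb₁).mul
    ((h.tt_act hk₂ sa.tu sb.tu).inv_of (τ := tv B (π b₂) ∘ₗ tv B (π a₂)) fun u => by simp [h.sy.tv_tv]))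
  obtain ⟨s, hs, rfl⟩ := h.surj f
  have cs : s * y = y * s := ((h.comm_iff hy.mem hs).2 (f2 _ (by simp))).symm
  have c0 : c * c₁⁻¹ ≠ 0 := mul_ne_zero (h.tt_ne hk') (inv_ne_zero (h.tt_ne hk₁))
  have ct : r⁻¹ * (k₁ * k₂⁻¹) * y = y * (r⁻¹ * (k₁ * k₂⁻¹)) :=
    (show Commute _ y from inv_comm r2).mul_left ((show Commute _ y from ck₁).mul_left (inv_comm ck₂))
  have r4 : ρ (r⁻¹ * (k₁ * k₂⁻¹)) * (1 + ρ y) = ((c * c₁⁻¹)⁻¹ * d) • (1 + ρ y) := by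
    rw [map_mul, mul_assoc, ← inv_smul_smul₀ c0 (ρ (k₁ * k₂⁻¹) * _), r3, smul_smul, mul_smul_comm,
      ρ_inv_mul']
  generalize r⁻¹ * (k₁ * k₂⁻¹) = t at act ct r4
  have r5 := h.π_plus (act.conj_mem hs) hs hy.mem hy.ne (c := 1) (ρ_right_cancel (ρ := ρ) t (by
    rw [one_smul, mul_assoc, mul_assoc (ρ s), ← comm_add (ρ_comm ct), ← mul_assoc, ← map_mul,
      inv_mul_cancel_right, map_mul, mul_assoc, comm_add (ρ_comm cs), ← mul_assoc, r4, mul_smul_comm,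
      smul_mul_assoc, comm_add (ρ_comm cs)]))
  rw [act.eq s hs] at r5
  simp only [LinearMap.comp_apply, LinearMap.id_apply, tv_zero (f2 (π a₂) (by simp))] at r5
  have b1 : B (π a₁) (π y) = 0 := (h.comm_iff sa.tu'.mem hy.mem).1 sa.cu'
  have r6 : tv B (π b₁) (tv B (π b₂) (π s)) = π s ∨ tv B (π b₁) (tv B (π b₂) (π s)) = π s + π y := by
    refine r5.imp (fun e => ?_) fun e => ?_ <;> rw [← h.sy.tv_tv (π a₁) (tv B (π b₁) _), e]
    · exact tv_zero (f2 _ (by simp))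
    · exact tv_zero (by rw [map_add, f2 _ (by simp), b1, add_zero])
  have w3 := h.sy.symm _ _ ▸ w2
  rcases f2_cases (B (π b₂) (π s)) with e | e
  · rw [tv_zero e, tv_one w3, add_eq_left, add_right_inj] at r6
    exact r6.elim tb₁.ne (ne _ tb₁)
  rw [tv_one e, map_add, tv_one w3, add_assoc, add_eq_left, add_right_inj] at r6
  rcases f2_cases (B (π b₁) (π b₂)) with e' | e'
  · rw [tv_zero e', add_eq_zero, add_eq_iff, add_comm] at r6
    exact nb' r6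
  · rw [tv_one e', add_comm (π b₂), add_add_cancel'] at r6
    exact r6.elim sb.tu.ne sb.nu

theorem normal_so (h5 : 5 ≤ finrank F2 E) (hK : ∀ x, T ρ P π x → KN P x)
    (hN : ∀ y, Iv ρ P π y → NE ρ P π y)
    (hL : ∀ y, Iv ρ P π y → ∀ D, D * y = y * D → ∀ c : F, ρ D * (1 - ρ y) = c • (1 - ρ y) →
      ∃ r ∈ P, r * y = y * r ∧ ∃ d : F, ρ D * (1 + ρ y) = d • (ρ r * (1 + ρ y))) : P.Normal := by
  have tr := fun u v => hq.qd.trans_all h.sy re_mul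
    (fun u w hu hw => h.re_tt hT u w (h.exists_T hq hu) (h.exists_T hq hw))
    (fun a => let ⟨w, h1, h2⟩ := H a a a; ⟨w, h1, by simpa using h2⟩)
    (fun _ _ _ _ _ _ _ _ _ _ => H _ _ _) (u := u) (v := v)
  refine h.normal (by omega) hT (fun W hW => ?_) (fun x hx x0 => ?_) fun a ha b hb a0 b0 e =>
    tr _ _ a0 b0 ?_
  · obtain ⟨v, -, hv⟩ := SetLike.exists_of_lt (lt_top_iff_ne_top.2 hW)
    obtain ⟨w, w1, w2⟩ := h.sy.ex_sub W hv
    obtain ⟨b, b1, b2⟩ := hq.qd.span₁ h.sy (f := w)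
      (fun a b => let ⟨w, h1, h2⟩ := H a b b; ⟨w, h1, by simpa using h2⟩) (by rintro rfl; simp at w2)
    obtain ⟨x, hx, rfl⟩ := h.exists_T hq b1
    exact ⟨x, hx, fun e => by simpa [h.sy.symm w, w1 _ e] using b2⟩
  · rcases f2_cases (q (π x)) with e | e
    · intro g hg
      have hy : Iv ρ P π x := ⟨hx, (hq.zero x hx).1 e, x0⟩
      obtain ⟨a, ha, hm⟩ := h.exists_conj_mem hq hT H h5 hN hy (hL x hy) hg
      obtain ⟨σ, s1, s2⟩ := tr _ _ (h.ne_conj ha.mem ha.ne hm) ha.ne (h.q_conj hq ha.mem hm)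
      exact h.mem_normalizer_of_mv ha.mem ha.ne (h.cen_T hq hT H hK ha) hm s1 s2
    · exact h.cen_T hq hT H hK (hq.T hx e)
  · rcases f2_cases (q (π b)) with e' | e' <;> rw [e']
    · rw [hq.zero a ha, e, ← hq.zero b hb, e']
    · rw [hq.one a ha, e, ← hq.one b hb, e']

end SO

end PD

end Cfsg.Agent.Class.C6P
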