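import Mathlib
import Cfsg.Agent.Class.C6P.Inner
import Cfsg.Agent.Class.Max.FrD

/-!
Two-dimensional groups containing two projective elements of order four.
-/

set_option autoImplicit false

namespace Cfsg.Agent.Class.C6P

open Matrix MatrixGroups Cfsg.Agent.Class.Dickson Cfsg.Agent.Class.Max

variable {F G : Type*} [Field F] [Group G]

theorem not_fix_of_det {γ δ : GL (Fin 2) F} (h : (γ.1 * δ.1 - δ.1 * γ.1).det ≠ 0)
    {x : P1 F} (h1 : pmk γ • x = x) (h3 : pmk δ • x = x) : False := by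
  induction x using Projectivization.ind with | h v hv =>
  rw [Projectivization.PGL.mk_smul_mk, Projectivization.mk_eq_mk_iff'] at h1 h3
  obtain ⟨a, ha⟩ := h1
  obtain ⟨b, hb⟩ := h3
  change a • v = γ.1 *ᵥ v at ha
  change b • v = δ.1 *ᵥ v at hb
  refine h (Matrix.exists_mulVec_eq_zero_iff.1 ⟨v, hv, ?_⟩)
  simp only [sub_mulVec, ← mulVec_mulVec, ← ha, ← hb, mulVec_smul, smul_smul, mul_comm a, sub_self]

theorem s4_sq : ∀ a b c : Equiv.Perm (Fin 4), a * a ≠ 1 → a * a * (a * a) = 1 → b * b ≠ 1 →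
    b * b * (b * b) = 1 → c * c ≠ 1 → c * c * (c * c) = 1 → a * a ≠ b * b →
      c * c = a * a ∨ c * c = b * b ∨ c * c = a * a * (b * b) := by
  have : ∀ a : Equiv.Perm (Fin 4), a * a ≠ 1 → a * a * (a * a) = 1 →
      a * a = Equiv.swap 0 1 * Equiv.swap 2 3 ∨ a * a = Equiv.swap 0 2 * Equiv.swap 1 3 ∨
        a * a = Equiv.swap 0 3 * Equiv.swap 1 2 := by decide +kernel
  intro a b c a1 a2 b1 b2 c1 c2
  rcases this a a1 a2 with e | e | e <;> rcases this b b1 b2 with e' | e' | e' <;>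
    rcases this c c1 c2 with e'' | e'' | e'' <;> rw [e, e', e''] <;> decide

theorem tame24 [Finite F] (h2 : (2 : F) ≠ 0) (ρ : G →* Matrix (Fin 2) (Fin 2) F)
    (hU : ∀ g (c : F), (ρ g - c • 1) * (ρ g - c • 1) = 0 → ρ g = c • 1) {a b : G}
    (a1 : ¬ Sc F ρ (a * a)) (a2 : Sc F ρ (a * a * (a * a))) (b1 : ¬ Sc F ρ (b * b))
    (b2 : Sc F ρ (b * b * (b * b))) (hab : (ρ a * ρ b - ρ b * ρ a).det ≠ 0) :
    (∀ g, Sc F ρ g ∨ (ρ g).trace = 0 ∨ (ρ g).trace ^ 2 = (ρ g).det ∨ (ρ g).trace ^ 2 = 2 * (ρ g).det) ∧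
    ((∀ c : F, ρ (b * b) ≠ c • ρ (a * a)) → ∀ g, ∃ c : F, ρ (g * (a * a) * g⁻¹) = c • ρ (a * a) ∨
      ρ (g * (a * a) * g⁻¹) = c • ρ (b * b) ∨ ρ (g * (a * a) * g⁻¹) = c • ρ (a * a * (b * b))) := by
  let k := AlgebraicClosure F
  let f := algebraMap F k
  let ψ : G →* PGL(2, F) := (Matrix.ProjGenLinGroup.mk (n := Fin 2) (R := F)).comp ρ.toHomUnits
  have : Finite PGL(2, F) := Finite.of_surjective _ Matrix.ProjGenLinGroup.mk_surjective
  let φ : ψ.range →* PGL(2, k) := (pmap f).comp ψ.range.subtype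
  have hφ : Function.Injective φ := (pmap_injective f).comp Subtype.val_injective
  let el := ψ.rangeRestrict
  have eq : ∀ g g', el g = el g' ↔ ∃ c : F, ρ g' = c • ρ g := fun g g' =>
    Subtype.ext_iff.trans ((pmk_eq_pmk_iff _ _).trans (exists_congr fun _ =>
      ⟨fun h => Matrix.ext h, fun h i j => congrFun (congrFun h i) j⟩))
  have one : ∀ g, el g = 1 ↔ Sc F ρ g := fun g => by
    rw [← map_one el, eq_comm, eq, map_one]; rfl
  have hnf : ∀ x : P1 k, φ (el a) • x = x → φ (el b) • x = x → False := fun x =>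
    not_fix_of_det (γ := GeneralLinearGroup.map f (ρ.toHomUnits a))
      (δ := GeneralLinearGroup.map f (ρ.toHomUnits b)) (by
      change (f.mapMatrix (ρ a) * f.mapMatrix (ρ b) - f.mapMatrix (ρ b) * f.mapMatrix (ρ a)).det ≠ 0
      rw [← map_mul f.mapMatrix, ← map_mul f.mapMatrix, ← map_sub, ← RingHom.map_det]
      exact (map_ne_zero f).2 hab)
  let _ : MulAction ψ.range (P1 k) := MulAction.compHom _ φ
  rw [← one] at a1 a2 b1 b2
  simp only [map_mul] at a1 a2 b1 b2
  rcases (lineAction φ hφ).tame (fun x => eq_bot_iff.2 fun g hg => by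
      obtain ⟨g, rfl⟩ := ψ.rangeRestrict_surjective g
      have h3 := trace_of_unip (γ := GeneralLinearGroup.map f (ρ.toHomUnits g)) hg
      have h4 : (ρ g).trace ^ 2 = 4 * (ρ g).det := f.injective (by
        rw [map_mul, map_pow, map_ofNat, RingHom.map_det, AddMonoidHom.map_trace]
        exact h3)
      refine (one g).2 ⟨(ρ g).trace / 2, hU g _ ?_⟩
      simp only [mul_sub, sub_mul, sq_eq_trace_smul (ρ g), mul_smul_comm, smul_mul_assoc, mul_one,
        one_mul]
      match_scalars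
      · field_simp; ring
      · field_simp; linear_combination h4) with ⟨x, hx⟩ | ⟨x, hx⟩ | ⟨n, hn, ho⟩
  · exact (hnf x (hx _) (hx _)).elim
  · exfalso
    obtain ⟨y, hxy, hp⟩ := pair_of_card_orbit hx
    have key : ∀ g, g * g ≠ 1 → φ g • x = x := fun g e => ((hp g).resolve_right fun e' =>
      e (hφ (by rw [map_mul, map_one]; exact mul_self_of_swap hxy e'.1 e'.2))).1
    exact hnf x (key _ a1) (key _ b1)
  have o4 : orderOf (el a) = 4 := by
    have : orderOf (el a) = 2 ^ 2 := orderOf_eq_prime_pow (by simpa [sq] using a1) (by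
      rw [← a2]; simp [pow_succ, mul_assoc])
    simpa using this
  have hn4 : Nat.card ψ.range = 24 ∧ n = 4 := by
    have := ho (el a)
    rw [o4] at this
    omega
  obtain ⟨hc, rfl⟩ := hn4
  refine ⟨fun g => or_iff_not_imp_left.2 fun h1 => ?_, fun hne g => ?_⟩
  · obtain ⟨p2, p3, p4, -⟩ := pmk_pow_trace (ρ.toHomUnits g) (fun e => h1 ((one g).1 (Subtype.ext e)))
    have := ho (el g)
    simp only [orderOf_dvd_iff_pow_eq_one, Subtype.ext_iff] at this
    rcases this with e | e | e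
    exacts [Or.inl (p2 e), Or.inr (Or.inl (p3 e)), (p4 e).imp_right Or.inr]
  · obtain ⟨e⟩ := SmallIso.sym4_of_orders hc fun g e => by have := ho g; rw [e] at this; omega
    have e1 : el g * el a * (el g)⁻¹ * (el g * el a * (el g)⁻¹) = el (g * (a * a) * g⁻¹) := by
      simp only [map_mul, map_inv]; group
    have := s4_sq (e (el a)) (e (el b)) (e (el g * el a * (el g)⁻¹))
    simp only [← map_mul e, ne_eq, map_eq_one_iff e e.injective, e.injective.eq_iff, e1] at this
    have := this a1 a2 b1 b2 (by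
      rw [map_mul, map_mul, map_inv, map_mul, mul_inv_eq_one, mul_eq_left]; exact a1) (by
      rw [← map_mul, show g * (a * a) * g⁻¹ * (g * (a * a) * g⁻¹) = g * (a * a * (a * a)) * g⁻¹ by group]
      simp [a2]) (by
      rw [← map_mul, ← map_mul, eq]
      exact fun ⟨c, hc⟩ => hne c hc)
    simp only [← map_mul el, eq_comm (a := el (g * (a * a) * g⁻¹)), eq] at this
    rcases this with ⟨c, e⟩ | ⟨c, e⟩ | ⟨c, e⟩
    exacts [⟨c, Or.inl e⟩, ⟨c, Or.inr (Or.inl e)⟩, ⟨c, Or.inr (Or.inr e)⟩]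

theorem two_refl [Finite F] (h2 : (2 : F) ≠ 0) (h3 : (3 : F) ≠ 0) {i : F} (hi : i * i = -1)
    (ρ : G →* Matrix (Fin 2) (Fin 2) F) {a b : G} {l m α β : F} (hαβ : 4 * (α * β) = 1)
    (ha : ρ a = l • !![i, (i - 1) * α; 0, 1]) (hb : ρ b = m • !![1, 0; (i - 1) * β, i]) :
    ∃ (g : G) (c : F), (ρ g - c • 1) * (ρ g - c • 1) = 0 ∧ ρ g ≠ c • 1 := by
  by_contra hc
  push Not at hc
  have l0 : l ≠ 0 := fun e => by simpa [ha, e] using ρ_mul_inv (ρ := ρ) a
  have m0 : m ≠ 0 := fun e => by simpa [hb, e] using ρ_mul_inv (ρ := ρ) b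
  have i1 : i - 1 ≠ 0 := fun e => h2 (by linear_combination hi - (i + 1) * e)
  have a0 : α ≠ 0 := fun e => by simp [e] at hαβ
  have b0 : β ≠ 0 := fun e => by simp [e] at hαβ
  have sc : ∀ g, Sc F ρ g → ρ g 0 1 = 0 ∧ ρ g 0 0 = ρ g 1 1 := fun g ⟨c, e⟩ => by simp [e]
  have ea : ρ (a * a) = (l * l) • !![-1, -2 * α; 0, 1] := by
    rw [map_mul, ha]
    ext s t
    fin_cases s <;> fin_cases t <;> simp <;> grind
  have eb : ρ (b * b) = (m * m) • !![1, 0; -2 * β, -1] := by
    rw [map_mul, hb]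
    ext s t
    fin_cases s <;> fin_cases t <;> simp <;> grind
  obtain ⟨t, -⟩ := tame24 h2 ρ hc (a := a) (b := b)
    (fun e => by have := (sc _ e).2; simp [ea] at this; grind)
    ⟨l * l * (l * l), by
      rw [map_mul, ea]
      ext s t
      fin_cases s <;> fin_cases t <;> simp
      ring⟩
    (fun e => by have := (sc _ e).2; simp [eb] at this; grind)
    ⟨m * m * (m * m), by
      rw [map_mul, eb]
      ext s t
      fin_cases s <;> fin_cases t <;> simp
      ring⟩ (by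
      have : (ρ a * ρ b - ρ b * ρ a).det = 3 * ((l * m) ^ 2 * (i - 1) ^ 4 * (α * β) ^ 2) := by
        rw [ha, hb]
        simp [det_fin_two]
        linear_combination (l * m) ^ 2 * (i - 1) ^ 4 * (α * β) * hαβ * (-1)
      rw [this]
      simp [*])
  have t1 := t (a * b)
  have t2 := t (a * b * (b * b))
  have e1 : ρ (a * b) = (l * m) • !![i - 2 * i * (α * β), (i - 1) * α * i; (i - 1) * β, i] := by
    rw [map_mul, ha, hb]
    ext s t
    fin_cases s <;> fin_cases t <;> simp <;> grind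
  have e2 : ρ (a * b * (b * b)) =
      (l * m * (m * m)) • !![i + 2 * (α * β), -((i - 1) * α * i); -((i + 1) * β), -i] := by
    rw [map_mul, e1, eb]
    ext s t
    fin_cases s <;> fin_cases t <;> simp <;> grind
  have i0 : i ≠ 0 := fun e => by simp [e] at hi
  have n1 : ¬ Sc F ρ (a * b) := fun e => by simpa [e1, l0, m0, i1, a0, i0] using (sc _ e).1
  have n2 : ¬ Sc F ρ (a * b * (b * b)) := fun e => by simpa [e2, l0, m0, i1, a0, i0] using (sc _ e).1
  have d1 : (ρ (a * b)).det = -(l * m) ^ 2 := by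
    rw [map_mul, ha, hb]; simp [det_fin_two]; grind
  have d2 : (ρ (a * b * (b * b))).det = (l * m * (m * m)) ^ 2 := by
    rw [map_mul, det_mul, d1, eb]; simp [det_fin_two]; grind
  have r1 : 2 * (ρ (a * b)).trace = 3 * i * (l * m) := by
    rw [e1]; simp [trace_fin_two]; grind
  have r2 : 2 * (ρ (a * b * (b * b))).trace = l * m * (m * m) := by
    rw [e2]; simp [trace_fin_two]; grind
  have x0 := mul_ne_zero l0 m0
  have y0 := mul_ne_zero x0 (mul_ne_zero m0 m0)
  rw [d1] at t1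
  rw [d2] at t2
  generalize (ρ (a * b)).trace = s at *
  generalize (ρ (a * b * (b * b))).trace = s' at *
  generalize l * m * (m * m) = y at *
  generalize l * m = x at *
  have f5 : (5 : F) = 0 := by
    rcases t1.resolve_left n1 with e | e | e
    · exact absurd (by linear_combination 2 * e - r1) (mul_ne_zero (mul_ne_zero h3 i0) x0)
    · refine (mul_eq_zero.1 ?_).resolve_right (pow_ne_zero 2 x0)
      linear_combination (2 * s + 3 * i * x) * r1 - 4 * e + 9 * x ^ 2 * hi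
    · refine absurd ?_ (pow_ne_zero 2 x0)
      linear_combination (2 * s + 3 * i * x) * r1 - 4 * e + 9 * x ^ 2 * hi
  rcases t2.resolve_left n2 with e | e | e
  · exact y0 (by linear_combination 2 * e - r2)
  · refine mul_ne_zero h3 (pow_ne_zero 2 y0) ?_
    linear_combination (2 * s' + y) * r2 - 4 * e
  · refine mul_ne_zero h2 (pow_ne_zero 2 y0) ?_
    linear_combination (2 * s' + y) * r2 - 4 * e - y ^ 2 * f5

variable {A E : Type*} [Ring A] [Algebra F A] [AddCommGroup E] [Module F2 E]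
  {ρ : G →* A} {P : Subgroup G} {π : G → E} {B : E →ₗ[F2] E →ₗ[F2] F2}

theorem PD.normal_of_tame [Finite F] (h : PD F ρ P π B) (φ : A ≃ₐ[F] Matrix (Fin 2) (Fin 2) F)
    (hU : ∀ g (c : F), (ρ g - c • 1) * (ρ g - c • 1) = 0 → ρ g = c • 1)
    (hl : ∀ u, u ≠ 0 → ∃ x, T ρ P π x ∧ π x = u)
    (h1 : ∀ x, T ρ P π x → ∃ (g : G) (c : F), ρ g = c • (1 + ρ x)) : P.Normal := by
  refine ⟨fun r hr g => ?_⟩
  by_cases r0 : π r = 0
  · exact h.sc _ (((h.ker r hr).1 r0).conj g)
  obtain ⟨x, hx, e1⟩ := hl _ r0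
  obtain ⟨w, hw⟩ := h.sy.ex_one hx.ne
  obtain ⟨u, hu, rfl⟩ := hl w (by rintro rfl; simp at hw)
  let ρ' : G →* Matrix (Fin 2) (Fin 2) F := (φ : A →* _).comp ρ
  have k1 : ∀ g g' (c : F), ρ' g = c • ρ' g' ↔ ρ g = c • ρ g' := fun g g' c => by
    rw [← φ.injective.eq_iff, map_smul]; rfl
  have k2 : ∀ g, Sc F ρ' g ↔ Sc F ρ g := fun g => exists_congr fun c => by
    simpa using k1 g 1 c
  have k3 : ∀ x, T ρ P π x → ∃ (a : G) (c : F), ρ a = c • (1 + ρ x) ∧ a * a ∈ P ∧ π (a * a) = π x :=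
    fun x hx => by
      obtain ⟨a, c, e⟩ := h1 x hx
      have : ρ (a * a) = (c * c * 2) • ρ x := by
        rw [map_mul, e, smul_mul_smul_comm, add_mul, mul_add, mul_add, hx.sq]
        simp only [one_mul, mul_one]
        module
      exact ⟨a, c, e, h.mem_of_smul hx.mem this, h.π_of_smul hx.mem this⟩
  obtain ⟨a, c, ea, a1, a2⟩ := k3 x hx
  obtain ⟨b, d, eb, b1, b2⟩ := k3 u hu
  obtain ⟨s, hs⟩ := (tame24 h.two ρ' (fun g c e => (k1 g 1 c).2 (by
      rw [map_one]
      refine hU g c (φ.injective ?_)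
      simpa [ρ'] using e) ▸ by simp) (a := a) (b := b)
    (by rw [k2, ← h.ker _ a1, a2]; exact hx.ne) ((k2 _).2 (h.sq_sc a1))
    (by rw [k2, ← h.ker _ b1, b2]; exact hu.ne) ((k2 _).2 (h.sq_sc b1)) (by
      have : ρ' a * ρ' b - ρ' b * ρ' a = (c * d * 2) • ρ' (x * u) := by
        change φ (ρ a) * φ (ρ b) - φ (ρ b) * φ (ρ a) = _ • φ (ρ (x * u))
        rw [← map_mul φ, ← map_mul φ, ← map_sub, ← map_smul, ea, eb, map_mul ρ]
        congr 1
        simp only [smul_mul_smul_comm, add_mul, mul_add, one_mul, mul_one, h.comm1 x hx.mem u hu.mem hw]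
        module
      rw [this, det_smul]
      exact mul_ne_zero (pow_ne_zero _ (mul_ne_zero (mul_ne_zero (h.tt_ne ea) (h.tt_ne eb)) h.two))
        (GeneralLinearGroup.det_ne_zero (ρ'.toHomUnits (x * u))))).2 (fun c e => by
      have := h.π_of_smul a1 ((k1 _ _ _).1 e)
      rw [a2, b2] at this
      simp [this, h.sy.alt] at hw) g
  obtain ⟨t, ht⟩ := h.smul_of_π hr a1 (by rw [a2, e1])
  refine h.mem_of_smul (b := g * (a * a) * g⁻¹) ?_ (c := t) (by simp [ht])
  rcases hs with e | e | e <;> rw [k1] at e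
  exacts [h.mem_of_smul a1 e, h.mem_of_smul b1 e, h.mem_of_smul (P.mul_mem a1 b1) e]

end Cfsg.Agent.Class.C6P
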