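import Mathlib
import Cfsg.Agent.Class.C6P.Dick

/-!
Linear groups containing a Pauli group; restriction to eigenspaces.
-/

set_option autoImplicit false

namespace Cfsg.Agent.Class.C6P

open Module Cfsg.Agent.Class.Max

universe v

section Gen

variable {F A G E : Type*} [Field F] [Ring A] [Algebra F A] [Group G] [AddCommGroup E] [Module F2 E]
  {ρ : G →* A} {P : Subgroup G} {π : G → E} {B : E →ₗ[F2] E →ₗ[F2] F2}

theorem one_add_pow_of_sq {ν : A} (hν : ν * ν = 0) (n : ℕ) : (1 + ν) ^ n = 1 + (n : F) • ν := by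
  induction n with
  | zero => simp
  | succ n ih =>
    rw [pow_succ, ih, mul_add, add_mul 1 _ ν, smul_mul_assoc, hν, mul_one, one_mul]
    push_cast
    module

theorem exists_unip [Finite F] {g : G} {c : F} {ν : A} (hc : c ≠ 0) (hν : ν * ν = 0)
    (e : ρ g = c • (1 + ν)) : ∃ k ∈ Subgroup.zpowers g, ρ k = 1 + ν := by
  have := Fintype.ofFinite F
  refine ⟨(g ^ (Fintype.card F - 1))⁻¹, Subgroup.inv_mem _ (Subgroup.pow_mem _ (Subgroup.mem_zpowers g) _),
    ρ_left_cancel (ρ := ρ) (g ^ (Fintype.card F - 1)) ?_⟩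
  rw [ρ_mul_inv, map_pow, e, smul_pow, FiniteField.pow_card_sub_one_eq_one c hc, one_smul,
    ← pow_succ, Nat.sub_add_cancel Fintype.card_pos, one_add_pow_of_sq (F := F) hν,
    FiniteField.cast_card_eq_zero, zero_smul, add_zero]

theorem PD.pow_sc [Finite E] (h : PD F ρ P π B) [hP : P.Normal]
    (H : ∀ a b, B a b = 0 → a = 0 ∨ b = 0 ∨ a = b) (g : G) : Sc F ρ (g ^ 4) ∨ Sc F ρ (g ^ 3) := by
  obtain ⟨σ, hσ⟩ := h.exists_act (g := g) (by rw [Subgroup.normalizer_eq_top]; trivial)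
  have inj := h.act_inj hσ
  have cov : ∀ a b, B a b = 1 → ∀ v, v = 0 ∨ v = a ∨ v = b ∨ v = b + a := fun a b e v => by
    have a0 : a ≠ 0 := by rintro rfl; simp at e
    rcases f2_cases (B a v) with e' | e'
    · rcases (H a v e').resolve_left a0 with e1 | e1
      exacts [Or.inl e1, Or.inr (Or.inl e1.symm)]
    · rcases (H a (v + b) (by rw [map_add, e, e', f2_one_add_one])).resolve_left a0 with e1 | e1
      exacts [Or.inr (Or.inr (Or.inl (add_eq_zero.1 e1))),
        Or.inr (Or.inr (Or.inr (by rw [e1, add_comm v, add_add_cancel'])))]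
  by_cases hf : ∃ c, c ≠ 0 ∧ σ c = c
  · obtain ⟨c, c0, hc⟩ := hf
    obtain ⟨d, hd⟩ := h.sy.ex_one c0
    have e1 : σ (σ d) = d := by
      have e2 := h.act_B hσ c d
      rw [hc, hd] at e2
      rcases cov c d hd (σ d) with e | e | e | e
      · simp [e] at e2
      · simp [e, h.sy.alt] at e2
      · rw [e, e]
      · rw [e, map_add, e, hc, add_add_cancel]
    have := h.sq_sc (h.mem_of_act ((hσ.mul hσ).congr (τ := LinearMap.id) fun v => by
      rcases cov c d hd v with rfl | rfl | rfl | rfl <;> simp [hc, e1]))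
    exact Or.inl (by convert this using 1; simp [pow_succ, mul_assoc])
  · push Not at hf
    have e1 : ∀ a, σ (σ a) = σ a + a := fun a => by
      by_cases a0 : a = 0
      · simp [a0]
      have b0 : σ a ≠ 0 := fun e => a0 (inj (by rw [e, map_zero]))
      have e2 : B a (σ a) = 1 := f2_ne_zero.1 fun e =>
        ((H _ _ e).resolve_left a0).elim b0 fun e => hf a a0 e.symm
      rcases cov a _ e2 (σ (σ a)) with e | e | e | e
      · exact absurd (inj (by rw [e, map_zero])) b0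
      · exact absurd (by rw [map_add, e, add_comm]) (hf (a + σ a) fun e' => hf a a0 (add_eq_zero.1 e').symm)
      · exact absurd e (hf _ b0)
      · exact e
    have m : g * (g * g) ∈ P := h.mem_of_act ((hσ.mul (hσ.mul hσ)).congr (τ := LinearMap.id) fun v => by
      simp only [LinearMap.comp_apply, LinearMap.id_apply]
      rw [e1 (σ v), e1 v, add_comm, add_add_cancel'])
    refine Or.inr (by
      rw [show g ^ 3 = g * (g * g) by simp [pow_succ, mul_assoc], ← h.ker _ m]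
      by_contra e
      exact hf _ e (by rw [← hσ.eq _ m]; congr 1; group))

end Gen

variable {F V : Type*} [Field F] [AddCommGroup V] [Module F V]

/-- The natural representation of a linear group. -/
def rho (M : Subgroup (V ≃ₗ[F] V)) : M →* End F V where
  toFun g := (g : V ≃ₗ[F] V).toLinearMap
  map_one' := rfl
  map_mul' _ _ := rfl

variable {M : Subgroup (V ≃ₗ[F] V)}

theorem rho_apply (g : M) (v : V) : rho M g v = g.1 v := rfl

theorem rho_inj : Function.Injective (rho M) := fun _ _ e =>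
  Subtype.ext (LinearEquiv.ext (LinearMap.congr_fun e))

/-- `P` spans the endomorphism algebra. -/
def Spn (P : Subgroup M) : Prop := Submodule.span F (rho M '' P) = ⊤

variable {P : Subgroup M}

theorem Spn.ind (h : Spn P) {p : End F V → Prop} (h1 : ∀ r ∈ P, p (rho M r)) (h0 : p 0)
    (h2 : ∀ a b, p a → p b → p (a + b)) (h3 : ∀ (c : F) a, p a → p (c • a)) (a : End F V) : p a := by
  have : a ∈ Submodule.span F (rho M '' P) := h ▸ Submodule.mem_top
  induction this using Submodule.span_induction with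
  | mem x hx => obtain ⟨r, hr, rfl⟩ := hx; exact h1 r hr
  | zero => exact h0
  | add x y _ _ a b => exact h2 x y a b
  | smul c x _ a => exact h3 c x a

theorem exists_end {v : V} (hv : v ≠ 0) (w : V) : ∃ a : End F V, a v = w := by
  obtain ⟨φ, -, h⟩ := exists_dual_one (F := F) ⊥ hv
  exact ⟨φ.smulRight w, by simp [h]⟩

theorem Spn.exists_ne (h : Spn P) {v : V} (hv : v ≠ 0) {φ : Dual F V} (hφ : φ ≠ 0) :
    ∃ r ∈ P, φ (rho M r v) ≠ 0 := by
  by_contra hc
  push Not at hc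
  refine hφ (LinearMap.ext fun w => ?_)
  obtain ⟨a, rfl⟩ := exists_end (F := F) hv w
  exact h.ind (p := fun a => φ (a v) = 0) hc (by simp) (fun a b e e' => by simp [e, e'])
    (fun c a e => by simp [e]) a

theorem Spn.inv (h : Spn P) {W : Submodule F V} (hW : ∀ r ∈ P, ∀ v ∈ W, r.1 v ∈ W) :
    W = ⊥ ∨ W = ⊤ := by
  refine or_iff_not_imp_left.2 fun h0 => eq_top_iff.2 fun w _ => ?_
  obtain ⟨v, hv, v0⟩ := Submodule.exists_mem_ne_zero_of_ne_bot h0
  obtain ⟨a, rfl⟩ := exists_end (F := F) v0 w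
  exact h.ind (p := fun a => a v ∈ W) (fun r hr => hW r hr v hv) W.zero_mem
    (fun a b => W.add_mem) (fun c a => W.smul_mem c) a

theorem Spn.irr (h : Spn P) : Irr M := fun _ hW => h.inv fun r _ => hW r r.2

theorem Spn.cent (h : Spn P) (a : End F V) (ha : ∀ r ∈ P, a * rho M r = rho M r * a) :
    ∃ c : F, a = c • 1 := by
  have := h.ind (p := fun b => a * b = b * a) ha (by simp) (fun b c e e' => by
    rw [mul_add, add_mul, e, e']) (fun c b e => by rw [mul_smul_comm, smul_mul_assoc, e])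
  rcases subsingleton_or_nontrivial V with hV | hV
  · exact ⟨0, Subsingleton.elim _ _⟩
  obtain ⟨v, hv⟩ := _root_.exists_ne (0 : V)
  obtain ⟨φ, -, h1⟩ := exists_dual_one (F := F) ⊥ hv
  exact ⟨φ (a v), LinearMap.ext fun w => by
    simpa [h1] using LinearMap.congr_fun (this (φ.smulRight w)) v⟩

variable {E : Type*} [AddCommGroup E] [Module F2 E] {π : M → E} {B : E →ₗ[F2] E →ₗ[F2] F2}

theorem Spn.finrank_le [Finite E] (h : PD F (rho M) P π B) (hs : Spn P) :
    finrank F V ^ 2 ≤ 2 ^ finrank F2 E := by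
  classical
  choose s h1 h2 using h.surj
  have := Fintype.ofFinite E
  have e : Submodule.span F (Set.range fun u => rho M (s u)) = ⊤ := eq_top_iff.2 fun a _ =>
    hs.ind (p := (· ∈ Submodule.span F (Set.range fun u => rho M (s u)))) (fun r hr => by
      obtain ⟨c, hc⟩ := h.smul_of_π hr (h1 (π r)) (h2 _).symm
      exact hc ▸ Submodule.smul_mem _ c (Submodule.subset_span ⟨_, rfl⟩)) (Submodule.zero_mem _)
      (fun _ _ => Submodule.add_mem _) (fun c _ => Submodule.smul_mem _ c) a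
  by_cases hV : Module.Finite F V
  · have := finrank_le_of_span_eq_top e
    rwa [Module.finrank_linearMap, ← sq, ← Nat.card_eq_fintype_card, card_f2] at this
  · simp [finrank_of_not_finite hV]

/-- The fixed space. -/
def fx (Y : End F V) : Submodule F V := LinearMap.ker (1 - Y)

variable {Y : End F V}

theorem mem_fx {v : V} : v ∈ fx Y ↔ Y v = v := by
  rw [fx, LinearMap.mem_ker, LinearMap.sub_apply, sub_eq_zero, eq_comm, End.one_apply]

theorem fx_app (w : fx Y) : Y w = w := mem_fx.1 w.2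

theorem add_mem_fx (hY : Y * Y = 1) (v : V) : v + Y v ∈ fx Y := by
  rw [mem_fx, map_add, ← End.mul_apply, hY, End.one_apply, add_comm]

theorem app_mem_fx {a : End F V} (e : a * Y = Y * a) (w : fx Y) : a w ∈ fx Y := by
  rw [mem_fx, ← End.mul_apply, ← e, End.mul_apply, fx_app]

theorem eq_on_fx (h2 : (2 : F) ≠ 0) (hY : Y * Y = 1) {a b : End F V} :
    a * (1 + Y) = b * (1 + Y) ↔ ∀ w : fx Y, a w = b w := by
  refine ⟨fun e w => smul_right_injective V h2 ?_, fun e => LinearMap.ext fun v => e ⟨_, add_mem_fx hY v⟩⟩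
  simpa [fx_app, two_smul] using LinearMap.congr_fun e w

/-- `k` is the restriction of `a`. -/
def Rs (k : fx Y ≃ₗ[F] fx Y) (a : End F V) : Prop := ∀ w, (k w : V) = a w

theorem Rs.mul {k k' : fx Y ≃ₗ[F] fx Y} {a a' : End F V} (h : Rs k a) (h' : Rs k' a') :
    Rs (k * k') (a * a') := fun w => by rw [mul_app, h, h', End.mul_apply]

theorem Rs.inv {k : fx Y ≃ₗ[F] fx Y} {g : M} {c : F} (h : Rs k (c • rho M g)) :
    Rs k⁻¹ (c⁻¹ • rho M g⁻¹) := fun w => by
  have e := h (k⁻¹ w)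
  rw [app_inv_app] at e
  by_cases c0 : c = 0
  · have : w = 0 := Subtype.ext (by simpa [c0] using e)
    simp [this]
  · rw [e, LinearMap.smul_apply, LinearMap.smul_apply, map_smul, smul_smul, inv_mul_cancel₀ c0,
      ← End.mul_apply, ρ_inv_mul, one_smul, End.one_apply]

theorem Rs.inv' {k : fx Y ≃ₗ[F] fx Y} {g : M} (h : Rs k (rho M g)) : Rs k⁻¹ (rho M g⁻¹) := by
  simpa using Rs.inv (c := 1) (g := g) (k := k) (by simpa using h)

theorem Rs.eq {k k' : fx Y ≃ₗ[F] fx Y} {a a' : End F V} (h : Rs k a) (h' : Rs k' a')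
    (e : ∀ w : fx Y, a w = a' w) : k = k' :=
  LinearEquiv.ext fun w => Subtype.ext (by rw [h, h', e])

theorem ρ_inv_comm {g : M} (e : rho M g * Y = Y * rho M g) : rho M g⁻¹ * Y = Y * rho M g⁻¹ :=
  ρ_left_cancel (ρ := rho M) g (by rw [ρ_mul_inv', ← mul_assoc, e, mul_assoc, ρ_mul_inv, mul_one])

theorem ρ_mul_comm {g k : M} (e : rho M g * Y = Y * rho M g) (e' : rho M k * Y = Y * rho M k) :
    rho M (g * k) * Y = Y * rho M (g * k) := by
  rw [map_mul, mul_assoc, e', ← mul_assoc, e, mul_assoc]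

variable (M Y) in
/-- The restriction of the centraliser to the fixed space. -/
def Mr : Subgroup (fx Y ≃ₗ[F] fx Y) where
  carrier := {k | ∃ g : M, rho M g * Y = Y * rho M g ∧ Rs k (rho M g)}
  mul_mem' := by
    rintro _ _ ⟨g, h1, h2⟩ ⟨k, h3, h4⟩
    exact ⟨g * k, ρ_mul_comm h1 h3, h2.mul h4⟩
  one_mem' := ⟨1, by simp, fun _ => rfl⟩
  inv_mem' := by
    rintro _ ⟨g, h1, h2⟩
    exact ⟨g⁻¹, ρ_inv_comm h1, h2.inv'⟩

variable (M Y) in
/-- The restrictions of the elements acting trivially on the other eigenspace. -/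
def Nr : Subgroup (fx Y ≃ₗ[F] fx Y) where
  carrier := {k | ∃ g : M, rho M g * Y = Y * rho M g ∧ Rs k (rho M g) ∧ rho M g * (1 - Y) = 1 - Y}
  mul_mem' := by
    rintro _ _ ⟨g, h1, h2, e⟩ ⟨k, h3, h4, e'⟩
    exact ⟨g * k, ρ_mul_comm h1 h3, h2.mul h4, by rw [map_mul, mul_assoc, e', e]⟩
  one_mem' := ⟨1, by simp, fun _ => rfl, by simp⟩
  inv_mem' := by
    rintro _ ⟨g, h1, h2, e⟩
    exact ⟨g⁻¹, ρ_inv_comm h1, h2.inv', ρ_left_cancel (ρ := rho M) g (by rw [ρ_mul_inv', e])⟩

variable (P Y) in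
/-- The restriction of the Pauli group. -/
def Pr : Subgroup (Mr M Y) where
  carrier := {k | ∃ r ∈ P, rho M r * Y = Y * rho M r ∧ ∃ c : F, Rs k.1 (c • rho M r)}
  mul_mem' := by
    rintro _ _ ⟨g, m, h1, c, h2⟩ ⟨k, m', h3, d, h4⟩
    exact ⟨g * k, P.mul_mem m m', ρ_mul_comm h1 h3, c * d, by
      simpa only [smul_mul_smul_comm, ← map_mul, Subgroup.coe_mul] using h2.mul h4⟩
  one_mem' := ⟨1, P.one_mem, by simp, 1, fun _ => by simp⟩
  inv_mem' := by
    rintro _ ⟨g, m, h1, c, h2⟩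
    exact ⟨g⁻¹, P.inv_mem m, ρ_inv_comm h1, _, h2.inv⟩

theorem exists_rs {g : M} (e : rho M g * Y = Y * rho M g) : ∃ k : Mr M Y, Rs k.1 (rho M g) := by
  let k : fx Y ≃ₗ[F] fx Y := LinearEquiv.ofLinearMap
    ((rho M g).restrict fun v hv => app_mem_fx e ⟨v, hv⟩)
    ((rho M g⁻¹).restrict fun v hv => app_mem_fx (ρ_inv_comm e) ⟨v, hv⟩)
    (LinearMap.ext fun w => Subtype.ext (app_inv_app g.1 w))
    (LinearMap.ext fun w => Subtype.ext (inv_app_app g.1 w))
  exact ⟨⟨k, g, e, fun _ => rfl⟩, fun _ => rfl⟩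

theorem Rs.mem_Pr {k : Mr M Y} {r : M} (hr : r ∈ P) (e : rho M r * Y = Y * rho M r)
    (h : Rs k.1 (rho M r)) : k ∈ Pr P Y := ⟨r, hr, e, 1, by rwa [one_smul]⟩

theorem Nr_conj {k n : fx Y ≃ₗ[F] fx Y} (hk : k ∈ Mr M Y) (hn : n ∈ Nr M Y) : k * n * k⁻¹ ∈ Nr M Y := by
  obtain ⟨g, h1, h2⟩ := hk
  obtain ⟨t, h3, h4, h5⟩ := hn
  exact ⟨g * t * g⁻¹, ρ_mul_comm (ρ_mul_comm h1 h3) (ρ_inv_comm h1), (h2.mul h4).mul h2.inv', by
    rw [map_mul, map_mul, mul_assoc, comm_sub (ρ_inv_comm h1), mul_assoc, ← mul_assoc (rho M t), h5,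
      ← comm_sub (ρ_inv_comm h1), ρ_mul_inv']⟩

theorem Rs.eq_iff {k k' : Mr M Y} {a a' : End F V} (h : Rs k.1 a) (h' : Rs k'.1 a') (c : F) :
    rho _ k = c • rho _ k' ↔ ∀ w : fx Y, a w = c • a' w := by
  simp only [LinearMap.ext_iff, Subtype.ext_iff, LinearMap.smul_apply, rho_apply, Submodule.coe_smul,
    h _, h' _]

theorem Rs.sc_iff {k : Mr M Y} {a : End F V} (h : Rs k.1 a) :
    Sc F (rho _) k ↔ ∃ c : F, ∀ w : fx Y, a w = c • (w : V) :=
  exists_congr fun c => by simpa using h.eq_iff (k' := 1) (a' := 1) (fun _ => rfl) c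

theorem finrank_fx [FiniteDimensional F V] (h2 : (2 : F) ≠ 0) (hY : Y * Y = 1) {X : End F V}
    (hX : Function.Injective X) (e : X * Y = -(Y * X)) : 2 * finrank F (fx Y) = finrank F V := by
  have k : ∀ Y : End F V, X * Y = -(Y * X) → finrank F (fx Y) ≤ finrank F (fx (-Y)) := fun Y e =>
    LinearMap.finrank_le_finrank_of_injective (f := X.restrict (p := fx Y) (q := fx (-Y)) fun v hv => by
      rw [mem_fx, ← End.mul_apply, neg_mul, ← e, End.mul_apply, mem_fx.1 hv])
      fun a b e => Subtype.ext (hX (congrArg Subtype.val e))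
  have k1 := k Y e
  have k2 := k (-Y) (by rw [mul_neg, neg_mul, e])
  rw [neg_neg] at k2
  have : IsCompl (fx Y) (fx (-Y)) := by
    refine ⟨Submodule.disjoint_def.2 fun v h1 h3 => eq_zero_of_eq_neg h2 ?_,
      codisjoint_iff.2 (eq_top_iff.2 fun v _ => ?_)⟩
    · rw [mem_fx] at h1 h3
      simpa [h1] using h3.symm
    · have := Submodule.smul_mem _ (2 : F)⁻¹ (Submodule.add_mem_sup (add_mem_fx hY v)
        (add_mem_fx (Y := -Y) (by rw [neg_mul_neg, hY]) v))
      rwa [LinearMap.neg_apply, add_add_add_comm, add_neg_cancel, add_zero, ← two_smul F,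
        inv_smul_smul₀ h2] at this
  have := Submodule.finrank_add_eq_of_isCompl this
  omega

variable (P π) in
/-- `Y` is an involution proportional to a non-scalar element `y` of `P`. -/
structure Eg (y : M) (Y : End F V) : Prop where
  mem : y ∈ P
  ne : π y ≠ 0
  sq : Y * Y = 1
  ex : ∃ l : F, Y = l • rho M y

theorem Iv.eg {y : M} (hy : Iv (rho M) P π y) : Eg P π y (rho M y) :=
  ⟨hy.mem, hy.ne, hy.sq, 1, (one_smul _ _).symm⟩

namespace Eg

variable {y : M} (hy : Eg P π y Y) (h : PD F (rho M) P π B)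
include hy h

theorem ex' : ∃ l : F, l ≠ 0 ∧ Y = l • rho M y := by
  obtain ⟨l, e⟩ := hy.ex
  exact ⟨l, fun l0 => h.nt (by rw [← hy.sq, e, l0, zero_smul, zero_mul]), e⟩

theorem comm_iff {g : M} : rho M g * Y = Y * rho M g ↔ g * y = y * g := by
  obtain ⟨l, l0, rfl⟩ := hy.ex' h
  rw [mul_smul_comm, smul_mul_assoc, (smul_right_injective _ l0).eq_iff, ← map_mul, ← map_mul,
    rho_inj.eq_iff]

theorem comm_iff' {r : M} (hr : r ∈ P) : rho M r * Y = Y * rho M r ↔ B (π r) (π y) = 0 := by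
  rw [hy.comm_iff h, h.comm_iff hr hy.mem]

theorem anti {r : M} (hr : r ∈ P) (e : B (π r) (π y) = 1) : rho M r * Y = -(Y * rho M r) := by
  obtain ⟨l, rfl⟩ := hy.ex
  rw [mul_smul_comm, smul_mul_assoc, h.comm1 r hr y hy.mem e, smul_neg]

theorem exists_ne : ∃ w : fx Y, w ≠ 0 := by
  by_contra hc
  push Not at hc
  obtain ⟨l, l0, e⟩ := hy.ex' h
  refine hy.ne ((h.ker y hy.mem).2 ⟨-l⁻¹, smul_right_injective _ l0 (LinearMap.ext fun v => ?_)⟩)
  have := congrArg Subtype.val (hc ⟨_, add_mem_fx hy.sq v⟩)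
  simpa [← e, smul_smul, l0] using eq_neg_of_add_eq_zero_right this

theorem finrank_eq [FiniteDimensional F V] : 2 * finrank F (fx Y) = finrank F V := by
  obtain ⟨w, hw⟩ := h.sy.ex_one hy.ne
  obtain ⟨x, hx, rfl⟩ := h.surj w
  exact finrank_fx h.two hy.sq x.1.injective (hy.anti h hx (h.sy.symm _ _ ▸ hw))

theorem finrank_lt [FiniteDimensional F V] : finrank F (fx Y) < finrank F V := by
  obtain ⟨w, hw⟩ := hy.exists_ne h
  have := finrank_pos_iff_exists_ne_zero (R := F).2 ⟨w, hw⟩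
  have := hy.finrank_eq h
  omega

theorem self_sc : ∃ c : F, ∀ w : fx Y, rho M y w = c • (w : V) := by
  obtain ⟨l, l0, e⟩ := hy.ex' h
  exact ⟨l⁻¹, fun w => by rw [eq_inv_smul_iff₀ l0, ← LinearMap.smul_apply, ← e, fx_app]⟩

theorem sc_iff [Finite E] {r : M} (hr : r ∈ P) :
    (∃ c : F, ∀ w : fx Y, rho M r w = c • (w : V)) ↔ π r = 0 ∨ π r = π y := by
  constructor
  · rintro ⟨c, e⟩
    by_contra hc
    push Not at hc
    obtain ⟨w, w1, w2⟩ := h.sy.ex01 hc.1 hc.2
    obtain ⟨s, hs, rfl⟩ := h.surj w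
    obtain ⟨v, v0⟩ := hy.exists_ne h
    have e1 := e ⟨_, app_mem_fx ((hy.comm_iff' h hs).2 (h.sy.symm _ _ ▸ w1)) v⟩
    have e2 := LinearMap.congr_fun (h.comm1 r hr s hs w2) v
    simp only [End.mul_apply, LinearMap.neg_apply, e1, e v, map_smul] at e2
    rw [eq_zero_of_eq_neg h.two e2] at e1
    exact v0 (Subtype.ext (s.1.injective (r.1.injective (by simpa [rho_apply] using e1))))
  · rintro (e | e)
    · obtain ⟨c, hc⟩ := (h.ker r hr).1 e
      exact ⟨c, fun w => by simp [hc]⟩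
    · obtain ⟨c, hc⟩ := h.smul_of_π hr hy.mem e
      obtain ⟨d, hd⟩ := hy.self_sc h
      exact ⟨c * d, fun w => by simp [hc, hd, smul_smul]⟩

theorem spn (hs : Spn P) : Spn (Pr P Y) := by
  obtain ⟨p, hp', hp⟩ : ∃ p : V →ₗ[F] fx Y, (∀ v, (p v : V) = (2 : F)⁻¹ • (v + Y v)) ∧
      ∀ w : fx Y, p w = w :=
    ⟨LinearMap.codRestrict _ ((2 : F)⁻¹ • (1 + Y)) fun v => Submodule.smul_mem _ _ (add_mem_fx hy.sq v),
      fun _ => rfl, fun w => Subtype.ext (by simp [fx_app, ← two_smul F, h.two])⟩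
  refine eq_top_iff.2 fun a _ => ?_
  have key : ∀ b : End F V, p ∘ₗ b ∘ₗ (fx Y).subtype ∈ Submodule.span F (rho (Mr M Y) '' Pr P Y) := by
    refine hs.ind (fun r hr => ?_) ?_ (fun b c e e' => ?_) fun c b e => ?_
    · rcases f2_cases (B (π r) (π y)) with e | e
      · have e1 := (hy.comm_iff' h hr).2 e
        obtain ⟨k, hk⟩ := exists_rs e1
        refine Submodule.subset_span ⟨k, hk.mem_Pr hr e1, LinearMap.ext fun w => ?_⟩
        rw [← hp (rho _ k w)]
        exact congrArg p (hk w)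
      · have : p ∘ₗ rho M r ∘ₗ (fx Y).subtype = 0 := LinearMap.ext fun w => Subtype.ext (by
          have := LinearMap.congr_fun (hy.anti h hr e) w
          rw [End.mul_apply, fx_app, LinearMap.neg_apply, End.mul_apply] at this
          exact (hp' _).trans (by
            change _ • (rho M r w + Y (rho M r w)) = 0
            rw [eq_neg_iff_add_eq_zero.1 this, smul_zero]))
        rw [this]
        exact Submodule.zero_mem _
    · rw [LinearMap.zero_comp, LinearMap.comp_zero]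
      exact Submodule.zero_mem _
    · rw [LinearMap.add_comp, LinearMap.comp_add]
      exact Submodule.add_mem _ e e'
    · rw [LinearMap.smul_comp, LinearMap.comp_smul]
      exact Submodule.smul_mem _ c e
  convert key ((fx Y).subtype ∘ₗ a ∘ₗ p) using 1
  exact LinearMap.ext fun w => by simp [hp]

end Eg

theorem Eg.exists_pd {V : Type v} [AddCommGroup V] [Module F V] [Finite V] {M : Subgroup (V ≃ₗ[F] V)}
    {P : Subgroup M} {π : M → E} {y : M} {Y : End F V} (hy : Eg P π y Y) (h : PD F (rho M) P π B)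
    (hs : Spn P) : ∃ (E' : Type v) (_ : AddCommGroup E') (_ : Module F2 E') (_ : Finite E')
      (π' : Mr M Y → E') (B' : E' →ₗ[F2] E' →ₗ[F2] F2), PD F (rho _) (Pr P Y) π' B' := by
  have : Finite (fx Y ≃ₗ[F] fx Y) := Finite.of_injective _ DFunLike.coe_injective
  refine C6P.exists_pd rho_inj h.two (fun e => ?_) (fun k ⟨c, e⟩ => ?_) ?_ ?_ (hy.spn h hs).cent
  · obtain ⟨w, hw⟩ := hy.exists_ne h
    exact hw (LinearMap.congr_fun e w)
  · exact ⟨1, P.one_mem, by simp, c, fun w => congrArg Subtype.val (LinearMap.congr_fun e w)⟩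
  · rintro a ⟨r, hr, -, c, e⟩ b ⟨s, hs, -, d, e'⟩
    rw [← map_mul, ← map_mul, ← one_smul F (rho _ (b * a)), ← neg_smul,
      Rs.eq_iff (k := a * b) (k' := b * a) (e.mul e') (e'.mul e),
      Rs.eq_iff (k := a * b) (k' := b * a) (e.mul e') (e'.mul e)]
    refine (f2_cases (B (π r) (π s))).imp (fun e1 w => ?_) fun e1 w => ?_
    · rw [smul_mul_smul_comm, smul_mul_smul_comm, h.comm0 r hr s hs e1, mul_comm c, one_smul]
    · rw [smul_mul_smul_comm, smul_mul_smul_comm, h.comm1 r hr s hs e1, mul_comm c]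
      simp
  · rintro a ⟨r, hr, -, c, e⟩
    obtain ⟨d, hd⟩ := h.sq_sc hr
    refine (Rs.sc_iff (k := a * a) (e.mul e)).2 ⟨c * c * d, fun w => ?_⟩
    rw [smul_mul_smul_comm, ← map_mul, hd]
    simp [smul_smul]

end Cfsg.Agent.Class.C6P
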