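import Mathlib
import Cfsg.Agent.Class.C6P.Res

/-!
Transfer of the hypotheses to an eigenspace.
-/

set_option autoImplicit false

namespace Cfsg.Agent.Class.C6P

open Module Cfsg.Agent.Class.Max

universe v

variable {F V : Type*} [Field F] [AddCommGroup V] [Module F V] {M : Subgroup (V ≃ₗ[F] V)}
  {P : Subgroup M} {E : Type*} [AddCommGroup E] [Module F2 E] {π : M → E}
  {B : E →ₗ[F2] E →ₗ[F2] F2} {Y : End F V}

variable (P π B) in
/-- The hypotheses in the linear and unitary cases. -/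
structure LU (i : F) : Prop where
  pd : PD F (rho M) P π B
  spn : Spn P
  tt : TT F (rho M) P π
  sq : i * i = -1
  j : ∃ j : M, rho M j = i • 1
  lift : ∀ u, u ≠ 0 → ∃ x, T (rho M) P π x ∧ π x = u

variable (P π) in
/-- The group contains the "transvections" themselves. -/
def T1 : Prop := ∀ x, T (rho M) P π x → ∃ (g : M) (c : F), rho M g = c • (1 + rho M x)

theorem Rs.add_one {k k' : Mr M Y} {a : End F V} {c : F} (h : Rs k.1 (c • (1 + a))) (h' : Rs k'.1 a) :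
    rho _ k = c • (1 + rho _ k') :=
  LinearMap.ext fun w => Subtype.ext (by
    simp only [rho_apply, LinearMap.smul_apply, LinearMap.add_apply, End.one_apply, Submodule.coe_smul,
      Submodule.coe_add, h w, h' w])

namespace Eg

variable {y : M} (hy : Eg P π y Y) (h : PD F (rho M) P π B)
include hy h

theorem rs_ne {k : fx Y ≃ₗ[F] fx Y} {c : F} {a : End F V} (e : Rs k (c • a)) : c ≠ 0 := fun c0 => by
  obtain ⟨w, hw⟩ := hy.exists_ne h
  exact hw (k.injective (Subtype.ext (by simp [e w, c0])))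

theorem sq_of_rs {k : Mr M Y} {x : M} (hx : x ∈ P) (e : Rs k.1 (rho M x)) {c : F} :
    rho _ k * rho _ k = c • 1 ↔ rho M x * rho M x = c • 1 := by
  obtain ⟨d, hd⟩ := h.sq_sc hx
  obtain ⟨w, hw⟩ := hy.exists_ne h
  rw [← map_mul, ← map_one (rho (Mr M Y)), Rs.eq_iff (k := k * k) (k' := 1) (a' := 1) (e.mul e) (fun _ => rfl),
    ← map_mul, hd]
  exact ⟨fun e => by rw [smul_left_injective F (fun e => hw (Subtype.ext e)) (e w)], fun e w => by rw [e]; rfl⟩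

theorem NE_of_normal {g r : M} (hg : rho M g * Y = Y * rho M g) (hr : r ∈ P)
    (e : rho M r * Y = Y * rho M r) (hN : (Pr P Y).Normal) : ∃ s ∈ P, rho M s * Y = Y * rho M s ∧
      ∃ c : F, ∀ w : fx Y, rho M (g * r * g⁻¹) w = c • rho M s w := by
  obtain ⟨k, hk⟩ := exists_rs hg
  obtain ⟨t, ht⟩ := exists_rs e
  obtain ⟨s, h1, h2, c, h3⟩ := hN.conj_mem t (ht.mem_Pr hr e) k
  exact ⟨s, h1, h2, c, fun w => ((hk.mul ht).mul hk.inv' w).symm.trans (h3 w)⟩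

variable [Finite E] {E' : Type*} [AddCommGroup E'] [Module F2 E'] {π' : Mr M Y → E'}
  {B' : E' →ₗ[F2] E' →ₗ[F2] F2} (h' : PD F (rho _) (Pr P Y) π' B')
include h'

theorem π_eq_zero {k : Mr M Y} {r : M} (hr : r ∈ P) (e : rho M r * Y = Y * rho M r) {c : F}
    (hk : Rs k.1 (c • rho M r)) : π' k = 0 ↔ π r = 0 ∨ π r = π y := by
  rw [h'.ker k ⟨r, hr, e, c, hk⟩, hk.sc_iff, ← hy.sc_iff h hr]
  have c0 := hy.rs_ne h hk
  exact ⟨fun ⟨d, e⟩ => ⟨c⁻¹ * d, fun w => by rw [mul_smul, ← e w]; simp [c0]⟩,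
    fun ⟨d, e⟩ => ⟨c * d, fun w => by simp [e w, smul_smul]⟩⟩

omit [Finite E] in
theorem B_eq {k k' : Mr M Y} {r s : M} (hr : r ∈ P) (e : rho M r * Y = Y * rho M r) {c : F}
    (hk : Rs k.1 (c • rho M r)) (hs : s ∈ P) (e' : rho M s * Y = Y * rho M s) {d : F}
    (hk' : Rs k'.1 (d • rho M s)) : B' (π' k) (π' k') = B (π r) (π s) := by
  have m : k ∈ Pr P Y := ⟨r, hr, e, c, hk⟩
  have m' : k' ∈ Pr P Y := ⟨s, hs, e', d, hk'⟩
  have q := Rs.eq_iff (k := k * k') (k' := k' * k) (hk.mul hk') (hk'.mul hk)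
  rcases f2_cases (B (π r) (π s)) with b | b <;> rw [b]
  · refine (h'.comm_iff m m').1 (rho_inj (((q 1).2 fun w => ?_).trans (one_smul _ _)))
    rw [smul_mul_smul_comm, smul_mul_smul_comm, h.comm0 r hr s hs b, mul_comm c, one_smul]
  · refine f2_ne_zero.1 fun b' => h'.neg_ne (h'.ρ_ne (k' * k)) ?_
    rw [← neg_one_smul F, ← (q (-1)).2 fun w => by
      rw [smul_mul_smul_comm, smul_mul_smul_comm, h.comm1 r hr s hs b, mul_comm c]; simp,
      (h'.comm_iff m m').2 b']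

theorem T_rs {k : Mr M Y} {x : M} (hx : x ∈ P) (e : rho M x * Y = Y * rho M x)
    (hk : Rs k.1 (rho M x)) : T (rho _) (Pr P Y) π' k ↔ T (rho M) P π x ∧ π x ≠ π y := by
  have e1 := hy.π_eq_zero h h' hx e (c := 1) (k := k) (by rwa [one_smul])
  have e2 := hy.sq_of_rs h hx hk (c := -1)
  rw [neg_one_smul F (1 : End F V), neg_one_smul F (1 : End F (fx Y))] at e2
  exact ⟨fun t => ⟨⟨hx, e2.1 t.sq, fun e => t.ne (e1.2 (Or.inl e))⟩, fun e => t.ne (e1.2 (Or.inr e))⟩,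
    fun t => ⟨hk.mem_Pr hx e, e2.2 t.1.sq, fun e => (e1.1 e).elim t.1.ne t.2⟩⟩

theorem tt (hT : TT F (rho M) P π) (hl : ∀ k, T (rho _) (Pr P Y) π' k →
    ∃ x ∈ P, rho M x * Y = Y * rho M x ∧ Rs k.1 (rho M x)) : TT F (rho _) (Pr P Y) π' := by
  intro k k' hk hk'
  obtain ⟨x, h1, h2, h3⟩ := hl k hk
  obtain ⟨x', h1', h2', h3'⟩ := hl k' hk'
  obtain ⟨g, c, hg⟩ := hT x x' ((hy.T_rs h h' h1 h2 h3).1 hk).1 ((hy.T_rs h h' h1' h2' h3').1 hk').1
  obtain ⟨t, ht⟩ := exists_rs (g := g) (Y := Y) (by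
    rw [hg, smul_mul_assoc, mul_smul_comm, mul_assoc, ← comm_add h2'.symm, ← mul_assoc,
      ← comm_add h2.symm, mul_assoc])
  refine ⟨t, c, LinearMap.ext fun w => Subtype.ext ?_⟩
  simp only [rho_apply, ht w, hg, LinearMap.smul_apply, End.mul_apply, LinearMap.add_apply,
    End.one_apply, Submodule.coe_smul, Submodule.coe_add, map_add, h3 _, h3' _]

theorem two_of_le (h4 : finrank F2 E ≤ 4) (a b : E') (e : B' a b = 0) : a = 0 ∨ b = 0 ∨ a = b := by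
  obtain ⟨k, ⟨r, hr, e1, c, hk⟩, rfl⟩ := h'.surj a
  obtain ⟨k', ⟨s, hs, e2, d, hk'⟩, rfl⟩ := h'.surj b
  rw [hy.B_eq h h' hr e1 hk hs e2 hk'] at e
  rw [← add_eq_zero (u := π' k) (v := π' k'), ← h'.mul _ ⟨r, hr, e1, c, hk⟩ _ ⟨s, hs, e2, d, hk'⟩,
    hy.π_eq_zero h h' hr e1 hk, hy.π_eq_zero h h' hs e2 hk',
    hy.π_eq_zero h h' (P.mul_mem hr hs) (ρ_mul_comm e1 e2) (c := c * d) (by
      simpa only [smul_mul_smul_comm, ← map_mul, Subgroup.coe_mul] using hk.mul hk'),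
    h.mul r hr s hs, or_iff_not_imp_left, not_or]
  intro ⟨r0, r1⟩
  have b1 := (hy.comm_iff' h hr).1 e1
  have b2 := (hy.comm_iff' h hs).1 e2
  have li : LinearIndependent F2 ![π y, π r] := LinearIndependent.pair_iff.2 fun a b e => by
    rcases f2_cases a with rfl | rfl <;> rcases f2_cases b with rfl | rfl <;>
      simp [add_eq_zero, hy.ne, r0, Ne.symm r1] at e ⊢
  have := h.sy.mem_of_lagr (W := Submodule.span F2 {π y, π r}) (fun a ha b hb => by
    rcases mem_span_two.1 ha with rfl | rfl | rfl | rfl <;>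
      rcases mem_span_two.1 hb with rfl | rfl | rfl | rfl <;> simp [h.sy.alt, b1, h.sy.symm (π y)])
    (by
      have := finrank_span_eq_card li
      rw [Matrix.range_cons_cons_empty] at this
      rw [this]; simpa using h4) (v := π s) (fun a ha => by
    rcases mem_span_two.1 ha with rfl | rfl | rfl | rfl <;> simp [e, b2, h.sy.symm (π y)])
  rcases mem_span_two.1 this with e | e | e | e <;> simp [e, add_self, add_comm (π y), add_add_cancel']

variable (hl : ∀ r ∈ P, rho M r * Y = Y * rho M r → π r ≠ 0 → π r ≠ π y → ∃ x ∈ P,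
  rho M x * rho M x = -1 ∧ rho M x * Y = Y * rho M x ∧ ∃ c : F, ∀ w : fx Y, rho M r w = c • rho M x w)
include hl

theorem lift_T {k : Mr M Y} (hk : k ∈ Pr P Y) (k0 : π' k ≠ 0) : ∃ x ∈ P, rho M x * Y = Y * rho M x ∧
    ∃ t : Mr M Y, Rs t.1 (rho M x) ∧ T (rho _) (Pr P Y) π' t ∧ π' t = π' k := by
  obtain ⟨r, hr, e, c, hk'⟩ := id hk
  have := not_or.1 (mt (hy.π_eq_zero h h' hr e hk').2 k0)
  obtain ⟨x, h1, h2, h3, d, h4⟩ := hl r hr e this.1 this.2
  obtain ⟨t, ht⟩ := exists_rs h3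
  have m := ht.mem_Pr h1 h3
  have e1 := h'.π_of_smul m (a := k) (c := c * d) ((hk'.eq_iff ht _).2 fun w => by
    simp [h4 w, smul_smul])
  exact ⟨x, h1, h3, t, ht, ⟨m, by
    rw [← neg_one_smul F, hy.sq_of_rs h h1 ht, h2, neg_one_smul], e1 ▸ k0⟩, e1.symm⟩

theorem lift_T' {k : Mr M Y} (hk : T (rho _) (Pr P Y) π' k) :
    ∃ x ∈ P, rho M x * Y = Y * rho M x ∧ Rs k.1 (rho M x) := by
  obtain ⟨x, h1, h2, t, h3, h4, h5⟩ := hy.lift_T h h' hl hk.mem hk.ne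
  obtain ⟨c, hc⟩ := h'.smul_of_π hk.mem h4.mem h5.symm
  rcases h'.sign_of_sq hc (hk.sq.trans h4.sq.symm) with rfl | rfl
  · rw [one_smul] at hc
    exact ⟨x, h1, h2, rho_inj hc ▸ h3⟩
  · obtain ⟨x', e1, e2, -⟩ := h.neg_T ((hy.T_rs h h' h1 h2 h3).1 h4).1
    exact ⟨x', e1.mem, by rw [e2, neg_mul, mul_neg, h2], fun w => by
      simpa [e2, rho_apply, h3 w] using congrArg Subtype.val (LinearMap.congr_fun hc w)⟩

theorem lu (hs : Spn P) (hT : TT F (rho M) P π) {i : F} (hi : i * i = -1) {j : M}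
    (hj : rho M j * Y = Y * rho M j) (hj' : ∀ w : fx Y, rho M j w = i • (w : V)) :
    LU (Pr P Y) π' B' i := by
  refine ⟨h', hy.spn h hs, hy.tt h h' hT fun k => hy.lift_T' h h' hl, hi, ?_, fun u hu => ?_⟩
  · obtain ⟨k, hk⟩ := exists_rs hj
    exact ⟨k, LinearMap.ext fun w => Subtype.ext ((hk w).trans (hj' w))⟩
  · obtain ⟨k, hk, rfl⟩ := h'.surj u
    obtain ⟨-, -, -, t, -, h4, h5⟩ := hy.lift_T h h' hl hk hu
    exact ⟨t, h4, h5⟩

end Eg

theorem LU.res {V : Type v} [AddCommGroup V] [Module F V] [Finite V] [Finite E]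
    {M : Subgroup (V ≃ₗ[F] V)} {P : Subgroup M} {π : M → E} {i : F} (h : LU P π B i) {y : M}
    (hy : Iv (rho M) P π y) : ∃ (E' : Type v) (_ : AddCommGroup E') (_ : Module F2 E') (_ : Finite E')
      (π' : Mr M (rho M y) → E') (B' : E' →ₗ[F2] E' →ₗ[F2] F2),
      LU (Pr P (rho M y)) π' B' i ∧ T1 (Pr P (rho M y)) π' := by
  obtain ⟨E', _, _, _, π', B', h'⟩ := hy.eg.exists_pd h.pd h.spn
  obtain ⟨j, hj⟩ := h.j
  have hl : ∀ r ∈ P, rho M r * rho M y = rho M y * rho M r → π r ≠ 0 → π r ≠ π y → ∃ x ∈ P,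
      rho M x * rho M x = -1 ∧ rho M x * rho M y = rho M y * rho M x ∧
        ∃ c : F, ∀ w : fx (rho M y), rho M r w = c • rho M x w := fun r hr e r0 _ => by
    obtain ⟨x, hx, e1⟩ := h.lift _ r0
    obtain ⟨c, hc⟩ := h.pd.smul_of_π hr hx.mem e1.symm
    exact ⟨x, hx.mem, hx.sq, (hy.eg.comm_iff' h.pd hx.mem).2 (e1 ▸ (hy.eg.comm_iff' h.pd hr).1 e), c,
      fun w => by rw [hc]; rfl⟩
  refine ⟨E', _, _, inferInstance, π', B', hy.eg.lu h.pd h' hl h.spn h.tt h.sq (j := j) (by simp [hj])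
    (fun w => by simp [hj]), fun k hk => ?_⟩
  obtain ⟨x, h1, h2, h3⟩ := hy.eg.lift_T' h.pd h' hl hk
  obtain ⟨g, c, hg⟩ := h.tt x _ ((hy.eg.T_rs h.pd h' h1 h2 h3).1 hk).1 (h.pd.j_Iv h.sq hj hy)
  rw [(h.pd.j_mul h.sq hj hy.mem).1] at hg
  obtain ⟨s, hs⟩ := exists_rs (g := g) (Y := rho M y) (by
    rw [hg, smul_mul_assoc, mul_smul_comm, mul_assoc, ← comm_add (y := i • rho M y) (by simp),
      ← mul_assoc, ← comm_add h2.symm, mul_assoc])
  refine ⟨s, c * (1 + i), Rs.add_one (fun w => ?_) h3⟩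
  simp only [hs w, hg, LinearMap.smul_apply, End.mul_apply, LinearMap.add_apply, End.one_apply,
    fx_app, map_add, map_smul]
  module

theorem LU.NE_of_normal [Finite E] {i : F} (h : LU P π B i) {y : M} (hy : Iv (rho M) P π y)
    (hN : (Pr P (rho M y)).Normal) : NE (rho M) P π y :=
  h.pd.NE_of_smul h.lift hy fun g hg r hr e => by
    obtain ⟨s, h1, h2, c, h3⟩ := hy.eg.NE_of_normal h.pd (ρ_comm hg) hr (ρ_comm e) hN
    exact ⟨s, h1, (hy.eg.comm_iff h.pd).1 h2, c, by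
      rw [← smul_mul_assoc, eq_on_fx h.pd.two hy.sq]; exact h3⟩

end Cfsg.Agent.Class.C6P
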