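import Mathlib
import Cfsg.Agent.Class.C6P.Lift

/-!
A transvection from two homologies of order four.
-/

set_option autoImplicit false

namespace Cfsg.Agent.Class.C6P

open Module Cfsg.Agent.Class.Max

variable {F V : Type*} [Field F] [AddCommGroup V] [Module F V] {M : Subgroup (V ≃ₗ[F] V)}

theorem pow_card_unip {A G : Type*} [Ring A] [Algebra F A] [Group G] {ρ : G →* A} [Fintype F] {g : G}
    {c : F} {ν : A} (hc : c ≠ 0) (hν : ν * ν = 0) (e : ρ g = c • (1 + ν)) :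
    ρ (g ^ (Fintype.card F - 1)) = 1 - ν := by
  rw [map_pow, e, smul_pow, FiniteField.pow_card_sub_one_eq_one c hc, one_smul,
    one_add_pow_of_sq (F := F) hν, Nat.cast_pred Fintype.card_pos, FiniteField.cast_card_eq_zero,
    zero_sub, neg_one_smul, sub_eq_add_neg]

theorem rank_one_of_sq {N : Matrix (Fin 2) (Fin 2) F} (h : N * N = 0) (h0 : N ≠ 0) :
    ∃ s t : Fin 2 → F, s ≠ 0 ∧ t ≠ 0 ∧ t 0 * s 0 + t 1 * s 1 = 0 ∧ ∀ j k, N j k = s j * t k := by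
  have e := fun j k => congrFun (congrFun h j) k
  have e0 := e 0 0
  have e1 := e 1 0
  have e2 := e 1 1
  simp only [Matrix.mul_apply, Fin.sum_univ_two, Matrix.zero_apply] at e0 e1 e2
  by_cases hc : N 1 0 = 0
  · have a0 : N 0 0 = 0 := by simpa [hc] using e0
    have d0 : N 1 1 = 0 := by simpa [hc] using e2
    refine ⟨![1, 0], ![0, N 0 1], by simp, fun e => h0 ?_, by simp, fun j k => ?_⟩
    · have : N 0 1 = 0 := congrFun e 1
      ext j k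
      fin_cases j <;> fin_cases k <;> simp [*]
    · fin_cases j <;> fin_cases k <;> simp [*]
  · refine ⟨![N 0 0, N 1 0], ![1, -N 0 0 / N 1 0], by simp [hc], by simp, by simp; field_simp; ring,
      fun j k => ?_⟩
    fin_cases j <;> fin_cases k <;> simp <;> grind

/-- The maps acting as a scalar on a set of vectors. -/
def scal (S : Set V) : Subgroup (V ≃ₗ[F] V) where
  carrier := {g | ∃ c : F, ∀ x ∈ S, g x = c • x}
  mul_mem' := by
    rintro a b ⟨c, h⟩ ⟨d, h'⟩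
    exact ⟨d * c, fun x hx => by rw [mul_app, h' x hx, map_smul, h x hx, smul_smul]⟩
  one_mem' := ⟨1, fun x _ => (one_smul F x).symm⟩
  inv_mem' := by
    rintro a ⟨c, h⟩
    refine ⟨c⁻¹, fun x hx => a.injective ?_⟩
    by_cases c0 : c = 0
    · rw [a.injective (show a x = a 0 by simp [h x hx, c0])]; simp
    · rw [app_inv_app, map_smul, h x hx, inv_smul_smul₀ c0]

theorem scal_pow [Fintype F] {S : Set V} {g : V ≃ₗ[F] V} (hg : g ∈ scal S) {x : V} (hx : x ∈ S) :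
    (g ^ (Fintype.card F - 1)) x = x := by
  obtain ⟨c, h⟩ := hg
  have : ∀ n : ℕ, (g ^ n) x = c ^ n • x := fun n => by
    induction n with
    | zero => simp
    | succ n ih => rw [pow_succ', mul_app, ih, map_smul, h x hx, smul_smul, pow_succ]
  by_cases c0 : c = 0
  · rw [g.injective (show g x = g 0 by simp [h x hx, c0]), map_zero]
  · rw [this, FiniteField.pow_card_sub_one_eq_one c c0, one_smul]

theorem tv_of_two_refl [Finite F] [FiniteDimensional F V] (h2 : (2 : F) ≠ 0) (h3 : (3 : F) ≠ 0) {i : F}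
    (hi : i * i = -1) {v₁ v₂ w : V} {φ₁ φ₂ ψ : Dual F V} {D₁ D₂ : V ≃ₗ[F] V} (m₁ : D₁ ∈ M) (m₂ : D₂ ∈ M)
    {l m t : F} (e11 : φ₁ v₁ = 1) (e22 : φ₂ v₂ = 1) (e12 : 4 * (φ₁ v₂ * φ₂ v₁) = 1) (e1 : φ₁ w = 0)
    (e2 : φ₂ w = 0) (e3 : ψ v₁ = 0) (e4 : ψ v₂ = 0) (e5 : ψ w = 1)
    (h₁ : ∀ x, D₁ x = l • (x + ((i - 1) * φ₁ x) • v₁ + (t * ψ x) • w))
    (h₂ : ∀ x, D₂ x = m • (x + ((i - 1) * φ₂ x) • v₂ + (t * ψ x) • w)) :
    ∃ (φ : Dual F V) (v : V), φ ≠ 0 ∧ v ≠ 0 ∧ φ v = 0 ∧ HasTv M φ v := by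
  have := Fintype.ofFinite F
  obtain ⟨a₁, a₂, a11, a12, a21, a22, ha⟩ : ∃ a₁ a₂ : Dual F V, a₁ v₁ = 1 ∧ a₁ v₂ = 0 ∧ a₂ v₁ = 0 ∧
      a₂ v₂ = 1 ∧ ∀ x, φ₁ x = a₁ x + a₂ x * φ₁ v₂ ∧ φ₂ x = a₁ x * φ₂ v₁ + a₂ x := by
    refine ⟨(4 / 3 : F) • (φ₁ - φ₁ v₂ • φ₂), (4 / 3 : F) • (φ₂ - φ₂ v₁ • φ₁), ?_, ?_, ?_, ?_,
      fun x => ⟨?_, ?_⟩⟩ <;> simp [e11, e22] <;> field_simp <;> grind
  let Q := Submodule.span F {v₁, v₂}
  have hQ : ∀ x ∈ Q, x = a₁ x • v₁ + a₂ x • v₂ := fun x hx => by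
    obtain ⟨a, b, rfl⟩ := Submodule.mem_span_pair.1 hx
    simp [*]
  let S := M ⊓ (stab Q ⊓ (scal {w} ⊓ scal {x | φ₁ x = 0 ∧ φ₂ x = 0 ∧ ψ x = 0}))
  have q1 : ∀ g : S, g.1 v₁ = a₁ (g.1 v₁) • v₁ + a₂ (g.1 v₁) • v₂ := fun g =>
    hQ _ (stab_apply g.2.2.1 (Submodule.subset_span (by simp)))
  have q2 : ∀ g : S, g.1 v₂ = a₁ (g.1 v₂) • v₁ + a₂ (g.1 v₂) • v₂ := fun g =>
    hQ _ (stab_apply g.2.2.1 (Submodule.subset_span (by simp)))
  let ρ : S →* Matrix (Fin 2) (Fin 2) F :=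
    { toFun g := !![a₁ (g.1 v₁), a₁ (g.1 v₂); a₂ (g.1 v₁), a₂ (g.1 v₂)]
      map_one' := by ext j k; fin_cases j <;> fin_cases k <;> simp [*]
      map_mul' g k := by
        rw [Subgroup.coe_mul, mul_app, mul_app, q1 k, q2 k]
        ext s t
        fin_cases s <;> fin_cases t <;> simp [a11, a12, a21, a22, mul_comm] }
  have u1 : v₁ ∈ Q := Submodule.subset_span (by simp)
  have u2 : v₂ ∈ Q := Submodule.subset_span (by simp)
  have n₁ : D₁ ∈ S := ⟨m₁, mem_stab_span_pair (by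
      simpa [h₁, e3] using Q.smul_mem _ (Q.add_mem u1 (Q.smul_mem _ u1))) (by
      simpa [h₁, e4] using Q.smul_mem _ (Q.add_mem u2 (Q.smul_mem _ u1))),
    ⟨l * (1 + t), by simp [h₁, e1, e5, mul_smul, add_smul]⟩, l, fun x hx => by simp [h₁, hx.1, hx.2.2]⟩
  have n₂ : D₂ ∈ S := ⟨m₂, mem_stab_span_pair (by
      simpa [h₂, e3] using Q.smul_mem _ (Q.add_mem u1 (Q.smul_mem _ u2))) (by
      simpa [h₂, e4] using Q.smul_mem _ (Q.add_mem u2 (Q.smul_mem _ u2))),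
    ⟨m * (1 + t), by simp [h₂, e2, e5, mul_smul, add_smul]⟩, m, fun x hx => by
      simp [h₂, hx.2.1, hx.2.2]⟩
  obtain ⟨g, c, g1, g2⟩ := two_refl h2 h3 hi ρ (a := ⟨D₁, n₁⟩) (b := ⟨D₂, n₂⟩) (l := l) (m := m) e12
    (by ext j k; fin_cases j <;> fin_cases k <;> simp [ρ, h₁, a11, a12, a21, a22, e11, e3, e4]; ring)
    (by ext j k; fin_cases j <;> fin_cases k <;> simp [ρ, h₂, a11, a12, a21, a22, e22, e3, e4]; ring)
  have c0 : c ≠ 0 := by
    rintro rfl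
    rw [zero_smul, sub_zero] at g1
    exact g2 (ρ_left_cancel (ρ := ρ) g (by rw [g1, zero_smul, mul_zero]))
  have g3 : c⁻¹ • (ρ g - c • 1) * c⁻¹ • (ρ g - c • 1) = 0 := by rw [smul_mul_smul_comm, g1, smul_zero]
  have g4 := pow_card_unip c0 g3 (ρ := ρ) (g := g) (by rw [smul_add, smul_inv_smul₀ c0, add_sub_cancel])
  obtain ⟨s, r, s0, r0, rs, e⟩ := rank_one_of_sq g3 (fun e => g2 (by
    rwa [smul_eq_zero, sub_eq_zero, inv_eq_zero, or_iff_right c0] at e))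
  have k := fun j k => congrFun (congrFun g4 j) k
  have k1 := q1 (g ^ (Fintype.card F - 1))
  have k2 := q2 (g ^ (Fintype.card F - 1))
  rw [show a₁ _ = _ from k 0 0, show a₂ _ = _ from k 1 0] at k1
  rw [show a₁ _ = _ from k 0 1, show a₂ _ = _ from k 1 1] at k2
  simp only [Matrix.sub_apply, e] at k1 k2
  refine ⟨-(r 0 • a₁ + r 1 • a₂), s 0 • v₁ + s 1 • v₂, fun e => r0 ?_, fun e => s0 ?_, ?_,
    _, (g ^ (Fintype.card F - 1)).2.1, fun x => ?_⟩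
  · ext j
    fin_cases j
    · simpa [a11, a12, a21, a22] using LinearMap.congr_fun e v₁
    · simpa [a11, a12, a21, a22] using LinearMap.congr_fun e v₂
  · ext j
    fin_cases j
    · simpa [a11, a12, a21, a22] using congrArg a₁ e
    · simpa [a11, a12, a21, a22] using congrArg a₂ e
  · simp [a11, a12, a21, a22]
    linear_combination -rs
  · have k3 := scal_pow g.2.2.2.1 (x := w) rfl
    have k4 := scal_pow g.2.2.2.2 (x := x - a₁ x • v₁ - a₂ x • v₂ - ψ x • w) ⟨by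
      simp [e11, e1, (ha x).1], by simp [e22, e2, (ha x).2], by simp [e3, e4, e5]⟩
    rw [Subgroup.coe_pow] at k1 k2 ⊢
    simp only [map_sub, map_smul, k1, k2, k3, sub_left_inj] at k4
    rw [sub_sub, sub_sub x, sub_eq_iff_eq_add] at k4
    rw [k4]
    simp
    module

end Cfsg.Agent.Class.C6P
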