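import Mathlib
import Cfsg.Agent.Class.C6P.Refl

/-!
The four-dimensional case.
-/

set_option autoImplicit false

namespace Cfsg.Agent.Class.C6P

open Module Cfsg.Agent.Class.Max

variable {F V : Type*} [Field F] [AddCommGroup V] [Module F V] {M : Subgroup (V ≃ₗ[F] V)}
  {P : Subgroup M} {E : Type*} [AddCommGroup E] [Module F2 E] {π : M → E}
  {B : E →ₗ[F2] E →ₗ[F2] F2}

theorem dual_anti (h2 : (2 : F) ≠ 0) {Y r : End F V} {φ : Dual F V} {v : V} (h1 : Y v = v)
    (h3 : ∀ x, φ (Y x) = φ x) (e : Y * r = -(r * Y)) : φ (r v) = 0 :=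
  eq_zero_of_eq_neg h2 (by
    nth_rw 1 [← h3]
    rw [← End.mul_apply, e, LinearMap.neg_apply, End.mul_apply, h1, map_neg])

variable [Finite E]

theorem Eg.two_le [FiniteDimensional F V] {y : M} {Y : End F V} (hy : Eg P π y Y)
    (h : PD F (rho M) P π B) (h3 : 3 ≤ finrank F2 E) : 2 ≤ finrank F (fx Y) := by
  by_contra hc
  obtain ⟨v, hv⟩ := finrank_le_one_iff.1 (show finrank F (fx Y) ≤ 1 by omega)
  obtain ⟨a, a0, a1, a2⟩ := h.sy.ex_perp_one [π y] (π y) h3
  obtain ⟨r, hr, rfl⟩ := h.surj a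
  have e := (hy.comm_iff' h hr).2 (h.sy.symm _ _ ▸ a2 _ (by simp))
  obtain ⟨c, hc⟩ := hv ⟨_, app_mem_fx e v⟩
  refine ((hy.sc_iff h hr).1 ⟨c, fun w => ?_⟩).elim a0 a1
  obtain ⟨d, rfl⟩ := hv w
  rw [Submodule.coe_smul, map_smul, smul_comm]
  exact congrArg _ (congrArg Subtype.val hc).symm

theorem rank_one (h : PD F (rho M) P π B) (hs : Spn P) (h4 : finrank F2 E ≤ 4) {a b : M}
    (ha : Iv (rho M) P π a) (hb : Iv (rho M) P π b) (hab : B (π a) (π b) = 0) (hne : π b ≠ π a) :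
    ∃ (v : V) (φ : Dual F V), rho M a v = v ∧ rho M b v = v ∧ (∀ x, φ (rho M a x) = φ x) ∧
      (∀ x, φ (rho M b x) = φ x) ∧ φ v = 1 ∧
      ∀ x, ((1 + rho M a) * (1 + rho M b)) x = (4 * φ x) • v := by
  have c := h.comm0 a ha.mem b hb.mem hab
  have c' : (1 + rho M a) * (1 + rho M b) = (1 + rho M b) * (1 + rho M a) :=
    comm_add (comm_add c.symm).symm
  have a1 : rho M a * (1 + rho M a) = 1 + rho M a := by rw [mul_add, ha.sq, mul_one, add_comm]
  have b1 : rho M b * (1 + rho M b) = 1 + rho M b := by rw [mul_add, hb.sq, mul_one, add_comm]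
  have e0 := h.pi_ne ha.mem ha.ne hb.mem hb.ne hne
  set ε := (1 + rho M a) * (1 + rho M b) with hε
  have a2 : rho M a * ε = ε := by rw [hε, ← mul_assoc, a1]
  have b2 : rho M b * ε = ε := by rw [c', ← mul_assoc, b1]
  have a3 : ε * rho M a = ε := by rw [c', mul_assoc, ← comm_add rfl, a1]
  have b3 : ε * rho M b = ε := by rw [hε, mul_assoc, ← comm_add rfl, b1]
  have e1 : ε * ε = (4 : F) • ε := by
    nth_rw 1 [hε]
    rw [mul_assoc, add_mul 1 (rho M b), b2, one_mul, add_mul 1 (rho M a), one_mul, mul_add, a2]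
    module
  clear_value ε
  have li : LinearIndependent F2 ![π a, π b] := LinearIndependent.pair_iff.2 fun s t e => by
    rcases f2_cases s with rfl | rfl <;> rcases f2_cases t with rfl | rfl <;>
      simp [add_eq_zero, ha.ne, hb.ne, hne.symm] at e ⊢
  have anti : ∀ y ∈ P, rho M y * ε = ε → ε * rho M y = ε → ∀ r ∈ P, B (π y) (π r) = 1 →
      ε * rho M r * ε = (0 : F) • ε := fun y hy e e' r hr k => by
    rw [zero_smul]
    refine eq_zero_of_eq_neg h.two ?_
    nth_rw 1 [← e']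
    rw [mul_assoc ε, h.comm1 y hy r hr k, mul_neg, neg_mul, mul_assoc, mul_assoc, e, mul_assoc]
  have key := hs.ind (p := fun t => ∃ c : F, ε * t * ε = c • ε) (fun r hr => by
      rcases f2_cases (B (π a) (π r)) with k | k
      swap
      · exact ⟨_, anti a ha.mem a2 a3 r hr k⟩
      rcases f2_cases (B (π b) (π r)) with k' | k'
      swap
      · exact ⟨_, anti b hb.mem b2 b3 r hr k'⟩
      have := h.sy.mem_of_lagr (W := Submodule.span F2 {π a, π b}) (fun s hs t ht => by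
        rcases mem_span_two.1 hs with rfl | rfl | rfl | rfl <;>
          rcases mem_span_two.1 ht with rfl | rfl | rfl | rfl <;>
          simp [h.sy.alt, hab, h.sy.symm (π b) (π a)]) (by
        have := finrank_span_eq_card li
        rw [Matrix.range_cons_cons_empty] at this
        rw [this]; simpa using h4) (v := π r) (fun s hs => by
        rcases mem_span_two.1 hs with rfl | rfl | rfl | rfl <;> simp [k, k'])
      have fin : ∀ s ∈ P, π r = π s → rho M s * ε = ε → ∃ c : F, ε * rho M r * ε = c • ε :=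
        fun s hs e e' => by
          obtain ⟨c, hc⟩ := h.smul_of_π hr hs e
          exact ⟨c * 4, by rw [hc, mul_assoc, smul_mul_assoc, e', mul_smul_comm, e1, smul_smul]⟩
      rcases mem_span_two.1 this with e | e | e | e
      · exact fin 1 P.one_mem (by rw [e, h.π_one]) (by simp)
      · exact fin a ha.mem e a2
      · exact fin b hb.mem e b2
      · exact fin (a * b) (P.mul_mem ha.mem hb.mem) (by rw [e, h.mul a ha.mem b hb.mem]) (by
          rw [map_mul, mul_assoc, b2, a2]))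
    ⟨0, by simp⟩ (fun s t ⟨c, e⟩ ⟨d, e'⟩ => ⟨c + d, by rw [mul_add, add_mul, e, e', add_smul]⟩)
    (fun c s ⟨d, e⟩ => ⟨c * d, by rw [mul_smul_comm, smul_mul_assoc, e, smul_smul]⟩)
  obtain ⟨v, hv⟩ := DFunLike.ne_iff.1 e0
  obtain ⟨χ, -, hχ⟩ := exists_dual_one (F := F) ⊥ hv
  have h4' : (4 : F) ≠ 0 := by rw [show (4 : F) = 2 * 2 by norm_num]; exact mul_ne_zero h.two h.two
  refine ⟨ε v, (4 : F)⁻¹ • χ ∘ₗ ε, by rw [← End.mul_apply, a2], by rw [← End.mul_apply, b2],
    fun x => by simp [← End.mul_apply, a3], fun x => by simp [← End.mul_apply, b3], by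
      simp [← End.mul_apply, e1, hχ, h4'], fun x => ?_⟩
  obtain ⟨t, rfl⟩ := exists_end (F := F) hv x
  obtain ⟨c, hc⟩ := key t
  have : ε (t (ε v)) = c • ε v := LinearMap.congr_fun hc v
  simp [this, hχ, h4']

theorem LU.exists_tv [Finite F] [FiniteDimensional F V] {i : F} (h : LU P π B i) (h3 : (3 : F) ≠ 0)
    (h4 : finrank F2 E ≤ 4) {y g r u u' : M} (hy : Iv (rho M) P π y) (hg : g * y = y * g)
    (hr : T (rho M) P π r) (hc : r * y = y * r) (s : Sp2 (rho M) P π y (g * r * g⁻¹) u u')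
    (b : B (π u) (π u') = 1) :
    ∃ (φ : Dual F V) (v : V), φ ≠ 0 ∧ v ≠ 0 ∧ φ v = 0 ∧ HasTv M φ v := by
  have d := h.pd
  have hi := h.sq
  obtain ⟨j, hj⟩ := h.j
  have hn : π r ≠ π y := fun e => by
    have := s.pl
    rw [(d.comm_π hr.mem hy.mem e).2 hg, mul_inv_cancel_right] at this
    rcases d.π_plus s.tu'.mem hr.mem hy.mem hy.ne (c := 1) (by rw [this, one_smul]) with e' | e'
    · exact s.nu' (e'.trans e)
    · exact s.tu'.ne (by rw [e', e, add_self])
  obtain ⟨y', y1, y2, y3⟩ := d.neg_Iv hy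
  obtain ⟨j1, -, j2, -⟩ := d.j_mul hi hj s.tu.mem
  obtain ⟨j3, -, j4, -⟩ := d.j_mul hi hj s.tu'.mem
  have c1 := (d.comm_iff hy.mem s.tu.mem).1 s.cu.symm
  obtain ⟨v, φ, p1, p2, p3, p4, p5, p6⟩ := rank_one d h.spn h4 hy (d.j_T hi hj s.tu')
    (j4 ▸ (d.comm_iff hy.mem s.tu'.mem).1 s.cu'.symm) (j4 ▸ s.nu')
  obtain ⟨w, ψ, q1, q2, q3, q4, q5, q6⟩ := rank_one d h.spn h4 y1 (d.j_T hi hj s.tu)
    (by rw [j2, y3, c1]) (by rw [j2, y3]; exact s.nu)
  rw [j3] at p2 p4 p6
  rw [j1] at q2 q4 q6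
  rw [y2] at q1 q3 q6
  obtain ⟨t, t1, t2, -⟩ := d.neg_T (d.T_mul_Iv hr hy hc hn)
  obtain ⟨k, hk⟩ := h.tt _ t (d.j_Iv hi hj hy) t1
  obtain ⟨c, hk'⟩ := hk.conj g
  rw [(d.comm_smul (d.j_mul hi hj hy.mem).1).2 hg, mul_inv_cancel_right, (d.j_mul hi hj hy.mem).1,
    show rho M (g * t * g⁻¹) = -(rho M (g * r * g⁻¹) * rho M y) by
      rw [← map_mul, show g * r * g⁻¹ * y = g * (r * y) * g⁻¹ by
        rw [mul_assoc, inv_comm hg]; group, map_mul, map_mul, t2, map_mul _ _ g⁻¹, map_mul _ g]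
      simp] at hk'
  have hD : (2 : F) • rho M (g * k * g⁻¹) = (4 * c) • 1 +
      (c * (i - 1)) • ((1 + rho M y) * (1 + i • rho M u')) -
      (c * (i + 1)) • ((1 + -rho M y) * (1 + i • rho M u)) := by
    have a1 := s.pl
    have a2 := s.mi
    have a3 := ρ_comm (ρ := rho M) s.cu
    have a4 := ρ_comm (ρ := rho M) s.cu'
    have a5 := hy.sq
    rw [hk']
    generalize rho M (g * r * g⁻¹) = z at *
    generalize rho M y = Y at *
    generalize rho M u = U at *
    generalize rho M u' = U' at *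
    have a6 : (2 : F) • (z * Y) = U' + U' * Y - U + U * Y := by
      rw [mul_add, mul_add] at a1
      rw [mul_sub, mul_sub] at a2
      simp only [mul_one] at a1 a2
      have : z + z * Y - (z - z * Y) = _ := congrArg₂ (· - ·) a1 a2
      calc (2 : F) • (z * Y) = z + z * Y - (z - z * Y) := by module
        _ = _ := by rw [this]; module
    have a7 : ∀ z, Y * (Y * z) = z := fun z => by rw [← mul_assoc, a5, one_mul]
    rw [smul_comm, ← mul_smul_comm, smul_add, smul_neg, a6]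
    simp only [mul_add, add_mul, mul_sub, mul_neg, neg_mul, mul_smul_comm, smul_mul_assoc, one_mul,
      mul_one, a3, a4, a7]
    match_scalars <;> grind
  have hD' : ∀ x, (g * k * g⁻¹).1 x = (2 * c) • (x + ((i - 1) * φ x) • v + ((-i - 1) * ψ x) • w) :=
    fun x => smul_right_injective V d.two (by
      have := LinearMap.congr_fun hD x
      simp only [LinearMap.smul_apply, LinearMap.add_apply, LinearMap.sub_apply, p6, q6, rho_apply,
        End.one_apply] at this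
      simp only [this]
      module)
  obtain ⟨X, X1, X2⟩ := d.sy.ex01 hy.ne s.nu.symm
  obtain ⟨X, hX, rfl⟩ := h.lift X (by rintro rfl; simp at X2)
  obtain ⟨t', t3, t4, -⟩ := d.neg_T (d.T_mul_Iv hX (d.j_T hi hj s.tu)
    ((d.comm_iff hX.mem (d.j_T hi hj s.tu).mem).2 (by rw [j2, d.sy.symm, X1]))
    (by rw [j2]; rintro e; simp [e, c1] at X2))
  obtain ⟨l, c', hl⟩ := h.tt X t' hX t3
  have hl' := d.tt_inv hl hX.sq t3.sq
  have c0 := d.tt_ne hl
  have x1 := d.comm0 u s.tu.mem X hX.mem X1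
  have x2 := d.comm1 y hy.mem X hX.mem X2
  have x3 : ∀ x, rho M X (rho M X x) = -x := LinearMap.congr_fun hX.sq
  have x4 : ∀ x, rho M u (rho M X x) = rho M X (rho M u x) := LinearMap.congr_fun x1
  rw [t4, map_mul, j1] at hl hl'
  have l1 : ∀ x, l.1 x = c' • (x + i • rho M u x + rho M X x - i • rho M X (rho M u x)) := fun x => by
    rw [← rho_apply, hl]
    simp [x3]
    module
  have l2 : ∀ x, l.1⁻¹ x = (4 * c')⁻¹ • (x + i • rho M u x - rho M X x + i • rho M X (rho M u x)) :=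
    fun x => by
      rw [← Subgroup.coe_inv, ← rho_apply, hl']
      simp [x3, x4]
      module
  have z1 : φ (rho M u v) = 0 := dual_anti d.two p2 p4 (by
    rw [smul_mul_assoc, mul_smul_comm, d.comm1 u s.tu.mem u' s.tu'.mem b, smul_neg, neg_neg])
  have z2 : φ (rho M X v) = 0 := dual_anti d.two p1 p3 x2
  have z3 : φ (rho M X (rho M u v)) = 0 := dual_anti d.two (r := rho M X * rho M u) p1 p3 (by
    rw [← mul_assoc, x2, neg_mul, mul_assoc, mul_assoc, ρ_comm s.cu])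
  have z4 : φ w = 0 := eq_zero_of_eq_neg d.two (by rw [← map_neg, ← p3 (-w), map_neg]; exact congrArg φ q1.symm)
  have z5 : ψ v = 0 := eq_zero_of_eq_neg d.two (by
    nth_rw 1 [← q3 v]
    rw [LinearMap.neg_apply, p1, map_neg])
  simp only [LinearMap.smul_apply] at q2 q4
  have z6 : l.1 w = (2 * c') • w := by
    rw [l1, ← map_smul (rho M X), q2]
    module
  have z7 : ∀ x, ψ (l.1 x) = 2 * c' * ψ x := fun x => by
    rw [l1, ← x4, map_smul, map_sub, map_add, map_add, q4, q4, smul_eq_mul]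
    ring
  have h2 := d.two
  have z8 : l.1⁻¹ w = (2 * c')⁻¹ • w := l.1.injective (by
    rw [app_inv_app, map_smul, z6, inv_smul_smul₀ (mul_ne_zero h2 c0)])
  have h4' : (4 : F) ≠ 0 := by rw [show (4 : F) = 2 * 2 by norm_num]; exact mul_ne_zero h2 h2
  obtain ⟨φ₂, hφ₂⟩ : ∃ φ₂ : Dual F V, ∀ x, φ₂ x = φ (l.1⁻¹ x) :=
    ⟨φ ∘ₗ (l.1⁻¹ : V ≃ₗ[F] V).toLinearMap, fun _ => rfl⟩
  refine tv_of_two_refl d.two h3 hi (g * k * g⁻¹).2 (l * (g * k * g⁻¹) * l⁻¹).2 (v₂ := l.1 v)
    (φ₂ := φ₂) (m := 2 * c) p5 (by rw [hφ₂, inv_app_app, p5]) ?_ z4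
    (by rw [hφ₂, z8, map_smul, z4, smul_zero])
    z5 (by rw [z7, z5, mul_zero]) q5 hD' fun x => ?_
  · rw [hφ₂, l1, l2]
    simp [z1, z2, z3, p5]
    field_simp
  · have := z7 (l.1⁻¹ x)
    rw [app_inv_app] at this
    change l.1 ((g * k * g⁻¹).1 (l.1⁻¹ x)) = _
    rw [hD', this, hφ₂]
    simp only [map_smul, map_add, app_inv_app, z6]
    module

end Cfsg.Agent.Class.C6P
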