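import Mathlib
import Cfsg.Agent.Class.C6P.Four

/-!
Transvections are impossible in the four-dimensional case.
-/

set_option autoImplicit false

namespace Cfsg.Agent.Class.C6P

open Module Cfsg.Agent.Class.Max

universe v

theorem geom_calc {F : Type*} [Field F] (h2 : (2 : F) ≠ 0) {n m s : F} (hn : n ≠ 0)
    (b0 : 1 - (n * s) ^ 2 ≠ 0) (hm : 2 * n = m * (1 - (n * s) ^ 2))
    (h : 1 + (1 + m * (1 + n * s) * s) + (1 + m * (1 + n * s) * s) ^ 2 + (1 + m * (1 + n * s) * s) ^ 3 = 0 ∨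
      1 + (1 + m * (1 + n * s) * s) + (1 + m * (1 + n * s) * s) ^ 2 = 0) :
    (n * s) ^ 2 = -1 ∨ (n * s) ^ 2 = -3 := by
  have b1 : 1 - n * s ≠ 0 := fun e => b0 (by linear_combination (1 + n * s) * e)
  have e : 1 + m * (1 + n * s) * s = (1 + n * s) / (1 - n * s) := by
    rw [eq_div_iff b1]; linear_combination (-s) * hm
  rw [e] at h
  refine h.imp (fun h => mul_left_cancel₀ (mul_ne_zero h2 h2) ?_) fun h => ?_ <;> field_simp at h
  · linear_combination h
  · linear_combination h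

theorem sq_calc {F : Type*} [Field F] (h2 : (2 : F) ≠ 0) (h3 : (3 : F) ≠ 0) {s : F}
    (k1 : (1 * s) ^ 2 = -1 ∨ (1 * s) ^ 2 = -3) (k2 : (2 * s) ^ 2 = -1 ∨ (2 * s) ^ 2 = -3)
    (k3 : (3 * s) ^ 2 = -1 ∨ (3 * s) ^ 2 = -3) : False := by
  rcases k1 with k1 | k1 <;> rcases k2 with k2 | k2
  · exact h3 (by linear_combination 4 * k1 - k2)
  · exact one_ne_zero (α := F) (by linear_combination 4 * k1 - k2)
  · rcases k3 with k3 | k3
    · exact mul_ne_zero h2 h2 (by linear_combination k1 - k3 + 2 * k2)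
    · exact h2 (by linear_combination k1 - k3 + 2 * k2)
  · exact mul_ne_zero h3 h3 (by linear_combination 4 * k1 - k2)

section Tv

variable {F V : Type*} [Field F] [AddCommGroup V] [Module F V] {M : Subgroup (V ≃ₗ[F] V)}
  {φ : Dual F V} {v : V}

theorem tv_nat (hφ : φ v = 0) (h : HasTv M φ v) (n : ℕ) : HasTv M ((n : F) • φ) v := by
  induction n with
  | zero => simpa using hasTv_zero_left v
  | succ n ih => rw [Nat.cast_succ, add_smul, one_smul]; exact ih.add_left (by simp [hφ]) h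

theorem tv_prime (hp : ∀ a : F, ∃ n : ℕ, a = n) (hφ : φ v = 0) (h : HasTv M φ v) (a : F) :
    HasTv M (a • φ) v := by
  obtain ⟨n, rfl⟩ := hp a
  exact tv_nat hφ h n

theorem tv_conj_inv (h : HasTv M φ v) {y : M} (hy : rho M y * rho M y = 1) :
    HasTv M (φ ∘ₗ rho M y) (rho M y v) :=
  (h.conj y.2).congr fun x => by
    have : y.1⁻¹ x = rho M y x := y.1.injective (by
      rw [app_inv_app]; exact (LinearMap.congr_fun hy x).symm)
    exact congrArg (fun z => φ z • y.1 v) this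

end Tv

variable {F : Type*} {V : Type v} [Field F] [AddCommGroup V] [Module F V] {M : Subgroup (V ≃ₗ[F] V)}
  {P : Subgroup M} {E : Type*} [AddCommGroup E] [Module F2 E] {π : M → E}
  {B : E →ₗ[F2] E →ₗ[F2] F2} [Finite E] {i : F} (h : LU P π B i) (h3 : 3 ≤ finrank F2 E)

namespace LU
include h h3

theorem exists_not_eig {y : M} (hy : y ∈ P) {v : V} (hv : v ≠ 0) :
    ∃ z, Iv (rho M) P π z ∧ z * y = y * z ∧ ∀ c : F, rho M z v ≠ c • v := by
  have d := h.pd
  obtain ⟨j, hj⟩ := h.j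
  obtain ⟨a, a0, a1, a2⟩ := d.sy.ex_perp_one [π y] (π y) h3
  obtain ⟨b, b1, b2⟩ := d.sy.ex01 a0 a1
  obtain ⟨a, ha, rfl⟩ := h.lift a a0
  obtain ⟨b, hb, rfl⟩ := h.lift b (by rintro rfl; simp at b2)
  have ha' := d.j_T h.sq hj ha
  have hb' := d.j_T h.sq hj hb
  have ea := (d.j_mul h.sq hj ha.mem).2.2.1
  have eb := (d.j_mul h.sq hj hb.mem).2.2.1
  by_contra hc
  push Not at hc
  obtain ⟨c, hc1⟩ := hc _ ha' ((d.comm_iff ha'.mem hy).2 (by rw [ea, d.sy.symm]; exact a2 _ (by simp)))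
  obtain ⟨c', hc2⟩ := hc _ hb' ((d.comm_iff hb'.mem hy).2 (by rw [eb, d.sy.symm, b1]))
  have := LinearMap.congr_fun (d.comm1 _ ha'.mem _ hb'.mem (by rw [ea, eb, b2])) v
  rw [LinearMap.neg_apply, End.mul_apply, End.mul_apply, hc1, hc2, map_smul, map_smul, hc1, hc2,
    smul_comm] at this
  have e := eq_zero_of_eq_neg d.two this
  have e' : rho M (j * a * (j * b)) v = 0 := by
    rw [map_mul, End.mul_apply, hc2, map_smul, hc1, smul_comm, e]
  exact hv ((j * a * (j * b)).1.injective (by rw [map_zero]; exact e'))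

variable [Finite V] [FiniteDimensional F V] (h4 : finrank F2 E ≤ 4)
include h4

theorem geom {y : M} (hy : Iv (rho M) P π y) (hN : (Pr P (rho M y)).Normal) {g : M}
    (hg : g * y = y * g) {χ : Dual F V} {e : V} (he : rho M y e = e) (e0 : e ≠ 0)
    (hg' : ∀ w, rho M y w = w → g.1 w = w + χ w • e) {w : V} (hw : rho M y w = w) (hχ : χ w ≠ 0) :
    1 + (1 + χ e) + (1 + χ e) ^ 2 + (1 + χ e) ^ 3 = 0 ∨ 1 + (1 + χ e) + (1 + χ e) ^ 2 = 0 := by
  obtain ⟨E', _, _, _, π', B', h', -⟩ := h.res hy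
  obtain ⟨k, hk⟩ := exists_rs (ρ_comm (ρ := rho M) hg)
  obtain ⟨w₀, w1, w2, w3⟩ := exists_ne_zero_ker [χ] (fx (rho M y)) (hy.eg.two_le h.pd h3)
  have e1 : ∀ n : ℕ, ∀ w, rho M y w = w →
      (g ^ n).1 w = w + ((∑ j ∈ Finset.range n, (1 + χ e) ^ j) * χ w) • e := fun n w hw => by
    induction n with
    | zero => simp
    | succ n ih =>
      rw [pow_succ', Subgroup.coe_mul, mul_app, ih, map_add, map_smul, hg' w hw, hg' e he, geom_sum_succ]
      module
  have e2 : ∀ n : ℕ, Rs (k ^ n).1 (rho M (g ^ n)) := fun n => by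
    induction n with
    | zero => exact fun _ => rfl
    | succ n ih => rw [pow_succ, pow_succ, map_mul]; exact ih.mul hk
  have e3 : ∀ n : ℕ, Sc F (rho _) (k ^ n) → ∑ j ∈ Finset.range n, (1 + χ e) ^ j = 0 := fun n hn => by
    obtain ⟨c, hc⟩ := (e2 n).sc_iff.1 hn
    have a1 := hc ⟨w₀, w1⟩
    have a2 := hc ⟨w, mem_fx.2 hw⟩
    rw [rho_apply, e1 n _ (mem_fx.1 w1), w3 χ (by simp), mul_zero, zero_smul, add_zero] at a1
    obtain rfl : 1 = c := smul_left_injective F w2 (by simpa using a1)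
    rw [rho_apply, e1 n _ hw] at a2
    simpa [e0, hχ] using a2
  simpa [Finset.sum_range_succ] using
    (h'.pd.pow_sc (hy.eg.two_of_le h.pd h'.pd h4) k).imp (e3 4) (e3 3)

variable (hN : ∀ y, Iv (rho M) P π y → (Pr P (rho M y)).Normal) (c3 : (3 : F) ≠ 0)
include hN c3

theorem eig_of_tv {φ : Dual F V} {v : V} (φ0 : φ ≠ 0) (hφ : φ v = 0) (ht : HasTv M φ v) {y : M}
    (hy : Iv (rho M) P π y) (e : φ (rho M y v) = 0) : ∃ c : F, rho M y v = c • v := by
  have d := h.pd
  by_contra hc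
  push Not at hc
  obtain ⟨x, hx⟩ := DFunLike.ne_iff.1 φ0
  wlog hx' : φ (x + rho M y x) ≠ 0 generalizing y
  · obtain ⟨y', y1, y2, -⟩ := d.neg_Iv hy
    refine this y1 (by simp [y2, e]) (fun c e => hc (-c) (by rw [neg_smul, ← e, y2]; simp)) fun e => hx ?_
    rw [not_not, map_add] at hx'
    rw [y2, LinearMap.neg_apply, map_add, map_neg] at e
    exact (mul_eq_zero.1 (show 2 * φ x = 0 by linear_combination e + hx')).resolve_left d.two
  have a0 : ∀ x, rho M y (rho M y x) = x := LinearMap.congr_fun hy.sq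
  obtain ⟨a, a1, a2⟩ := ht
  obtain ⟨b, b1, b2⟩ := tv_conj_inv ⟨a, a1, a2⟩ hy.sq
  have a3 : ∀ x, (a * b) x = x + φ x • v + φ (rho M y x) • rho M y v := fun x => by
    simp [mul_app, a2, b2, e]
    module
  have := h.geom h3 h4 hy (hN y hy) (g := ⟨a * b, M.mul_mem a1 b1⟩) (χ := φ) (e := v + rho M y v)
    (Subtype.ext (LinearEquiv.ext fun x => by
      change (a * b) (rho M y x) = rho M y ((a * b) x)
      simp [a3, a0]
      module)) (by rw [map_add, a0, add_comm])
    (fun e => hc (-1) (by rw [neg_one_smul]; exact eq_neg_of_add_eq_zero_right e))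
    (fun w hw => by rw [a3, hw]; module) (w := x + rho M y x) (by rw [map_add, a0, add_comm]) hx'
  simp only [map_add, hφ, e] at this
  exact this.elim (fun e => mul_ne_zero d.two d.two (by linear_combination e))
    fun e => c3 (by linear_combination e)

theorem not_tv_lin (hp : ∀ a : F, ∃ n : ℕ, a = n) {φ : Dual F V} {v : V} (φ0 : φ ≠ 0) (v0 : v ≠ 0)
    (hφ : φ v = 0) (ht : HasTv M φ v) : False := by
  obtain ⟨y, hy, -, y1⟩ := h.exists_not_eig h3 P.one_mem v0
  have a0 : ∀ x, rho M y (rho M y x) = x := LinearMap.congr_fun hy.sq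
  have s0 : φ (rho M y v) ≠ 0 := fun e => (h.eig_of_tv h3 h4 hN c3 φ0 hφ ht hy e).elim y1
  obtain ⟨a, a1, a2⟩ := tv_prime hp hφ ht (φ (rho M y v))⁻¹
  have a3 : ∀ x, a⁻¹ x = x - ((φ (rho M y v))⁻¹ * φ x) • v := fun x => a.injective (by
    rw [app_inv_app, a2]; simp [hφ])
  have t : HasTv M (φ ∘ₗ rho M y - φ) (v + rho M y v) := ((tv_conj_inv ht hy.sq).conj a1).congr
    fun x => by
      change φ (rho M y (a⁻¹ x)) • a (rho M y v) = _
      rw [a3, a2]
      simp [s0, ← mul_assoc, mul_comm (φ (rho M y v))⁻¹, add_comm]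
  obtain ⟨z, hz, z1, z2⟩ := h.exists_not_eig h3 hy.mem (v := v + rho M y v)
    (fun e => y1 (-1) (by rw [neg_one_smul]; exact eq_neg_of_add_eq_zero_right e))
  refine (h.eig_of_tv h3 h4 hN c3 (fun e => s0 ?_) (by simp [a0, hφ]) t hz ?_).elim z2
  · simpa [hφ] using LinearMap.congr_fun e v
  · have : ∀ x, rho M y (rho M z x) = rho M z (rho M y x) :=
      LinearMap.congr_fun (ρ_comm (ρ := rho M) z1.symm)
    simp [this, a0, add_comm]

theorem not_tv_uni {Φ : Fm F V} (hM : M ≤ Φ.Iso) (hp : ∀ a : F, Φ.σ a = a → ∃ n : ℕ, a = n)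
    {φ : Dual F V} {v : V} (φ0 : φ ≠ 0) (v0 : v ≠ 0) (hφ : φ v = 0) (ht : HasTv M φ v) : False := by
  have h2 := h.pd.two
  obtain ⟨y, hy, -, y1⟩ := h.exists_not_eig h3 P.one_mem v0
  have a0 : ∀ x, rho M y (rho M y x) = x := LinearMap.congr_fun hy.sq
  obtain ⟨s, hs⟩ : ∃ s, φ (rho M y v) = s := ⟨_, rfl⟩
  have s0 : s ≠ 0 := fun e => (h.eig_of_tv h3 h4 hN c3 φ0 hφ ht hy (hs.trans e)).elim y1
  have s1 : Φ.σ s = -s := by
    obtain ⟨a, a1, a2⟩ := ht
    have e := Fm.Iso.B (hM a1)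
    have e0 : Φ.B v v = 0 := by
      have := e v (rho M y v)
      simpa [a2, hφ, hs, s0] using this
    have e1 : ∀ x, s * Φ.B x v + Φ.σ (φ x) * Φ.B v (rho M y v) = 0 := fun x => by
      have := e x (rho M y v)
      simp only [a2, hs, Φ.bsimp, e0] at this
      linear_combination this
    have e2 : Φ.B (rho M y v) v = Φ.B v (rho M y v) := by
      rw [← Fm.Iso.B (hM y.2), ← rho_apply, a0, rho_apply]
    have e3 := e1 (rho M y v)
    by_cases e4 : Φ.B v (rho M y v) = 0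
    · obtain ⟨x, hx⟩ := Φ.exists_B_ne v0
      exact (Φ.ne_symm hx (by simpa [e4, s0] using e1 x)).elim
    · rw [e2, hs, ← add_mul] at e3
      exact eq_neg_of_add_eq_zero_right ((mul_eq_zero.1 e3).resolve_right e4)
  have key : ∀ n : ℕ, (n : F) ≠ 0 → (n * s) ^ 2 = -1 ∨ (n * s) ^ 2 = -3 := fun n hn => by
    have b0 : 1 - (n * s) ^ 2 ≠ 0 := fun e => by
      have e1 : Φ.σ (n * s) = -(n * s) := by simp [s1]
      rcases sq_eq_one_iff.1 (sub_eq_zero.1 e).symm with e | e <;>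
        simp only [e, map_neg, map_one] at e1 <;> exact h2 (by grind)
    obtain ⟨m, hm⟩ := hp (2 * n / (1 - (n * s) ^ 2)) (by simp [s1, map_ofNat])
    rw [div_eq_iff b0] at hm
    obtain ⟨a, a1, a2⟩ := tv_nat hφ ht n
    obtain ⟨b, b1, b2⟩ := tv_nat (by simp [a0, hφ]) (tv_conj_inv ht hy.sq) m
    have a3 : ∀ x, (a * b * a) x = x + (m * φ x + m * (n * s) * φ (rho M y x)) • v +
        (m * φ (rho M y x) + m * (n * s) * φ x) • rho M y v := fun x => by
      simp only [mul_app, a2, b2, LinearMap.smul_apply, LinearMap.comp_apply, map_add, map_smul, hs,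
        hφ, smul_eq_mul]
      match_scalars <;> grind
    have b3 : (m * (1 + n * s) : F) ≠ 0 := mul_ne_zero (fun e => mul_ne_zero h2 hn (by rw [hm, e, zero_mul]))
      fun e => b0 (by linear_combination (1 - n * s) * e)
    have := h.geom h3 h4 hy (hN y hy) (g := ⟨a * b * a, M.mul_mem (M.mul_mem a1 b1) a1⟩)
      (χ := (m * (1 + n * s) : F) • φ) (e := v + rho M y v)
      (Subtype.ext (LinearEquiv.ext fun x => by
        change (a * b * a) (rho M y x) = rho M y ((a * b * a) x)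
        simp only [a3, a0, map_add, map_smul]
        module)) (by rw [map_add, a0, add_comm])
      (fun e => y1 (-1) (by rw [neg_one_smul]; exact eq_neg_of_add_eq_zero_right e))
      (fun w hw => by rw [a3, hw, LinearMap.smul_apply, smul_eq_mul]; module)
      (w := v + rho M y v) (by rw [map_add, a0, add_comm]) (by simp [hφ, hs, s0, b3])
    simp only [LinearMap.smul_apply, map_add, hφ, hs, smul_eq_mul, mul_zero, zero_add] at this
    exact geom_calc h2 hn b0 hm this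
  have k1 := key 1 (by simp)
  have k2 := key 2 (by simpa using h2)
  have k3 := key 3 (by simpa using c3)
  push_cast at k1 k2 k3
  exact sq_calc h2 c3 k1 k2 k3

end LU

end Cfsg.Agent.Class.C6P
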