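import Mathlib
import Cfsg.Agent.Class.C6P.Jay

/-!
The linear case.
-/

set_option autoImplicit false

namespace Cfsg.Agent.Class.C6P

open Module Cfsg.Agent.Class.Max

universe v

theorem PD.exists_ctrl {F A G E : Type*} [Field F] [Ring A] [Algebra F A] [Group G] [AddCommGroup E]
    [Module F2 E] {ρ : G →* A} {P : Subgroup G} {π : G → E} {B : E →ₗ[F2] E →ₗ[F2] F2}
    (h : PD F ρ P π B) (hT : TT F ρ P π) {y u : G} (hy : Iv ρ P π y) (hu : T ρ P π u)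
    (e : u * y = y * u) (e' : π u ≠ π y) : ∃ (D : G) (c : F), D * y = y * D ∧
      ρ D * (1 + ρ y) = c • (ρ u * (1 + ρ y)) ∧ ρ D * (1 - ρ y) = c • (1 - ρ y) := by
  have t := h.T_mul_Iv hu hy e e'
  obtain ⟨D, c, hD⟩ := hT u _ hu t
  have a1 := hy.sq
  have a2 : ∀ a, ρ u * (ρ u * a) = -a := fun a => by rw [← mul_assoc, hu.sq, neg_one_mul]
  have a3 : ∀ a, ρ y * (ρ y * a) = a := fun a => by rw [← mul_assoc, a1, one_mul]
  refine ⟨D, 2 * c, (h.tt_conj ⟨c, hD⟩ hu t hy.mem).2.2 ((h.comm_iff hu.mem hy.mem).1 e)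
    ((h.comm_iff t.mem hy.mem).1 (by rw [mul_assoc, ← mul_assoc y, ← e, mul_assoc])), ?_, ?_⟩ <;>
    simp only [hD, map_mul, smul_mul_assoc, add_mul, mul_add, mul_sub, mul_assoc, a1, a2, a3, hu.sq,
      one_mul, mul_one, neg_mul] <;> module

section Lin

variable {F V : Type*} [Field F] [AddCommGroup V] [Module F V] {M N K : Subgroup (V ≃ₗ[F] V)}
  [FiniteDimensional F V]

theorem eq_smul_of_two (h2 : finrank F V ≤ 2) {W : Submodule F V} (hW : W ≠ ⊤) {v x : V} (hv : v ∈ W)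
    (v0 : v ≠ 0) (hx : x ∈ W) : ∃ c : F, x = c • v := by
  have := Submodule.finrank_lt hW
  obtain ⟨u, hu⟩ := finrank_le_one_iff.1 (show finrank F W ≤ 1 by omega)
  obtain ⟨a, ha⟩ := hu ⟨v, hv⟩
  obtain ⟨b, hb⟩ := hu ⟨x, hx⟩
  obtain rfl : a • u.1 = v := congrArg Subtype.val ha
  obtain rfl : b • u.1 = x := congrArg Subtype.val hb
  exact ⟨b / a, by rw [smul_smul, div_mul_cancel₀ _ (left_ne_zero_of_smul v0)]⟩

theorem tv_of_sq (h2 : finrank F V ≤ 2) {ν : End F V} (hν : ν * ν = 0) (ν0 : ν ≠ 0) :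
    ∃ (φ : Dual F V) (v : V), φ ≠ 0 ∧ v ≠ 0 ∧ φ v = 0 ∧ ∀ x, ν x = φ x • v := by
  obtain ⟨w, hw⟩ := DFunLike.ne_iff.1 ν0
  obtain ⟨χ, -, hχ⟩ := exists_dual_one (F := F) ⊥ hw
  have e : ∀ x, ν x ∈ LinearMap.ker ν := LinearMap.congr_fun hν
  refine ⟨χ ∘ₗ ν, ν w, fun e => by simpa [hχ] using LinearMap.congr_fun e w, hw,
    by rw [LinearMap.comp_apply, e w, map_zero], fun x => ?_⟩
  obtain ⟨c, hc⟩ := eq_smul_of_two h2 (mt LinearMap.ker_eq_top.1 ν0) (e w) hw (e x)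
  simp [hc, hχ]

omit [FiniteDimensional F V] in
theorem tv_conj_norm {φ : Dual F V} {v : V} (h : HasTv N φ v) {g : V ≃ₗ[F] V}
    (hg : ∀ n ∈ N, g * n * g⁻¹ ∈ N) : HasTv N (φ ∘ₗ (g⁻¹ : V ≃ₗ[F] V).toLinearMap) (g v) := by
  obtain ⟨n, hn, e⟩ := h
  exact ⟨_, hg n hn, fun x => by rw [mul_app, mul_app, e, map_add, map_smul, app_inv_app]; rfl⟩

theorem SLV_le_of_irr' (hK : Irr K) (hN : ∀ g ∈ K, ∀ n ∈ N, g * n * g⁻¹ ∈ N) {v : V} (v0 : v ≠ 0)
    (hv : v ∈ elations N) : SLV F V ≤ N := by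
  refine SLV_le_of_elations_eq_top ((hK (elations N) fun g hg v hv φ hφ => ?_).resolve_left
    fun e => v0 (by simpa [e] using hv))
  exact (tv_conj_norm (hv (φ ∘ₗ g.toLinearMap) hφ) (hN g hg)).congr fun x => by simp

theorem SLV_le_of_norm (hp : ∀ a : F, ∃ n : ℕ, a = n) (hK : Irr K)
    (hN : ∀ g ∈ K, ∀ n ∈ N, g * n * g⁻¹ ∈ N) (h2 : finrank F V ≤ 2 ∨ SLV F V ≤ K) {φ : Dual F V} {v : V}
    (φ0 : φ ≠ 0) (v0 : v ≠ 0) (hφ : φ v = 0) (ht : HasTv N φ v) : SLV F V ≤ N := by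
  refine SLV_le_of_irr' hK hN v0 fun ψ hψ => ?_
  obtain ⟨x, hx⟩ := DFunLike.ne_iff.1 φ0
  obtain ⟨w, hw⟩ : ∃ w, φ w = 1 := ⟨(φ x)⁻¹ • x, by simpa using inv_mul_cancel₀ hx⟩
  rcases h2 with h2 | h2
  · refine (tv_prime hp hφ ht (ψ w)).congr fun x => ?_
    obtain ⟨c, hc⟩ := eq_smul_of_two h2 (mt LinearMap.ker_eq_top.1 φ0) hφ v0
      (x := x - φ x • w) (by simp [hw])
    have := congrArg ψ hc
    simp only [map_sub, map_smul, hψ, smul_eq_mul, mul_zero, sub_eq_zero] at this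
    rw [this, LinearMap.smul_apply, smul_eq_mul, mul_comm]
  · obtain ⟨g, hg, e⟩ := hasTv_SLV (φ := ψ w • φ - ψ) (v := w) (by simp [hw])
    have e' : ∀ x, g x = x + (ψ w * φ x - ψ x) • w := e
    have t := tv_conj_norm ht (hN _ (K.inv_mem (h2 hg)))
    rw [inv_inv, show g⁻¹ v = v from g.injective (by rw [app_inv_app]; simp [e', hφ, hψ])] at t
    exact ((tv_prime hp hφ ht (1 + ψ w)).add_left (by simp [hφ])
      (t.neg_left (by simp [e', hφ, hψ]))).congr fun x => by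
        simp only [LinearMap.add_apply, LinearMap.smul_apply, LinearMap.neg_apply, LinearMap.comp_apply,
          LinearEquiv.coe_coe, e', map_add, map_smul, hw, smul_eq_mul]
        congr 1
        ring

theorem SLV_le_of_comm (hp : ∀ a : F, ∃ n : ℕ, a = n) (h2 : (2 : F) ≠ 0) {i : F} (hi : i * i = -1)
    (hK : SLV F V ≤ K) (hN : ∀ g ∈ K, ∀ n ∈ N, g * n * g⁻¹ ∈ N) {t : V ≃ₗ[F] V}
    (ht : ∀ x, t (t x) = -x) (hs : ∀ c : F, ∃ x, t x ≠ c • x) (hc : ∀ k ∈ K, k * t * k⁻¹ * t⁻¹ ∈ N) :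
    SLV F V ≤ N := by
  obtain ⟨v, hv⟩ := hs (-i)
  obtain ⟨x, hx⟩ := hs i
  obtain ⟨χ, -, hχ⟩ := exists_dual_one (F := F) ⊥ (sub_ne_zero.2 hx)
  obtain ⟨φ, hφ⟩ : ∃ φ : Dual F V, ∀ x, φ x = χ (t x) - i * χ x :=
    ⟨χ ∘ₗ t.toLinearMap - i • χ, fun _ => rfl⟩
  have e1 : t (t v + i • v) = i • (t v + i • v) := by
    rw [map_add, map_smul, ht, smul_add, smul_smul, hi]; module
  have e0 : t v + i • v ≠ 0 := fun e => hv (by rw [neg_smul]; exact eq_neg_of_add_eq_zero_left e)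
  generalize t v + i • v = w at e0 e1
  have e2 : ∀ x, φ (t x) = -i * φ x := fun x => by
    rw [hφ, hφ, ht, map_neg]; linear_combination (-χ x) * hi
  have e3 : φ w = 0 := by simp [hφ, e1]
  obtain ⟨k, hk, e⟩ := hasTv_SLV e3
  refine SLV_le_of_norm hp (irr_SLV.mono hK) hN (Or.inr hK) (φ := (2 : F) • φ)
    (smul_ne_zero h2 fun e => by
      rw [map_sub, map_smul, smul_eq_mul, ← hφ, e] at hχ
      exact zero_ne_one hχ)
    e0 (by simp [e3]) ⟨_, hc k (hK hk), fun z => ?_⟩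
  obtain ⟨z, rfl⟩ := t.surjective z
  rw [mul_app, mul_app, mul_app, inv_app_app, show k⁻¹ z = z - φ z • w from k.injective (by
    rw [app_inv_app, e]; simp [e3]), e]
  simp only [map_sub, map_smul, e1, e2, e3, LinearMap.smul_apply, smul_eq_mul]
  module

end Lin

variable {F : Type*} {V : Type v} [Field F] [AddCommGroup V] [Module F V] {M : Subgroup (V ≃ₗ[F] V)}
  {P : Subgroup M} {E : Type*} [AddCommGroup E] [Module F2 E] {π : M → E}
  {B : E →ₗ[F2] E →ₗ[F2] F2}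

theorem Nr_ext (h2 : (2 : F) ≠ 0) {Y : End F V} (hY : Y * Y = 1) {k : fx Y ≃ₗ[F] fx Y}
    (hk : k ∈ Nr M Y) {a : End F V} (e : Rs k a) (e' : ∀ x, Y x = -x → a x = x) :
    ∃ g ∈ M, ∀ x, g x = a x := by
  obtain ⟨g, -, g1, g2⟩ := hk
  refine ⟨g, g.2, LinearMap.congr_fun (eq_of_pm h2 (a := rho M g) (y := Y)
    ((eq_on_fx h2 hY).2 fun w => by rw [← g1, e]) (g2.trans (LinearMap.ext fun x => ?_)))⟩
  exact (e' _ (by simp [← End.mul_apply, hY])).symm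

theorem PD.comm_mem_Nr (h : PD F (rho M) P π B) (hT : TT F (rho M) P π) {y u : M}
    (hy : Iv (rho M) P π y) (hu : T (rho M) P π u) (e : u * y = y * u) (e' : π u ≠ π y)
    {k t : fx (rho M y) ≃ₗ[F] fx (rho M y)} (hk : k ∈ Mr M (rho M y)) {a : F}
    (ht : Rs t (a • rho M u)) :
    k * t * k⁻¹ * t⁻¹ ∈ Nr M (rho M y) := by
  obtain ⟨D, c, d1, d2, d3⟩ := h.exists_ctrl hT hy hu e e'
  obtain ⟨g, g1, g2⟩ := hk
  obtain ⟨t', ht'⟩ := exists_rs (ρ_comm (ρ := rho M) d1)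
  have d4 := ρ_comm (ρ := rho M) d1
  have e1 : ∀ w, t'.1 w = (c * a⁻¹) • t w := fun w => Subtype.ext (by
    rw [ht', Submodule.coe_smul, ht, LinearMap.smul_apply, mul_smul, inv_smul_smul₀ (hy.eg.rs_ne h ht)]
    exact (eq_on_fx h.two hy.sq).1 (d2.trans (smul_mul_assoc ..).symm) w)
  have e2 : k * t * k⁻¹ * t⁻¹ = k * t' * k⁻¹ * t'⁻¹ := LinearEquiv.ext fun w => by
    obtain ⟨w, rfl⟩ := t'.1.surjective w
    simp only [mul_app, Subgroup.coe_inv, inv_app_app]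
    simp only [e1, map_smul, inv_app_app]
  refine e2 ▸ ⟨g * D * g⁻¹ * D⁻¹, ρ_mul_comm (ρ_mul_comm (ρ_mul_comm g1 d4) (ρ_inv_comm g1))
    (ρ_inv_comm d4), by
      simpa only [map_mul, Subgroup.coe_inv] using ((g2.mul ht').mul g2.inv').mul ht'.inv', ?_⟩
  have d5 : rho M (g * D * g⁻¹) * (1 - rho M y) = rho M D * (1 - rho M y) := by
    rw [conj_eig (b := c • 1) (comm_sub g1) (by rw [d3, smul_mul_assoc, one_mul]), d3]
    simp [ρ_mul_inv]
  rw [map_mul, mul_assoc, comm_sub (ρ_inv_comm d4), ← mul_assoc, d5, comm_sub d4, mul_assoc, ρ_mul_inv,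
    mul_one]

variable [Finite E] [FiniteDimensional F V] {i : F} (h : LU P π B i) (h3 : 3 ≤ finrank F2 E)
include h h3

theorem LU.exists_uX {y : M} (hy : Iv (rho M) P π y) {a : E} (a0 : a ≠ 0) (a1 : a ≠ π y)
    (a2 : B (π y) a = 0) : ∃ u X, T (rho M) P π u ∧ T (rho M) P π X ∧ π u = a ∧ u * y = y * u ∧
      u * X = X * u ∧ rho M y * rho M X = -(rho M X * rho M y) := by
  obtain ⟨b, b1, b2⟩ := h.pd.sy.ex01 hy.ne a1.symm
  obtain ⟨u, hu, rfl⟩ := h.lift a a0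
  obtain ⟨X, hX, rfl⟩ := h.lift b (by rintro rfl; simp at b2)
  exact ⟨u, X, hu, hX, rfl, ((h.pd.comm_iff hy.mem hu.mem).2 a2).symm,
    (h.pd.comm_iff hu.mem hX.mem).2 b1, h.pd.comm1 _ hy.mem _ hX.mem b2⟩

theorem LU.big_lin (hp : ∀ a : F, ∃ n : ℕ, a = n) {y : M} (hy : Iv (rho M) P π y)
    (hM : SLV F _ ≤ Mr M (rho M y)) : SLV F V ≤ M := by
  have d := h.pd
  have hi := h.sq
  obtain ⟨j, hj⟩ := h.j
  obtain ⟨a, a0, a1, a2⟩ := d.sy.ex_perp_one [π y] (π y) h3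
  obtain ⟨u, X, hu, hX, rfl, c1, c2, c3⟩ := h.exists_uX h3 hy a0 a1 (a2 _ (by simp))
  obtain ⟨t, ht⟩ := exists_rs (ρ_comm (ρ := rho M) c1)
  have u2 : ∀ x, rho M u (rho M u x) = -x := LinearMap.congr_fun hu.sq
  have x2 : ∀ x, rho M X (rho M X x) = -x := LinearMap.congr_fun hX.sq
  have y2 : ∀ x, rho M y (rho M y x) = x := LinearMap.congr_fun hy.sq
  have c1' : ∀ x, rho M y (rho M u x) = rho M u (rho M y x) :=
    LinearMap.congr_fun (ρ_comm (ρ := rho M) c1.symm)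
  have c2' : ∀ x, rho M X (rho M u x) = rho M u (rho M X x) :=
    LinearMap.congr_fun (ρ_comm (ρ := rho M) c2.symm)
  have c3' : ∀ x, rho M y (rho M X x) = -rho M X (rho M y x) := LinearMap.congr_fun c3
  have hN := SLV_le_of_comm hp d.two hi hM (fun _ hg _ hn => Nr_conj hg hn) (t := t)
    (fun x => Subtype.ext (by rw [ht, ht, u2]; rfl)) (fun c => by
      by_contra hc
      push Not at hc
      exact ((hy.eg.sc_iff d hu.mem).1 ⟨c, fun w => by rw [← ht, hc]; rfl⟩).elim a0 a1)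
    fun k hk => d.comm_mem_Nr h.tt hy hu c1 a1 hk (a := 1) (by rwa [one_smul])
  have hE : ∀ (v : V) (ψ : Dual F V), rho M y v = v → (∀ x, ψ (rho M y x) = ψ x) → ψ v = 0 →
      HasTv M ψ v := fun v ψ hv e e' => by
    obtain ⟨k, hk, e1⟩ := hasTv_SLV (φ := ψ ∘ₗ (fx (rho M y)).subtype) (v := ⟨v, mem_fx.2 hv⟩) e'
    refine Nr_ext d.two hy.sq (hN hk) (a := 1 + ψ.smulRight v) (fun w => by rw [e1]; rfl) fun x hx => ?_
    simp [eq_zero_of_eq_neg d.two (show ψ x = -ψ x by rw [← map_neg, ← hx, e])]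
  have hz := d.j_T hi hj hu
  obtain ⟨z1, -, z2, -⟩ := d.j_mul hi hj hu.mem
  obtain ⟨z', z3, z4, z5⟩ := d.neg_Iv hz
  obtain ⟨w₀, w0⟩ := DFunLike.ne_iff.1 (d.pi_ne hy.mem hy.ne hz.mem hz.ne (z2 ▸ a1))
  obtain ⟨x₀, x0⟩ := DFunLike.ne_iff.1 (d.pi_ne hy.mem hy.ne z3.mem z3.ne (z5 ▸ z2 ▸ a1))
  obtain ⟨χ, -, hχ⟩ := exists_dual_one (F := F) ⊥ x0
  rw [z4, z1] at hχ
  rw [z1] at w0
  obtain ⟨φ, hφ⟩ : ∃ φ : Dual F V, ∀ x, φ x = χ (((1 + rho M y) * (1 + -(i • rho M u))) x) :=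
    ⟨χ ∘ₗ _, fun _ => rfl⟩
  rw [← hφ] at hχ
  have w1 : rho M y (((1 + rho M y) * (1 + i • rho M u)) w₀) = ((1 + rho M y) * (1 + i • rho M u)) w₀ := by
    simp [y2]; module
  have w2 : rho M u (((1 + rho M y) * (1 + i • rho M u)) w₀) =
      -i • ((1 + rho M y) * (1 + i • rho M u)) w₀ := by
    simp [u2, c1', smul_smul, hi]; module
  generalize ((1 + rho M y) * (1 + i • rho M u)) w₀ = w at w0 w1 w2
  have p1 : ∀ x, φ (rho M y x) = φ x := fun x => by simp [hφ, y2, c1']; ring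
  have p2 : ∀ x, φ (rho M u x) = i * φ x := fun x => by
    simp [hφ, u2, c1', mul_add, ← mul_assoc, hi]; ring
  have i0 : i ≠ 0 := fun e => by simp [e] at hi
  have p3 : φ w = 0 := by
    have := p2 w
    rw [w2, map_smul, smul_eq_mul] at this
    exact (mul_eq_zero.1 (show 2 * i * φ w = 0 by linear_combination -this)).resolve_left
      (mul_ne_zero d.two i0)
  have key : ∀ X, T (rho M) P π X → HasTv M (φ - φ ∘ₗ rho M X) (w + rho M X w) := fun X hX => by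
    obtain ⟨D, c, hD⟩ := h.tt X u hX hu
    have c0 := d.tt_ne hD
    have x2 : ∀ x, rho M X (rho M X x) = -x := LinearMap.congr_fun hX.sq
    have := ((hE w φ w1 p1 p3).conj D.2).congr (φ' := (-i / 2) • (φ - φ ∘ₗ rho M X))
      (v' := w + rho M X w) fun x => by
        change φ (rho M D⁻¹ x) • rho M D w = _
        rw [d.tt_inv hD hX.sq hu.sq, hD]
        simp only [LinearMap.smul_apply, End.mul_apply, LinearMap.add_apply, LinearMap.sub_apply,
          End.one_apply, map_smul, map_sub, map_add, p2, w2, LinearMap.comp_apply, smul_eq_mul]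
        have h4 : (4 : F) ≠ 0 := by rw [show (4 : F) = 2 * 2 by norm_num]; exact mul_ne_zero d.two d.two
        have h2 := d.two
        match_scalars <;> field_simp <;> grind
    simpa [smul_smul, i0, d.two] using tv_prime hp (by simp [x2, p3]) this (-i / 2)⁻¹
  have p4 : φ (rho M X w) = 0 := dual_anti d.two w1 p1 c3
  have k1 := (key X hX).add_left (by simp [x2, p3]) (key _ (d.T_mul_Iv hX hz
    ((d.comm_π hu.mem hz.mem z2.symm).1 c2.symm) fun e => by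
      have := (d.comm_π hX.mem hz.mem e).2 ((d.comm_π hu.mem hz.mem z2.symm).1 c1.symm)
      exact d.neg_ne (d.ρ_ne (X * y)) (by rw [map_mul, ← c3, ρ_comm this])) |>.congr (φ' := φ + φ ∘ₗ rho M X) (v' := w + rho M X w) fun x => by
        rw [map_mul, z1]
        simp [w2, c2', p2, smul_smul, hi, ← mul_assoc])
  have k2 : HasTv M φ (rho M X w) := by
    simpa using ((tv_prime hp (by simp [x2, p3, p4]) k1 2⁻¹).congr (φ' := φ) (v' := w + rho M X w)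
      fun x => by
        congr 1
        simp
        field_simp [d.two]
        ring).add_right (by simp [p3]) ((hE w φ w1 p1 p3).neg_right p3)
  obtain ⟨w', w3, w4⟩ : ∃ w', rho M y w' = w' ∧ φ w' = 1 :=
    ⟨(2 : F)⁻¹ • (x₀ + rho M y x₀), by simp [y2, add_comm], by
      simp [p1, hχ]; field_simp [d.two]; norm_num⟩
  have A : ∀ ψ : Dual F V, (∀ x, ψ (rho M y x) = ψ x) → HasTv M ψ (rho M X w) := fun ψ e => by
    have e' : ψ (rho M X w) = 0 := dual_anti d.two w1 e c3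
    have := HasTv.comm p4 (by simp [w4]) (by simp [p4, e']) k2
      (hE w' (ψ - ψ w' • φ) w3 (by simp [e, p1]) (by simp [w4]))
    rw [w4, one_smul] at this
    exact add_sub_cancel (ψ w' • φ) ψ ▸ (tv_prime hp p4 k2 (ψ w')).add_left (by simp [p4]) this
  refine SLV_le_of_irr h.spn.irr (v := rho M X w) (X.1.map_ne_zero_iff.2 w0) fun ψ hψ => ?_
  refine ((A ((2 : F)⁻¹ • (ψ + ψ ∘ₗ rho M y)) fun x => by simp [y2, add_comm]).add_left
    (by simp [c3', w1, hψ]) ((hE w (((2 : F)⁻¹ • (ψ - ψ ∘ₗ rho M y)) ∘ₗ rho M X) w1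
      (fun x => by
        have := c3' (rho M y x)
        rw [y2] at this
        simp [c3', this, y2]; left; ring) (by simp [c3', w1, hψ])).conj X.2)).congr fun x => ?_
  have : rho M X (X.1⁻¹ x) = x := app_inv_app X.1 x
  congr 1
  simp only [LinearMap.add_apply, LinearMap.smul_apply, LinearMap.comp_apply, LinearMap.sub_apply,
    LinearEquiv.coe_coe, this, smul_eq_mul]
  field_simp [d.two]
  ring

omit h3 in
theorem LU.finrank_le_two (h2 : finrank F2 E ≤ 2) : finrank F V ≤ 2 := by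
  have := (Spn.finrank_le h.pd h.spn).trans (Nat.pow_le_pow_right two_pos h2)
  nlinarith

omit h3 in
theorem LU.base [Finite F] (h2 : finrank F2 E ≤ 2) (h1 : T1 P π) :
    P.Normal ∨ ∃ (φ : Dual F V) (v : V), φ ≠ 0 ∧ v ≠ 0 ∧ φ v = 0 ∧ HasTv M φ v := by
  have h4 := h.finrank_le_two h2
  rcases h4.lt_or_eq with h5 | h5
  · obtain ⟨v, hv⟩ := finrank_le_one_iff.1 (Nat.le_of_lt_succ h5)
    refine Or.inl ⟨fun _ _ g => h.pd.sc _ ?_⟩
    generalize g * _ * g⁻¹ = k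
    obtain ⟨c, hc⟩ := hv (rho M k v)
    refine ⟨c, LinearMap.ext fun w => ?_⟩
    obtain ⟨a, rfl⟩ := hv w
    simp [← hc, smul_comm a]
  refine or_iff_not_imp_right.2 fun hc => h.pd.normal_of_tame
    (LinearMap.toMatrixAlgEquiv (finBasisOfFinrankEq F V h5)) (fun g c e => by_contra fun e' => hc ?_)
    h.lift h1
  have c0 : c ≠ 0 := by
    rintro rfl
    rw [zero_smul, sub_zero, ← map_mul] at e
    exact h.pd.ρ_ne _ e
  have e1 : (c⁻¹ • (rho M g - c • 1)) * (c⁻¹ • (rho M g - c • 1)) = 0 := by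
    rw [smul_mul_smul_comm, e, smul_zero]
  obtain ⟨k, -, hk⟩ := exists_unip (ρ := rho M) (g := g) c0 e1 (by simp [smul_add, smul_sub, smul_smul, c0])
  obtain ⟨φ, v, a1, a2, a3, a4⟩ := tv_of_sq h4 e1 (smul_ne_zero (inv_ne_zero c0) (sub_ne_zero.2 e'))
  exact ⟨φ, v, a1, a2, a3, k, k.2, fun x => by rw [← rho_apply, hk, ← a4]; rfl⟩

omit h h3 in
theorem thm_lin [Finite F] (hp : ∀ a : F, ∃ n : ℕ, a = n) (c3 : (3 : F) ≠ 0) (n : ℕ) :
    ∀ {V : Type v} [AddCommGroup V] [Module F V] [Finite V] {M : Subgroup (V ≃ₗ[F] V)}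
      {P : Subgroup M} {E : Type v} [AddCommGroup E] [Module F2 E] [Finite E] {π : M → E}
      {B : E →ₗ[F2] E →ₗ[F2] F2}, finrank F V = n → LU P π B i → (finrank F2 E ≤ 2 → T1 P π) →
      P.Normal ∨ SLV F V ≤ M := by
  induction n using Nat.strong_induction_on with | _ n ih => ?_
  intro V _ _ _ M P E _ _ _ π B hn h h1
  have : Finite (V ≃ₗ[F] V) := Finite.of_injective _ DFunLike.coe_injective
  rcases le_or_gt (finrank F2 E) 2 with h2 | h3
  · refine (h.base h2 (h1 h2)).imp_right fun ⟨φ, v, a1, a2, a3, a4⟩ => ?_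
    exact SLV_le_of_norm hp h.spn.irr (fun g hg n hn => M.mul_mem (M.mul_mem hg hn) (M.inv_mem hg))
      (Or.inl (h.finrank_le_two h2)) a1 a2 a3 a4
  refine or_iff_not_imp_right.2 fun hc => ?_
  have hN : ∀ y, Iv (rho M) P π y → (Pr P (rho M y)).Normal := fun y hy => by
    obtain ⟨E', _, _, _, π', B', h', t⟩ := h.res hy
    exact (ih _ (hn ▸ hy.eg.finrank_lt h.pd) rfl h' fun _ => t).resolve_right
      fun e => hc (h.big_lin h3 hp hy e)
  obtain ⟨j, hj⟩ := h.j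
  refine h.pd.normal_lu h.sq hj h.tt h.lift (fun y hy => h.NE_of_normal hy (hN y hy))
    (fun h4 y g r u u' hy hg hr e s b => ?_) h3
  obtain ⟨φ, v, a1, a2, a3, a4⟩ := h.exists_tv c3 h4 hy hg hr e s b
  exact h.not_tv_lin h3 h4 hN c3 hp a1 a2 a3 a4

end Cfsg.Agent.Class.C6P
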