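import Mathlib
import Cfsg.Agent.Class.C6P.BigL

/-!
The unitary case: transvections in normal subgroups.
-/

set_option autoImplicit false

namespace Cfsg.Agent.Class.C6P

open Module Cfsg.Agent.Class.Max

variable {F V : Type*} [Field F] [AddCommGroup V] [Module F V] {Φ : Fm F V}
  {M N K : Subgroup (V ≃ₗ[F] V)}

/-- The restriction of a form to a non-degenerate subspace. -/
def rsF (Φ : Fm F V) (W : Submodule F V) (hW : Φ.ND W) : Fm F W where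
  σ := Φ.σ
  B := Φ.B.domRestrict₁₂ W W
  Q x := Φ.Q x
  ε := Φ.ε
  π := Φ.π
  d := Φ.d
  invol := Φ.invol
  eps_sq := Φ.eps_sq
  σ_eps := Φ.σ_eps
  symm x y := Φ.symm x y
  add x y := Φ.add x y
  smul a x := Φ.smul a x
  trace c x := Φ.trace c x
  range x := Φ.range x
  π_conj := Φ.π_conj
  π_norm := Φ.π_norm
  nondeg x h := Subtype.ext (hW x x.2 fun y hy => h ⟨y, hy⟩)
  iso X hX := by
    obtain ⟨_, ⟨v, h1, rfl⟩, h2, h3⟩ := Φ.iso (X.map W.subtype) (by rwa [Submodule.finrank_map_subtype_eq])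
    exact ⟨v, h1, fun e => h2 (by simp [e]), h3⟩

theorem mem_Iso_of_B (h2 : (2 : F) ≠ 0) {g : V ≃ₗ[F] V} (hg : ∀ x y, Φ.B (g x) (g y) = Φ.B x y) :
    g ∈ Φ.Iso := ⟨hg, fun x => by
  have : ∀ x, Φ.π (Φ.B x x) = 2 * Φ.Q x := fun x => by
    obtain ⟨a, ha⟩ := Φ.range x
    rw [← Φ.trace a x ha, map_add, Φ.π_conj, ha, two_mul]
  exact mul_left_cancel₀ h2 (by rw [← this, ← this, hg])⟩

section Fx

variable {Y : End F V} (h2 : (2 : F) ≠ 0) (hI : ∀ a b, Φ.B (Y a) (Y b) = Φ.B a b)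
include h2 hI

theorem perp_of_neg {e x : V} (he : Y e = e) (hx : Y x = -x) : Φ.B e x = 0 :=
  eq_zero_of_eq_neg h2 (by rw [← map_neg, ← hx, ← hI e, he])

theorem nd_fx (hY : Y * Y = 1) : Φ.ND (fx Y) := fun x hx h => Φ.nondeg x fun v => by
  have := h _ (add_mem_fx hY v)
  rw [map_add, ← mem_fx.1 hx, hI, mem_fx.1 hx, ← two_mul] at this
  exact (mul_eq_zero.1 this).resolve_left h2

theorem hasE_of_Nr (hY : Y * Y = 1) {hW : Φ.ND (fx Y)} {e w : fx Y} {c : F}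
    (h : (rsF Φ _ hW).HasE (Nr M Y) e w c) : Φ.HasE M e w c := by
  obtain ⟨k, hk, e1⟩ := h
  exact Nr_ext h2 hY hk (a := Φ.eL e w c) (fun x => by rw [e1]; rfl) fun x hx =>
    Fm.ef_apply_of_perp (perp_of_neg h2 hI (fx_app e) hx) (perp_of_neg h2 hI (fx_app w) hx)

end Fx

theorem Mr_le_Iso (hM : M ≤ Φ.Iso) {Y : End F V} (hW : Φ.ND (fx Y)) : Mr M Y ≤ (rsF Φ _ hW).Iso := by
  rintro k ⟨g, -, hg⟩
  exact ⟨fun x y => (congrArg₂ (Φ.B · ·) (hg x) (hg y)).trans ((hM g.2).1 x y),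
    fun x => (congrArg Φ.Q (hg x)).trans ((hM g.2).2 x)⟩

theorem Nr_le_Mr {Y : End F V} : Nr M Y ≤ Mr M Y := fun _ ⟨g, h1, h2, _⟩ => ⟨g, h1, h2⟩

theorem hasE_conj_norm {e w : V} {c : F} (h : Φ.HasE N e w c) {g : V ≃ₗ[F] V} (hI : g ∈ Φ.Iso)
    (hg : ∀ n ∈ N, g * n * g⁻¹ ∈ N) : Φ.HasE N (g e) (g w) c := by
  obtain ⟨n, hn, e⟩ := h
  exact ⟨_, hg n hn, fun x => by rw [mul_app, mul_app, e, Fm.Iso.ef hI, app_inv_app]⟩

/-- A unitary space over the field with `p ^ 2` elements. -/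
structure Hu (Φ : Fm F V) : Prop where
  eps : Φ.ε = 1
  pi : ∀ c, Φ.π c = c + Φ.σ c
  dim : Φ.d ≤ 2
  pr : ∀ a, Φ.σ a = a → ∃ n : ℕ, a = n

/-- All unitary transvections lie in `N`. -/
def AllTv (Φ : Fm F V) (N : Subgroup (V ≃ₗ[F] V)) : Prop :=
  ∀ e, Φ.Q e = 0 → ∀ c, Φ.π c = 0 → Φ.HasE N e 0 c

theorem allTv_of_le (h : Φ.EG ≤ N) : AllTv Φ N := fun _ he _ hc =>
  (Fm.Valid.hasE ⟨he, map_zero _, by rw [hc, Φ.Q_zero]⟩).mono h

namespace Hu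

variable (h : Hu Φ)
include h

theorem rs {W : Submodule F V} (hW : Φ.ND W) : Hu (rsF Φ W hW) := ⟨h.eps, h.pi, h.dim, h.pr⟩

theorem Q_eq (x : V) : Φ.Q x = Φ.B x x := by
  obtain ⟨a, ha⟩ := Φ.range x
  rw [← Φ.trace a x ha, ← ha, h.pi, h.eps, one_mul]

theorem symm (x y : V) : Φ.B y x = Φ.σ (Φ.B x y) := by rw [Φ.symm, h.eps, one_mul]

theorem ef (e : V) (c : F) (x : V) : Φ.ef e 0 c x = x - (c * Φ.B e x) • e := by simp [Fm.ef, h.eps]

theorem hasE_iff {e : V} {c : F} : Φ.HasE N e 0 c ↔ HasTv N ((-c) • Φ.B e) e := by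
  simp [Fm.HasE, HasTv, h.ef, sub_eq_add_neg]

theorem lam {e : V} {c : F} (he : Φ.Q e = 0) (c0 : c ≠ 0) (hc : Φ.π c = 0) (h1 : Φ.HasE N e 0 c) (d : F)
    (hd : Φ.π d = 0) : Φ.HasE N e 0 d := by
  rw [h.pi, add_eq_zero_iff_neg_eq] at hc hd
  obtain ⟨n, hn⟩ := h.pr (d / c) (by rw [map_div₀, ← hc, ← hd, neg_div_neg_eq])
  have := tv_nat (by simp [Φ.B_self he]) (h.hasE_iff.1 h1) n
  rwa [smul_smul, ← hn, mul_neg, div_mul_cancel₀ _ c0, ← h.hasE_iff] at this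

theorem of_tv (hN : N ≤ Φ.Iso) {φ : Dual F V} {v : V} (φ0 : φ ≠ 0) (v0 : v ≠ 0) (hφ : φ v = 0)
    (ht : HasTv N φ v) : Φ.Q v = 0 ∧ ∀ c, Φ.π c = 0 → Φ.HasE N v 0 c := by
  obtain ⟨x, hx⟩ := DFunLike.ne_iff.1 φ0
  obtain ⟨a, a1, a2⟩ := ht
  have e := Fm.Iso.B (hN a1)
  have e0 : Φ.B v v = 0 := by simpa [a2, hφ, show φ x ≠ 0 from hx] using e v x
  obtain ⟨y, hy⟩ := Φ.exists_B_ne v0
  have hy' := Φ.ne_symm hy
  have e1 : ∀ z, φ z = -(Φ.σ (φ y) / Φ.B y v) * Φ.B v z := fun z => by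
    have := e y z
    simp only [a2, Φ.bsimp, e0] at this
    field_simp
    linear_combination this
  have q := (h.Q_eq v).trans e0
  refine ⟨q, h.lam q (c := Φ.σ (φ y) / Φ.B y v) (fun e => hx (by simp [e1 x, e])) ?_
    (h.hasE_iff.2 ⟨a, a1, fun z => by rw [a2, e1 z]; rfl⟩)⟩
  rw [h.pi, map_div₀, Φ.invol, ← h.symm, (div_eq_iff hy).2 (e1 y), add_neg_cancel]

variable [FiniteDimensional F V]

theorem EG_le_of_two (h2 : finrank F V ≤ 2) (hK : Irr K) (hI : K ≤ Φ.Iso) (hN : N ≤ Φ.Iso)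
    (hKN : ∀ g ∈ K, ∀ n ∈ N, g * n * g⁻¹ ∈ N) {φ : Dual F V} {v : V} (φ0 : φ ≠ 0) (v0 : v ≠ 0)
    (hφ : φ v = 0) (ht : HasTv N φ v) : Φ.EG ≤ N := by
  obtain ⟨q, t⟩ := h.of_tv hN φ0 v0 hφ ht
  have k : ∀ v, v ≠ 0 → LinearMap.ker (Φ.B v) ≠ ⊤ := fun v v0 e =>
    v0 (Φ.nondeg v (LinearMap.congr_fun (LinearMap.ker_eq_top.1 e)))
  have f : ∀ v, v ≠ 0 → Φ.Q v = 0 → (∀ c, Φ.π c = 0 → Φ.HasE N v 0 c) → Φ.Full N v :=
    fun v v0 q t w c hv => by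
      obtain ⟨a, rfl⟩ := eq_smul_of_two h2 (k v v0) (Φ.B_self q) v0 hv.perp
      exact (Fm.inA_smul_self q a).hasE t hv
  obtain ⟨g, hg, e⟩ : ∃ g ∈ K, Φ.B v (g v) ≠ 0 := by
    by_contra hc
    push Not at hc
    refine (hK _ fun g hg x hx => ?_).elim (fun e => v0 (e.le (Φ.B_self q))) (k v v0)
    obtain ⟨a, rfl⟩ := eq_smul_of_two h2 (k v v0) (Φ.B_self q) v0 hx
    simp [hc g hg]
  have q' := (Fm.Iso.Q (hI hg) v).trans q
  exact Fm.EG_le_of_full (f v v0 q t) (f _ (g.map_ne_zero_iff.2 v0) q' fun c hc => by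
    simpa using hasE_conj_norm (t c hc) (hI hg) (hKN g hg)) q q' e

end Hu

variable {P : Subgroup M} {E : Type*} [AddCommGroup E] [Module F2 E] {π : M → E}
  {B : E →ₗ[F2] E →ₗ[F2] F2} [Finite E] [FiniteDimensional F V] {i : F} (h : LU P π B i)
  (hM : M ≤ Φ.Iso)
include h hM

omit [Finite E] [FiniteDimensional F V] in
theorem LU.σ_i : Φ.σ i = -i := by
  obtain ⟨j, hj⟩ := h.j
  obtain ⟨v, hv⟩ := DFunLike.ne_iff.1 h.pd.nt
  obtain ⟨w, hw⟩ := Φ.exists_B_ne hv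
  have := Fm.Iso.B (hM j.2) v w
  rw [← rho_apply, ← rho_apply, hj] at this
  simp only [LinearMap.smul_apply, End.one_apply, Φ.bsimp] at this
  have e : i * Φ.σ i = 1 := mul_right_cancel₀ hw (by linear_combination this)
  linear_combination Φ.σ i * h.sq - i * e

omit [Finite E] [FiniteDimensional F V] in
theorem LU.exists_T_ne {e : V} (e0 : e ≠ 0) (he : Φ.Q e = 0) :
    ∃ t, T (rho M) P π t ∧ Φ.B e (rho M t e) ≠ 0 := by
  obtain ⟨r, hr, e1⟩ := h.spn.exists_ne e0 (φ := Φ.B e) fun e => e0 (Φ.nondeg _ (LinearMap.congr_fun e))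
  obtain ⟨t, ht, e2⟩ := h.lift (π r) fun e => by
    obtain ⟨c, hc⟩ := (h.pd.ker r hr).1 e
    simp [hc, Φ.B_self he] at e1
  obtain ⟨c, hc⟩ := h.pd.smul_of_π hr ht.mem e2.symm
  exact ⟨t, ht, fun e => e1 (by simp [hc, e])⟩

theorem LU.allTv (hΦ : Hu Φ) (hE : Φ.EG ≤ M) (hN : ∀ g ∈ M, ∀ n ∈ N, g * n * g⁻¹ ∈ N)
    (hc : ∀ t, T (rho M) P π t → ∀ k ∈ M, k * t * k⁻¹ * t.1⁻¹ ∈ N)
    (h3 : (3 : F) ≠ 0 ∨ 3 ≤ finrank F2 E) : AllTv Φ N := by
  have d := h.pd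
  have hi := h.σ_i hM
  have i0 : i ≠ 0 := fun e => by simpa [e] using h.sq
  have vl : ∀ {e c}, Φ.Q e = 0 → Φ.π c = 0 → Φ.Valid e 0 c := fun he hc =>
    ⟨he, map_zero _, by rw [hc, Φ.Q_zero]⟩
  intro e he c hc'
  by_cases e0 : e = 0
  · exact ⟨1, N.one_mem, fun x => by simp [hΦ.ef, e0]⟩
  rcases h3 with h3 | h3
  · obtain ⟨t, ht, b0⟩ := h.exists_T_ne hM e0 he
    have hf : Φ.Q (rho M t e) = 0 := (Fm.Iso.Q (hM t.2) e).trans he
    let S : Subgroup (V ≃ₗ[F] V) :=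
      { carrier := {g | g ∈ M ∧ g * (vl he hc').eich * g⁻¹ * (vl he hc').eich⁻¹ ∈ N}
        mul_mem' := fun {a b} ha hb => ⟨M.mul_mem ha.1 hb.1, by
          convert N.mul_mem (hN a ha.1 _ hb.2) ha.2 using 1
          group⟩
        one_mem' := ⟨M.one_mem, by simp⟩
        inv_mem' := fun {a} ha => ⟨M.inv_mem ha.1, by
          convert hN _ (M.inv_mem ha.1) _ (N.inv_mem ha.2) using 1
          group⟩ }
    have s1 : ∀ a (ha : Φ.π a = 0), (vl he ha).eich ∈ S := fun a ha => ⟨hE (vl he ha).eich_mem, by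
      rw [show (vl he ha).eich * (vl he hc').eich = (vl he hc').eich * (vl he ha).eich from
        LinearEquiv.ext fun x => by
          simp only [mul_app, Fm.Valid.eich_apply, hΦ.ef, Φ.bsimp, Φ.B_self he]
          module]
      simp⟩
    have s2 : ∀ a (ha : Φ.π a = 0), (vl hf ha).eich ∈ S := fun a ha => by
      have m := N.inv_mem (hc t ht _ (s1 a ha).1)
      refine (S.mul_mem_cancel_right (S.inv_mem (s1 a ha))).1 (show _ ∈ S from ?_)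
      rw [show (vl hf ha).eich = t * (vl he ha).eich * t.1⁻¹ from LinearEquiv.ext fun x => by
        rw [mul_app, mul_app, Fm.Valid.eich_apply, Fm.Valid.eich_apply, Fm.Iso.ef (hM t.2), app_inv_app,
          map_zero, rho_apply]]
      refine ⟨M.mul_mem (M.mul_mem (M.mul_mem t.2 (s1 a ha).1) (M.inv_mem t.2)) (M.inv_mem (s1 a ha).1), ?_⟩
      convert N.mul_mem m (hN _ (hE (vl he hc').eich_mem) _ (N.inv_mem m)) using 1
      group
    generalize rho M t e = f at b0 hf s2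
    have b1 := Φ.σ_ne b0
    have h2 := d.two
    have σ2 : Φ.σ 2 = 2 := map_ofNat _ 2
    obtain ⟨g, hg, m⟩ : ∃ g, _ = g ∧ g ∈ S := ⟨_, rfl, S.mul_mem (S.mul_mem (s2 (-i / 2) (by simp [hΦ.pi, hi, σ2, neg_div]))
      (s1 (1 / (i * (Φ.B e f * Φ.σ (Φ.B e f)))) (by
        simp only [hΦ.pi, Φ.bsimp, hi]; field_simp; ring))) (s2 i (by simp [hΦ.pi, hi]))⟩
    have g1 : g e = (2 : F) • e := by
      simp only [← hg, mul_app, Fm.Valid.eich_apply, hΦ.ef, Φ.bsimp, Φ.B_self he, Φ.B_self hf,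
        hΦ.symm e f]
      match_scalars <;> field_simp <;> ring
    by_cases c0 : c = 0
    · exact c0 ▸ Fm.hasE_zero e
    refine hΦ.lam he (mul_ne_zero h3 c0) (by
      rw [hΦ.pi] at hc' ⊢
      rw [map_mul, map_ofNat, ← mul_add, hc', mul_zero]) ⟨_, m.2, fun x => ?_⟩ c hc'
    obtain ⟨x, rfl⟩ := (vl he hc').eich.surjective x
    rw [mul_app, inv_app_app, mul_app, mul_app, Fm.Valid.eich_apply, Fm.Iso.ef (hM m.1), app_inv_app, g1]
    simp only [Fm.Valid.eich_apply, map_zero, hΦ.ef, Φ.bsimp, σ2, Φ.B_self he]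
    module
  obtain ⟨j, hj⟩ := h.j
  obtain ⟨a, a0, -⟩ := d.sy.ex_perp_zero [] (by simp; omega)
  obtain ⟨t, ht, -⟩ := h.lift a a0
  have hz := d.j_T h.sq hj ht
  have z1 := (d.j_mul h.sq hj ht.mem).1
  obtain ⟨z, z2, z3, -⟩ := d.neg_Iv hz
  obtain ⟨s, s1, f, -, s2, -, s3⟩ := (nd_fx d.two (Fm.Iso.B (hM (j * t).2)) hz.sq).exists_hyp
    (hΦ.dim.trans (hz.eg.two_le d h3))
  obtain ⟨w, w1, w', w2, -, -, w3⟩ := (nd_fx d.two (Fm.Iso.B (hM z.2)) z2.sq).exists_hyp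
    (hΦ.dim.trans (z2.eg.two_le d h3))
  have s0 : s ≠ 0 := fun e => by simp [e] at s3
  have A : ∀ w ∈ fx (rho M z), Φ.InA N s ((2 : F) • w) := fun w hw => by
    have e1 : rho M (j * t) w = -w := by rw [← neg_eq_iff_eq_neg, ← LinearMap.neg_apply, ← z3, mem_fx.1 hw]
    obtain ⟨c, hv⟩ := Fm.exists_valid s2 (perp_of_neg d.two (Fm.Iso.B (hM (j * t).2)) (mem_fx.1 s1) e1)
    have e2 : t.1 s = (-i) • s := by
      nth_rw 2 [← show rho M (j * t) s = s from mem_fx.1 s1]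
      rw [z1, LinearMap.smul_apply, smul_smul, neg_mul, h.sq, neg_neg, one_smul, rho_apply]
    have e3 : t.1 w = i • w := by
      nth_rw 2 [← neg_neg w]
      rw [← e1, z1, LinearMap.smul_apply, smul_neg, smul_smul, h.sq, neg_one_smul, neg_neg, rho_apply]
    have hv' : Φ.Valid s (-w) c := ⟨s2, by simp [hv.perp], by rw [Φ.Q_neg, hv.norm]⟩
    rw [two_smul]
    refine ⟨_, hv.add (neg_neg w ▸ hv'.neg), _, hc t ht _ (hE hv.eich_mem), fun x => ?_⟩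
    rw [← hv.ef_ef (neg_neg w ▸ hv'.neg), mul_app, mul_app, mul_app, Fm.Valid.eich_apply,
      show hv.eich⁻¹ (t.1⁻¹ x) = Φ.ef s (-w) (Φ.ε * Φ.σ c) (t.1⁻¹ x) from hv.eich.injective (by
        rw [app_inv_app, Fm.Valid.eich_apply, hv.ef_ef_neg]), Fm.Iso.ef (hM t.2), app_inv_app, e2,
      map_neg, e3, Fm.ef_smul_left, map_neg, hi, neg_neg, smul_neg, smul_smul, h.sq, neg_mul, h.sq,
      neg_neg, one_mul, neg_one_smul, neg_neg]
  have := (A w w1).comm (A ((c / 8) • w') (Submodule.smul_mem _ _ w2))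
  obtain ⟨g, hg, rfl⟩ := Fm.move_EG (Φ := Φ) (by
    have := hz.eg.two_le d h3
    have := hz.eg.finrank_eq d
    have := hΦ.dim
    omega) s0 e0 (he.trans s2.symm)
  have e8 : (8 : F) ≠ 0 := by rw [show (8 : F) = 2 ^ 3 by norm_num]; exact pow_ne_zero _ d.two
  rw [hΦ.pi, add_eq_zero_iff_neg_eq] at hc'
  convert hasE_conj_norm this (hM (hE hg)) (hN g (hE hg)) using 1
  · simp
  · simp only [Φ.bsimp, w3, hΦ.symm w w', map_ofNat, ← hc']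
    field_simp
    ring

end Cfsg.Agent.Class.C6P
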