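import Mathlib
import Cfsg.Agent.Class.C6P.UniA
import Cfsg.Agent.Class.Max.C2U1

/-!
The unitary case.
-/

set_option autoImplicit false

namespace Cfsg.Agent.Class.C6P

open Module Cfsg.Agent.Class.Max

universe v

variable {F : Type*} {V : Type v} [Field F] [AddCommGroup V] [Module F V] {Φ : Fm F V}
  {M : Subgroup (V ≃ₗ[F] V)} {P : Subgroup M} {E : Type*} [AddCommGroup E] [Module F2 E] {π : M → E}
  {B : E →ₗ[F2] E →ₗ[F2] F2} [Finite E] [FiniteDimensional F V] {i : F} (h : LU P π B i)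
  (hM : M ≤ Φ.Iso) (hΦ : Hu Φ)

variable (Φ) in
/-- `M` contains the transvections with centre fixed by `y`. -/
def TvOn (y : M) : Prop := ∀ e, rho M y e = e → Φ.Q e = 0 → ∀ c, Φ.π c = 0 → Φ.HasE M e 0 c

namespace LU
include h hM hΦ

section Three

variable (h3 : 3 ≤ finrank F2 E) {y y' : M} (hy : Iv (rho M) P π y) (hy' : Iv (rho M) P π y')
  (e' : rho M y' = -rho M y) (hE : TvOn Φ y)
include h3 hy hy' e' hE

omit hΦ h3 hy' in
theorem tvOn_neg : TvOn Φ y' := fun e he q c hc => by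
  obtain ⟨w, hw⟩ := h.pd.sy.ex_one hy.ne
  obtain ⟨X, hX, rfl⟩ := h.pd.surj w
  have e1 := LinearMap.congr_fun (h.pd.comm1 _ hy.mem _ hX hw) e
  simpa using (hE (X.1 e) (by
    rw [e', LinearMap.neg_apply, neg_eq_iff_eq_neg] at he
    simpa [he, ← rho_apply] using e1) ((Fm.Iso.Q (hM X.2) e).trans q) c hc).conj (M.inv_mem X.2)
    (hM (M.inv_mem X.2))

theorem inA_side {e : V} (he : rho M y e = e) (q : Φ.Q e = 0) (e0 : e ≠ 0) {w : V}
    (hw : rho M y w = -w) : Φ.InA M e w := by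
  have d := h.pd
  have hi := h.σ_i hM
  have i0 : i ≠ 0 := fun e => by simpa [e] using h.sq
  have hI := Fm.Iso.B (hM y.2)
  have hE' := h.tvOn_neg hM hy e' hE
  have n : ∀ {x}, x ∈ fx (rho M y') ↔ rho M y x = -x := by simp [mem_fx, e', neg_eq_iff_eq_neg]
  have nd := nd_fx d.two hI hy.sq
  have nd' := nd_fx d.two (Fm.Iso.B (hM y'.2)) hy'.sq
  obtain ⟨j, hj⟩ := h.j
  obtain ⟨k, ⟨r, hr, r1, c, r2⟩, r3⟩ := (hy.eg.spn d h.spn).exists_ne (v := ⟨e, mem_fx.2 he⟩)
    (fun e => e0 (congrArg Subtype.val e)) (φ := Φ.B e ∘ₗ (fx _).subtype) fun e1 =>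
      e0 (nd e (mem_fx.2 he) fun w hw => LinearMap.congr_fun e1 ⟨w, hw⟩)
  have r4 : Φ.B e (rho M r e) ≠ 0 := fun e1 => r3 (by
    change Φ.B e (k.1 _) = 0
    rw [r2, LinearMap.smul_apply, map_smul, e1, smul_zero])
  have r5 : ¬ (π r = 0 ∨ π r = π y) := fun e1 => by
    obtain ⟨c, hc⟩ := (hy.eg.sc_iff d hr).2 e1
    exact r4 (by rw [hc ⟨e, mem_fx.2 he⟩, map_smul, Φ.B_self q, smul_zero])
  obtain ⟨u, X, hu, hX, u1, c1, c2, c3⟩ := h.exists_uX h3 hy (fun e => r5 (.inl e)) (fun e => r5 (.inr e))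
    (by rw [d.sy.symm]; exact (hy.eg.comm_iff' d hr).1 r1)
  obtain ⟨a, ha⟩ := d.smul_of_π hr hu.mem u1.symm
  have b0 : Φ.B e (rho M u e) ≠ 0 := fun e1 => r4 (by simp [ha, e1])
  have u2 : ∀ x, rho M u (rho M u x) = -x := LinearMap.congr_fun hu.sq
  have c1' : ∀ x, rho M y (rho M u x) = rho M u (rho M y x) :=
    LinearMap.congr_fun (ρ_comm (ρ := rho M) c1.symm)
  have key : ∀ X, T (rho M) P π X → rho M y * rho M X = -(rho M X * rho M y) → ∀ e, rho M y e = e →
      Φ.Q e = 0 → ∀ c, Φ.π c = 0 → Φ.InA M e (-c • rho M X e) := fun X hX c3 e he q c hc => by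
    obtain ⟨D, l, hD⟩ := h.tt X u hX hu
    have x1 : rho M y (rho M X e) = -rho M X e := by simpa [he] using LinearMap.congr_fun c3 e
    have x2 : rho M X (rho M X e) = -e := LinearMap.congr_fun hX.sq e
    have q' : Φ.Q (rho M X e) = 0 := (Fm.Iso.Q (hM X.2) e).trans q
    have p := perp_of_neg d.two hI he x1
    have := (hE (rho M D⁻¹ (e + rho M X e)) (by
      rw [d.tt_inv hD hX.sq hu.sq]
      simp [x2, c1', he, x1]
      module) ((Fm.Iso.Q (hM D⁻¹.2) _).trans (by rw [Φ.Q_add_perp p, q, q', add_zero]))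
      c hc).conj D.2 (hM D.2)
    rw [map_zero, show D.1 (rho M D⁻¹ _) = _ from app_inv_app D.1 _] at this
    have := (Fm.hasE_add_center q q' p hc this (hE e he q c hc)).1 (hE' _ (mem_fx.1 (n.2 x1)) q' c hc)
    rw [hΦ.eps, one_mul] at this
    exact ⟨0, Fm.valid_zero q (by simp [p]) (Φ.Q_smul_zero q' _), this⟩
  have x1 : rho M y (rho M X e) = -rho M X e := by simpa [he] using LinearMap.congr_fun c3 e
  have hz := d.j_T h.sq hj hu
  obtain ⟨z1, -, z2, -⟩ := d.j_mul h.sq hj hu.mem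
  have b1 : Φ.B (rho M u e) e = -Φ.B e (rho M u e) := by
    rw [← Fm.Iso.B (hM u.2), ← rho_apply, u2, rho_apply, Φ.B_neg_left]
  have b2 : Φ.B (rho M u e) (rho M u e) = 0 := (Fm.Iso.B (hM u.2) e e).trans (Φ.B_self q)
  have A : ∀ a : F, Φ.InA M e (a • rho M X e) := fun a => by
    have σ2 : Φ.σ 2 = 2 := map_ofNat _ 2
    have h2 := d.two
    have a1 := key _ (d.T_mul_Iv hX hz ((d.comm_π hu.mem hz.mem z2.symm).1 c2.symm) fun e => by
      have := (d.comm_π hX.mem hz.mem e).2 ((d.comm_π hu.mem hz.mem z2.symm).1 c1.symm)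
      exact d.neg_ne (d.ρ_ne (X * y)) (by rw [map_mul, ← c3, ρ_comm this])) (by
        rw [map_mul, z1, ← mul_assoc, c3, neg_mul, mul_assoc, mul_assoc, mul_smul_comm, smul_mul_assoc,
          ρ_comm c1]) (rho M u e) (by rw [c1', he]) ((Fm.Iso.Q (hM u.2) e).trans q)
      (-i * (a + Φ.σ a) / 2) (by simp only [hΦ.pi, Φ.bsimp, hi, σ2]; ring)
    obtain ⟨g, g1, g2⟩ := hE (rho M u e - e) (by rw [map_sub, c1', he]) (by
      simp [hΦ.Q_eq, b1, b2, Φ.B_self q]) (-1 / Φ.B e (rho M u e)) (by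
        simp only [hΦ.pi, Φ.bsimp, ← hΦ.symm, b1]; ring)
    have a2 := a1.conj g1 (hM g1)
    rw [show g (rho M u e) = e by simp [g2, hΦ.ef, b2, b0]] at a2
    convert a2.add (key X hX c3 e he q ((Φ.σ a - a) / 2) (by
      simp only [hΦ.pi, Φ.bsimp, σ2]; ring)) using 1
    have p := perp_of_neg d.two hI (show rho M y (rho M u e - e) = _ by rw [map_sub, c1', he]) x1
    simp only [map_mul, z1, End.mul_apply, LinearMap.smul_apply, u2, map_smul, map_neg, g2, hΦ.ef, p,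
      neg_zero, smul_zero, mul_zero, zero_smul, sub_zero]
    match_scalars
    field_simp
    linear_combination (a + Φ.σ a) * h.sq
  have S : ∀ s w, rho M y s = -s → Φ.Q s = 0 → Φ.B s w ≠ 0 → (∀ a : F, Φ.InA M e (a • w)) →
      ∀ a : F, Φ.InA M e (a • s) := fun s w s1 s2 s3 t a => by
    obtain ⟨g, g1, g2⟩ := hE' s (mem_fx.1 (n.2 s1)) s2 i (by simp [hΦ.pi, hi])
    have := (t (a / (i * Φ.B s w))).conj g1 (hM g1)
    rw [g2, g2, Fm.ef_apply_of_perp (Φ.perp_symm (perp_of_neg d.two hI he s1)) (by simp), hΦ.ef] at this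
    convert (t (a / (i * Φ.B s w))).sub this using 1
    simp only [map_smul, smul_eq_mul]
    match_scalars
    · field_simp
    · ring
  have x0 : rho M X e ≠ 0 := X.1.map_ne_zero_iff.2 e0
  have q' : Φ.Q (rho M X e) = 0 := (Fm.Iso.Q (hM X.2) e).trans q
  refine nd'.induction_sing (n.2 x1) q' x0 (fun _ _ => Fm.InA.sub) (fun s s1 s2 => ?_) (n.2 hw)
  rcases eq_or_ne s 0 with rfl | s0
  · exact Fm.inA_zero q
  rw [← one_smul F s]
  by_cases s3 : Φ.B s (rho M X e) = 0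
  · obtain ⟨t, t1, t2, t3, t4⟩ := Fm.exists_sing_not_perp₂ _ (n.2 x1) q' (Φ.perp_symm s3)
      (nd'.exists_ne (n.2 x1) x0) (nd'.exists_ne s1 s0)
    exact S s t (n.1 s1) s2 t4 (S t _ (n.1 t1) t2 (Φ.ne_symm t3) A) 1
  · exact S s _ (n.1 s1) s2 s3 A 1

omit hy' e' in
theorem big_uni : Φ.EG ≤ M := by
  have d := h.pd
  obtain ⟨y', hy', e', -⟩ := d.neg_Iv hy
  have hI := Fm.Iso.B (hM y.2)
  have y2 : ∀ x, rho M y (rho M y x) = x := LinearMap.congr_fun hy.sq
  have hE' := h.tvOn_neg hM hy e' hE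
  obtain ⟨s, s1, a, a1, s2, -, s3⟩ := (nd_fx d.two (Fm.Iso.B (hM y'.2)) hy'.sq).exists_hyp
    (hΦ.dim.trans (hy'.eg.two_le d h3))
  have n : ∀ {x}, x ∈ fx (rho M y') → rho M y x = -x := by simp [mem_fx, e', neg_eq_iff_eq_neg]
  have f : ∀ e, rho M y e = e → Φ.Q e = 0 → e ≠ 0 → Φ.Full M e := fun e he q e0 w c hv => by
    have S := @h.inA_side _ _ _ _ _ _ _ _ _ _ _ _ _ _ _ _ hM hΦ h3 _ _ hy hy' e' hE e he q e0
    have w1 : rho M y (w - rho M y w) = -(w - rho M y w) := by rw [map_sub, y2, neg_sub]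
    have w2 : Φ.B e (w + rho M y w) = 0 := by
      have := perp_of_neg d.two hI he w1
      rw [map_sub, hv.perp, zero_sub, neg_eq_zero] at this
      rw [map_add, hv.perp, this, add_zero]
    have w3 : rho M y ((2 : F)⁻¹ • (w + rho M y w)) = (2 : F)⁻¹ • (w + rho M y w) := by
      rw [map_smul, map_add, y2, add_comm]
    obtain ⟨c', -, g, g1, g2⟩ := h.inA_side hM hΦ h3 hy' hy (by rw [e', neg_neg]) hE' (mem_fx.1 s1) s2
      (fun e => by simp [e] at s3) (w := (2 : F)⁻¹ • (w + rho M y w)) (by rw [e', LinearMap.neg_apply, w3])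
    have := (S (n a1)).conj g1 (hM g1)
    rw [g2, g2, Fm.ef_apply_of_perp (Φ.perp_symm (perp_of_neg d.two hI he (n s1)))
      (Φ.perp_symm (by rw [map_smul, w2, smul_zero])), Fm.ef, s3, one_smul] at this
    generalize Φ.ε * _ = t at this
    refine Fm.InA.hasE ?_ (hE e he q) hv
    convert ((this.sub (S (n a1))).add (S (n (Submodule.smul_mem _ t s1)))).add
      (S (w := (2 : F)⁻¹ • (w - rho M y w)) (by rw [map_smul, w1, smul_neg])) using 1
    rw [sub_right_comm, sub_add_cancel, add_sub_cancel_left, ← smul_add, add_add_sub_cancel, ← two_smul F,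
      inv_smul_smul₀ d.two]
  obtain ⟨e, e1, e', e2, e3, e4, e5⟩ := (nd_fx d.two hI hy.sq).exists_hyp
    (hΦ.dim.trans (hy.eg.two_le d h3))
  exact Fm.EG_le_of_full (f e (mem_fx.1 e1) e3 fun e => by simp [e] at e5)
    (f e' (mem_fx.1 e2) e4 fun e => by simp [e] at e5) e3 e4 (by simp [e5])

end Three

omit [Finite E] in
theorem normal_three (c3 : (3 : F) = 0) (h2 : finrank F V ≤ 2) : P.Normal := by
  have d := h.pd
  have hi := h.σ_i hM
  have i2 := h.sq
  have c2 := d.two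
  suffices ∀ x, T (rho M) P π x → ∀ g, g * x * g⁻¹ ∈ P from ⟨fun r hr g => by
    by_cases r0 : π r = 0
    · rwa [d.conj_sc ((d.ker r hr).1 r0)]
    obtain ⟨x, hx, e⟩ := h.lift _ r0
    obtain ⟨c, hc⟩ := d.smul_of_π hr hx.mem e.symm
    exact d.mem_of_smul (this x hx g) (c := c) (by simp [hc])⟩
  intro x hx g
  obtain ⟨a, ha⟩ := d.sy.ex_one hx.ne
  obtain ⟨u, hu, rfl⟩ := h.lift a (by rintro rfl; simp at ha)
  have x2 : ∀ v, rho M x (rho M x v) = -v := LinearMap.congr_fun hx.sq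
  have u2 : ∀ v, rho M u (rho M u v) = -v := LinearMap.congr_fun hu.sq
  obtain ⟨v, v0⟩ : ∃ v, rho M x v + i • v ≠ 0 := by
    by_contra hc
    push Not at hc
    exact hx.ne ((d.ker x hx.mem).2 ⟨-i, LinearMap.ext fun v => by
      simpa using eq_neg_of_add_eq_zero_left (hc v)⟩)
  have v1 : rho M x (rho M x v + i • v) = i • (rho M x v + i • v) := by
    rw [map_add, map_smul, x2, smul_add, smul_smul, i2]; module
  generalize rho M x v + i • v = v at v0 v1
  have w1 : rho M x (rho M u v) = -i • rho M u v := by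
    simpa [v1] using LinearMap.congr_fun (d.comm1 _ hx.mem _ hu.mem ha) v
  have w0 : rho M u v ≠ 0 := u.1.map_ne_zero_iff.2 v0
  have p : Φ.B v (rho M u v) = 0 := eq_zero_of_eq_neg c2 (by
    have := Fm.Iso.B (hM x.2) v (rho M u v)
    rw [← rho_apply, ← rho_apply, v1, w1] at this
    simp only [Φ.bsimp, hi] at this
    linear_combination Φ.B v (rho M u v) * i2 - this)
  have k : LinearMap.ker (Φ.B v) ≠ ⊤ := fun e =>
    v0 (Φ.nondeg v (LinearMap.congr_fun (LinearMap.ker_eq_top.1 e)))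
  have N : Φ.B v v ≠ 0 := fun e => by
    obtain ⟨c, hc⟩ := eq_smul_of_two h2 k e v0 p
    have := eq_zero_of_eq_neg c2 (show i • rho M u v = _ by
      rw [← neg_smul, ← w1, hc, map_smul, v1, smul_comm])
    rw [← neg_neg (rho M u v), ← neg_one_smul F (rho M u v), ← i2, mul_smul, this] at w0
    simp at w0
  have S : ∀ z, ∃ a b : F, z = a • v + b • rho M u v := fun z => by
    obtain ⟨c, hc⟩ := eq_smul_of_two h2 k p w0 (x := z - (Φ.B v z / Φ.B v v) • v) (by simp [N])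
    exact ⟨_, c, by rw [← hc, add_sub_cancel]⟩
  have z2 : ∀ v, rho M (g * x * g⁻¹) (rho M (g * x * g⁻¹) v) = -v := LinearMap.congr_fun
    ((d.conj_sq (d.sq_sc hx.mem) g).trans hx.sq)
  generalize g * x * g⁻¹ = z at z2
  have z3 : ∀ a b, Φ.B (rho M z a) b = -Φ.B a (rho M z b) := fun a b => by
    rw [← Fm.Iso.B (hM z.2), ← rho_apply, z2, rho_apply, Φ.B_neg_left]
  have N' : Φ.B (rho M u v) (rho M u v) = Φ.B v v := Fm.Iso.B (hM u.2) v v
  have p' := Φ.perp_symm p
  obtain ⟨α, β, e1⟩ := S (rho M z v)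
  obtain ⟨γ, δ, e2⟩ := S (rho M z (rho M u v))
  have ext : ∀ a : End F V, a v = rho M z v → a (rho M u v) = rho M z (rho M u v) → rho M z = a :=
    fun a a1 a2 => LinearMap.ext fun w => by
      obtain ⟨s, t, rfl⟩ := S w
      simp [a1, a2]
  have q1 := congrArg (Φ.B v) (z2 v)
  have q2 := congrArg (Φ.B (rho M u v)) (z2 v)
  have q3 := congrArg (Φ.B v) (z2 (rho M u v))
  have q4 := congrArg (Φ.B (rho M u v)) (z2 (rho M u v))
  have s1 := z3 v v
  have s2 := z3 v (rho M u v)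
  simp only [e1, e2, map_add, map_smul, Φ.bsimp, p, p', N', smul_eq_mul] at q1 q2 q3 q4
  simp only [e1, e2, Φ.bsimp, p, p', N'] at s1 s2
  replace q1 : α * α + β * γ = -1 := mul_right_cancel₀ N (by linear_combination q1)
  replace q2 : β * (α + δ) = 0 := mul_right_cancel₀ N (by linear_combination q2)
  replace q3 : γ * (α + δ) = 0 := mul_right_cancel₀ N (by linear_combination q3)
  replace q4 : δ * δ + β * γ = -1 := mul_right_cancel₀ N (by linear_combination q4)
  replace s1 : Φ.σ α = -α := mul_right_cancel₀ N (by linear_combination s1)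
  replace s2 : Φ.σ β = -γ := mul_right_cancel₀ N (by linear_combination s2)
  have s3 : Φ.σ γ = -β := by rw [← neg_neg γ, ← s2, map_neg, Φ.invol]
  by_cases e : α + δ = 0
  swap
  · obtain rfl := (mul_eq_zero.1 q2).resolve_right e
    obtain rfl := (mul_eq_zero.1 q3).resolve_right e
    obtain rfl : α = δ := mul_right_cancel₀ e (by linear_combination q1 - q4)
    exact d.sc z ⟨α, ext _ (by simp [e1]) (by simp [e2])⟩
  obtain rfl := eq_neg_of_add_eq_zero_right e
  have t : ∀ a : F, Φ.σ a = a → a = 0 ∨ a * a = 1 := fun a ha => by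
    obtain ⟨n, rfl⟩ := hΦ.pr a ha
    rw [← Nat.div_add_mod n 3]
    rcases (by omega : n % 3 = 0 ∨ n % 3 = 1 ∨ n % 3 = 2) with e | e | e <;> simp [e, c3]
    exact Or.inr (by linear_combination c3)
  have e3 := ext ((-i * α) • rho M x + (γ - β) • rho M u + (-i * (β + γ)) • rho M (x * u))
    (by simp only [e1, map_mul, LinearMap.add_apply, LinearMap.smul_apply, End.mul_apply, v1, w1]
        match_scalars <;> grind)
    (by simp only [e2, map_mul, LinearMap.add_apply, LinearMap.smul_apply, End.mul_apply, v1, w1, u2,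
          map_neg]
        match_scalars <;> grind)
  have e4 : -i * α * (-i * α) + (γ - β) * (γ - β) + -i * (β + γ) * (-i * (β + γ)) = 1 := by grind
  rcases t (-i * α) (by simp [hi, s1]) with a | a <;>
    rcases t (γ - β) (by simp [s2, s3, neg_add_eq_sub]) with b | b <;>
    rcases t (-i * (β + γ)) (by simp only [Φ.bsimp, hi, s2, s3]; ring) with c | c <;>
    simp only [a, b, c, zero_smul, zero_add, add_zero, mul_zero, zero_ne_one] at e3 e4
  · exact d.mem_of_smul (P.mul_mem hx.mem hu.mem) e3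
  · exact d.mem_of_smul hu.mem e3
  · simp at e4
  · exact d.mem_of_smul hx.mem e3
  · simp at e4
  · simp at e4
  · exact (one_ne_zero (α := F) (by linear_combination c3 - e4)).elim

omit hΦ [Finite E] [FiniteDimensional F V] in
theorem tvOn_of {y : M} (hy : Iv (rho M) P π y) {hW : Φ.ND (fx (rho M y))}
    (H : AllTv (rsF Φ _ hW) (Nr M (rho M y))) : TvOn Φ y := fun e he q c hc =>
  hasE_of_Nr h.pd.two (Fm.Iso.B (hM y.2)) hy.sq (H ⟨e, mem_fx.2 he⟩ q c hc)

theorem tvOn_three [Finite F] (c3 : (3 : F) = 0) (h4 : finrank F2 E ≤ 4) {y g r u u' : M}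
    (hy : Iv (rho M) P π y) (hg : g * y = y * g) (hr : T (rho M) P π r)
    (s : Sp2 (rho M) P π y (g * r * g⁻¹) u u') (b : B (π u) (π u') = 1) : TvOn Φ y := by
  have d := h.pd
  obtain ⟨j, hj⟩ := h.j
  obtain ⟨D, μ, d1, d2⟩ := d.exists_ctl h.sq hj h.tt hy hg hr s
  have a1 := hy.sq
  have a2 := s.tu.sq
  have a3 := s.tu'.sq
  have a4 := ρ_comm (ρ := rho M) s.cu.symm
  have a5 := ρ_comm (ρ := rho M) s.cu'.symm
  have a6 := d.comm1 _ s.tu.mem _ s.tu'.mem b
  have a7 := d.one_add_ne hy.mem hy.ne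
  obtain ⟨w, hw⟩ : ∃ w, w = rho M u - rho M u' + rho M u' * rho M u := ⟨_, rfl⟩
  have b1 : ∀ {a b : End F V} {c : End F V}, a * b = c → ∀ z, a * (b * z) = c * z := fun e z => by
    rw [← mul_assoc, e]
  have w1 : w * w = 0 := by
    simp only [hw, mul_add, add_mul, mul_sub, sub_mul, mul_assoc, a2, a3, a6, b1 a2, b1 a3, b1 a6, neg_mul,
      mul_neg, one_mul, mul_one]
    linear_combination (norm := module) c3 • (-1 : End F V)
  have w2 : rho M y * w = w * rho M y := by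
    simp only [hw, mul_add, add_mul, mul_sub, sub_mul, mul_assoc, a4, a5, b1 a5]
  have w3 : w * (1 + rho M y) ≠ 0 := fun e => a7 (eq_zero_of_eq_neg d.two (by
    have : rho M u * w + w * rho M u = -1 - 1 := by
      simp only [hw, mul_add, add_mul, mul_sub, sub_mul, mul_assoc, a2, a6, b1 a6, neg_mul, mul_neg, mul_one]
      abel
    have := congrArg (· * (1 + rho M y)) this
    simp only [add_mul (rho M u * w), mul_assoc, e, comm_add a4.symm, b1 e, mul_zero, zero_mul,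
      sub_mul, neg_one_mul, one_mul] at this
    linear_combination (norm := module) this))
  rw [show (1 + rho M u') * (1 - rho M u) = 1 - w by rw [hw]; noncomm_ring] at d1
  have μ0 : μ ≠ 0 := fun e => a7 (ρ_left_cancel (ρ := rho M) D (by rw [d1, e, zero_smul, mul_zero]))
  obtain ⟨k, -, hk⟩ := exists_unip (ρ := rho M) (g := D * D) (ν := -(w * (1 + rho M y)))
    (mul_ne_zero μ0 μ0) (by
      rw [neg_mul_neg, mul_assoc, ← mul_assoc (1 + _), ← comm_add w2.symm, mul_assoc, b1 w1, zero_mul])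
    (eq_of_pm d.two (y := rho M y) (by
      rw [map_mul, mul_assoc, d1, mul_smul_comm, comm_add (comm_sub w2).symm, b1 d1]
      simp only [smul_mul_assoc, mul_add, add_mul, mul_sub, sub_mul, mul_assoc, a1, w1, w2, b1 w1, neg_mul,
        one_mul, mul_one, zero_mul]
      module) (by
      rw [map_mul, mul_assoc, d2, mul_smul_comm, d2]
      simp only [smul_mul_assoc, mul_add, add_mul, mul_sub, mul_assoc, a1, neg_mul, one_mul, mul_one]
      linear_combination (norm := module) c3 • ((μ * μ) • (1 - rho M y))))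
  have k1 : rho M k * rho M y = rho M y * rho M k := by
    simp only [hk, mul_add, add_mul, mul_assoc, neg_mul, mul_neg, b1 w2, w2, one_mul, mul_one]
  obtain ⟨t, ht⟩ := exists_rs k1
  have nd := nd_fx (Y := rho M y) d.two (Fm.Iso.B (hM y.2)) hy.sq
  have h2 : finrank F (fx (rho M y)) ≤ 2 := by
    have := (Spn.finrank_le d h.spn).trans (Nat.pow_le_pow_right two_pos h4)
    have := hy.eg.finrank_eq d
    nlinarith
  have t1 : ∀ x, ((rho _ t - 1 : End F (fx (rho M y))) x).1 = -(w * (1 + rho M y)) x := fun x => by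
    simp [rho_apply, ht x, hk]
  obtain ⟨φ, v, e1, e2, e3, e4⟩ := tv_of_sq h2 (ν := rho _ t - 1) (LinearMap.ext fun x => Subtype.ext (by
    rw [End.mul_apply, t1, t1, map_neg, ← End.mul_apply, mul_assoc, ← mul_assoc (1 + _),
      ← comm_add w2.symm, mul_assoc, b1 w1]
    simp)) fun e => w3 (eq_zero_of_eq_neg d.two (by
      have := (eq_on_fx d.two hy.sq (a := w * (1 + rho M y)) (b := 0)).2 fun x => by
        simpa only [e, LinearMap.zero_apply, Submodule.coe_zero, zero_eq_neg] using t1 x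
      simp only [mul_assoc, mul_add, add_mul, a1, one_mul, mul_one, zero_mul] at this ⊢
      linear_combination (norm := module) this))
  exact h.tvOn_of hM hy (allTv_of_le ((hΦ.rs nd).EG_le_of_two h2 (hy.eg.spn d h.spn).irr (Mr_le_Iso hM nd)
    (Nr_le_Mr.trans (Mr_le_Iso hM nd)) (fun _ hg _ hn => Nr_conj hg hn) e1 e2 e3
    ⟨t.1, ⟨k, k1, ht, by
      simp only [hk, mul_add, add_mul, mul_sub, mul_assoc, a1, neg_mul, one_mul, mul_one]
      abel⟩, fun x => by rw [← e4]; simp [rho_apply]⟩))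

end LU

omit h hM hΦ in
theorem thm_uni [Finite F] (n : ℕ) :
    ∀ {V : Type v} [AddCommGroup V] [Module F V] [Finite V] {Φ : Fm F V} {M : Subgroup (V ≃ₗ[F] V)}
      {P : Subgroup M} {E : Type v} [AddCommGroup E] [Module F2 E] [Finite E] {π : M → E}
      {B : E →ₗ[F2] E →ₗ[F2] F2}, finrank F V = n → LU P π B i → M ≤ Φ.Iso → Hu Φ →
      (finrank F2 E ≤ 2 → T1 P π) → P.Normal ∨ Φ.EG ≤ M ∧ ((3 : F) ≠ 0 ∨ 3 ≤ finrank F2 E) := by
  induction n using Nat.strong_induction_on with | _ n ih => ?_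
  intro V _ _ _ Φ M P E _ _ _ π B hn h hM hΦ h1
  have : Finite (V ≃ₗ[F] V) := Finite.of_injective _ DFunLike.coe_injective
  rcases le_or_gt (finrank F2 E) 2 with h2 | h3
  · by_cases c3 : (3 : F) = 0
    · exact .inl (h.normal_three hM hΦ c3 (h.finrank_le_two h2))
    refine (h.base h2 (h1 h2)).imp_right fun ⟨φ, v, a1, a2, a3, a4⟩ => ⟨?_, .inl c3⟩
    exact hΦ.EG_le_of_two (h.finrank_le_two h2) h.spn.irr hM hM
      (fun g hg n hn => M.mul_mem (M.mul_mem hg hn) (M.inv_mem hg)) a1 a2 a3 a4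
  refine or_iff_not_imp_right.2 fun hc => ?_
  have hc' : ∀ y, Iv (rho M) P π y → ¬ TvOn Φ y := fun y hy e =>
    hc ⟨h.big_uni hM hΦ h3 hy e, .inr h3⟩
  have hN : ∀ y, Iv (rho M) P π y → (Pr P (rho M y)).Normal := fun y hy => by
    obtain ⟨E', _, _, _, π', B', h', t⟩ := h.res hy
    have nd := nd_fx (Y := rho M y) h.pd.two (Fm.Iso.B (hM y.2)) hy.sq
    refine (ih _ (hn ▸ hy.eg.finrank_lt h.pd) rfl h' (Mr_le_Iso hM nd) (hΦ.rs nd) fun _ => t).resolve_right
      fun e => hc' y hy (h.tvOn_of hM hy (h'.allTv (Mr_le_Iso hM nd) (hΦ.rs nd) e.1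
        (fun _ hg _ hn => Nr_conj hg hn) (fun t ht k hk => ?_) e.2))
    obtain ⟨r, hr, e1, c, e2⟩ := ht.mem
    have e3 := mt (hy.eg.π_eq_zero h.pd h'.pd hr e1 e2).2 ht.ne
    obtain ⟨x, hx, e4⟩ := h.lift _ fun e => e3 (.inl e)
    obtain ⟨a, ha⟩ := h.pd.smul_of_π hr hx.mem e4.symm
    exact h.pd.comm_mem_Nr h.tt hy hx ((h.pd.comm_iff hx.mem hy.mem).2
      (e4 ▸ (hy.eg.comm_iff' h.pd hr).1 e1)) (fun e => e3 (.inr (e4 ▸ e))) hk (a := c * a)
      (by rwa [mul_smul, ← ha])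
  obtain ⟨j, hj⟩ := h.j
  refine h.pd.normal_lu h.sq hj h.tt h.lift (fun y hy => h.NE_of_normal hy (hN y hy))
    (fun h4 y g r u u' hy hg hr e s b => ?_) h3
  by_cases c3 : (3 : F) = 0
  · exact hc' y hy (h.tvOn_three hM hΦ c3 h4 hy hg hr s b)
  obtain ⟨φ, v, a1, a2, a3, a4⟩ := h.exists_tv c3 h4 hy hg hr e s b
  exact h.not_tv_uni h3 h4 hN c3 hM hΦ.pr a1 a2 a3 a4

end Cfsg.Agent.Class.C6P
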