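import Mathlib
import Cfsg.Agent.Class.C6P.UniB

/-!
The symplectic and orthogonal cases: the centralisers of the involutions.
-/

set_option autoImplicit false

namespace Cfsg.Agent.Class.C6P

open Module Cfsg.Agent.Class.Max

universe v

/-- There is no totally singular subspace of dimension three. -/
def Mi3 {E : Type*} [AddCommGroup E] [Module F2 E] (B : E →ₗ[F2] E →ₗ[F2] F2) (q : E → F2) : Prop :=
  ∀ a b c, q a = 0 → q b = 0 → q c = 0 → B a b = 0 → B a c = 0 → B b c = 0 →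
    a = 0 ∨ b = 0 ∨ a = b ∨ c = 0 ∨ c = a ∨ c = b ∨ c = a + b

variable {F : Type*} {V : Type v} [Field F] [AddCommGroup V] [Module F V] {Φ : Fm F V}
  {M : Subgroup (V ≃ₗ[F] V)} {P : Subgroup M} {E : Type*} [AddCommGroup E] [Module F2 E] {π : M → E}
  {B : E →ₗ[F2] E →ₗ[F2] F2} {q : E → F2}

theorem PD.sc_sq (h : PD F (rho M) P π B) (hM : M ≤ Φ.Iso) (hσ : ∀ a, Φ.σ a = a) {g : M} {c : F}
    (e : rho M g = c • 1) : c = 1 ∨ c = -1 := by
  obtain ⟨v, hv⟩ := DFunLike.ne_iff.1 h.nt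
  obtain ⟨w, hw⟩ := Φ.exists_B_ne hv
  have := Fm.Iso.B (hM g.2) v w
  rw [← rho_apply, ← rho_apply, e] at this
  simp only [LinearMap.smul_apply, End.one_apply, Φ.bsimp, hσ] at this
  exact mul_self_eq_one_iff.1 (mul_right_cancel₀ hw (by linear_combination this))

theorem PD.exists_q_iso (h : PD F (rho M) P π B) (hM : M ≤ Φ.Iso) (hσ : ∀ a, Φ.σ a = a) :
    ∃ q, IsQ (rho M) P π B q := by
  refine h.exists_q (fun a ha => ?_) fun z ⟨c, hc⟩ => ?_
  · obtain ⟨c, hc⟩ := h.sq_sc ha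
    rw [← map_mul, hc]
    rcases h.sc_sq hM hσ hc with rfl | rfl <;> simp
  · rw [hc]
    rcases h.sc_sq hM hσ hc with rfl | rfl <;> simp

variable (P π B) in
/-- The hypotheses in the symplectic and orthogonal cases. -/
structure SO (Φ : Fm F V) (q : E → F2) : Prop where
  pd : PD F (rho M) P π B
  spn : Spn P
  tt : TT F (rho M) P π
  iso : M ≤ Φ.Iso
  σ : ∀ a, Φ.σ a = a
  isq : IsQ (rho M) P π B q
  dim : 13 ≤ finrank F V ∨ 8 ≤ finrank F V ∧ Mi3 B q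

theorem le_of_sq_le {n e a b : ℕ} (h : n ^ 2 ≤ 2 ^ e) (h1 : a ≤ n) (h2 : 2 ^ b < a ^ 2) : b < e :=
  (Nat.pow_lt_pow_iff_right one_lt_two).1 (h2.trans_le ((Nat.pow_le_pow_left h1 2).trans h))

variable (M) in
/-- The restrictions of the elements acting as scalars on the other eigenspace. -/
def Lr (Y : End F V) : Subgroup (Mr M Y) where
  carrier := {k | ∃ g : M, rho M g * Y = Y * rho M g ∧ (∃ d : F, Rs k.1 (d • rho M g)) ∧
    ∃ c : F, rho M g * (1 - Y) = c • (1 - Y)}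
  mul_mem' := by
    rintro _ _ ⟨g, h1, ⟨d, h2⟩, c, e⟩ ⟨k, h3, ⟨d', h4⟩, c', e'⟩
    exact ⟨g * k, ρ_mul_comm h1 h3, ⟨d * d', by
      simpa only [smul_mul_smul_comm, ← map_mul, Subgroup.coe_mul] using h2.mul h4⟩, c' * c, by
        rw [map_mul, mul_assoc, e', mul_smul_comm, e, smul_smul]⟩
  one_mem' := ⟨1, by simp, ⟨1, fun _ => by simp⟩, 1, by simp⟩
  inv_mem' := by
    rintro _ ⟨g, h1, ⟨d, h2⟩, c, e⟩
    refine ⟨g⁻¹, ρ_inv_comm h1, ⟨_, h2.inv⟩, c⁻¹, ρ_left_cancel (ρ := rho M) g ?_⟩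
    rw [ρ_mul_inv', mul_smul_comm, e, smul_smul]
    by_cases c0 : c = 0
    · rw [← ρ_inv_mul' (ρ := rho M) g (1 - Y), e, c0]
      simp
    · rw [inv_mul_cancel₀ c0, one_smul]

instance (Y : End F V) : (Lr M Y).Normal := ⟨by
  rintro _ ⟨t, h3, ⟨d, h4⟩, c, h5⟩ ⟨k, g, h1, h2⟩
  refine ⟨g * t * g⁻¹, ρ_mul_comm (ρ_mul_comm h1 h3) (ρ_inv_comm h1), ⟨d, ?_⟩, c, ?_⟩
  · simpa only [mul_smul_comm, smul_mul_assoc, ← map_mul, Subgroup.coe_mul, Subgroup.coe_inv] using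
      (h2.mul h4).mul h2.inv'
  · rw [conj_eig (b := c • 1) (comm_sub h1) (by rw [h5, smul_mul_assoc, one_mul])]
    simp [ρ_mul_inv]⟩

namespace SO

variable [Finite E] (h : SO P π B Φ q)
include h

theorem dimE : 8 ≤ finrank F2 E ∨ 6 ≤ finrank F2 E ∧ Mi3 B q :=
  h.dim.imp (le_of_sq_le (Spn.finrank_le h.pd h.spn) · (by norm_num))
    (.imp_left (le_of_sq_le (Spn.finrank_le h.pd h.spn) · (by norm_num)))

theorem ns (a b c : E) : Ns B q [a, b, c] :=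
  h.dimE.elim (fun e => h.isq.qd.ns_of_lt h.pd.sy (by simp; omega))
    fun e => Qd.ns_of_three h.pd.sy (by simp; omega) e.2 h.isq.qd

omit [Finite E] in
theorem nd {y : M} {Y : End F V} (hy : Eg P π y Y) (hI : ∀ a b, Φ.B (Y a) (Y b) = Φ.B a b) {g k : M}
    {c : F} (hk : rho M k * Y = Y * rho M k) (e : ∀ w : fx Y, rho M g w = c • rho M k w) :
    c = 1 ∨ c = -1 := by
  obtain ⟨v, hv⟩ := hy.exists_ne h.pd
  obtain ⟨w, m, hw⟩ := (nd_fx h.pd.two hI hy.sq).exists_ne v.2 fun e => hv (Subtype.ext e)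
  have := Fm.Iso.B (h.iso g.2) v w
  rw [← rho_apply, ← rho_apply, e, e ⟨w, m⟩] at this
  simp only [Φ.bsimp, h.σ, rho_apply, Fm.Iso.B (h.iso k.2)] at this
  exact mul_self_eq_one_iff.1 (mul_right_cancel₀ hw (by linear_combination this))

omit [Finite E] in
theorem exists_pm {y : M} (hy : Iv (rho M) P π y) {g r : M} (hr : r ∈ P)
    (e : rho M r * rho M y = rho M y * rho M r) {c : F}
    (e' : ∀ w : fx (rho M y), rho M g w = c • rho M r w) : ∃ s ∈ P,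
      rho M s * rho M y = rho M y * rho M s ∧ ∀ w : fx (rho M y), rho M g w = rho M s w := by
  rcases h.nd hy.eg (Fm.Iso.B (h.iso y.2)) e e' with rfl | rfl
  · exact ⟨r, hr, e, by simpa using e'⟩
  · obtain ⟨n, hn, n1⟩ := h.pd.exists_neg hy.ne
    exact ⟨n * r, P.mul_mem hn hr, by simp [n1, e], by simpa [n1] using e'⟩

omit [Finite E] in
theorem lift_Pr {y : M} (hy : Iv (rho M) P π y) {k : Mr M (rho M y)} (hk : k ∈ Pr P (rho M y)) :
    ∃ x ∈ P, rho M x * rho M y = rho M y * rho M x ∧ Rs k.1 (rho M x) := by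
  obtain ⟨r, hr, e, c, e'⟩ := hk
  obtain ⟨g, -, hg⟩ := k.2
  obtain ⟨s, h1, h2, h3⟩ := h.exists_pm hy hr e (g := g) fun w => (hg w).symm.trans (e' w)
  exact ⟨s, h1, h2, fun w => (hg w).trans (h3 w)⟩

theorem Pr_le {y : M} (hy : Iv (rho M) P π y) : Pr P (rho M y) ≤ Lr M (rho M y) := by
  have d := h.pd
  have q0 := (h.isq.zero y hy.mem).2 hy.sq
  have A : ∀ x, T (rho M) P π x → x * y = y * x → ∀ k : Mr M (rho M y), Rs k.1 (rho M x) →
      k ∈ Lr M (rho M y) := fun x hx e k hk => by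
    obtain ⟨D, c, d1, d2, d3⟩ := d.exists_ctrl h.tt hy hx e fun e => by
      simpa [e, q0] using h.isq.of_T hx
    rw [← smul_mul_assoc, eq_on_fx d.two hy.sq] at d2
    obtain ⟨t, ht⟩ := exists_rs (ρ_comm (ρ := rho M) d1)
    have c0 : c ≠ 0 := hy.eg.rs_ne d (k := t.1) fun w => (ht w).trans (d2 w)
    exact ⟨D, ρ_comm d1, ⟨c⁻¹, fun w => by simp [hk w, d2 w, c0]⟩, c, d3⟩
  intro k hk
  obtain ⟨r, hr, e, hk'⟩ := h.lift_Pr hy hk
  have e1 := (hy.eg.comm_iff d).1 e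
  rcases f2_cases (q (π r)) with e' | e'
  · obtain ⟨u, u1, u2⟩ := h.ns (π r) (π y) 0
    obtain ⟨t, ht, rfl⟩ := d.exists_T h.isq u1
    have e2 := ((d.comm_iff hy.mem ht.mem).2 (u2 _ (by simp))).symm
    obtain ⟨s, hs⟩ := exists_rs (ρ_comm (ρ := rho M) e2)
    refine ((Lr M _).mul_mem_cancel_right (A t ht e2 s hs)).1 (A (r * t) (h.isq.T (P.mul_mem hr ht.mem) ?_)
      ((show Commute r y from e1).mul_left e2) _ (hk'.mul hs))
    rw [d.mul r hr t ht.mem, h.isq.qd, e', u1, u2 _ (by simp), zero_add, add_zero]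
  · exact A r (h.isq.T hr e') e1 k hk'

section Loc

variable [Finite V] {y : M} (hy : Iv (rho M) P π y) {E' : Type*} [AddCommGroup E'] [Module F2 E']
  [Finite E'] {π' : Mr M (rho M y) → E'} {B' : E' →ₗ[F2] E' →ₗ[F2] F2}
  (d' : PD F (rho _) (Pr P (rho M y)) π' B')
include hy d'

theorem loc_cen (hK : ∀ x, T (rho M) P π x → KN P x) {t l : Mr M (rho M y)}
    (ht : T (rho _) (Pr P (rho M y)) π' t) (hl : l ∈ Lr M (rho M y)) (e : l * t = t * l) :
    l ∈ Pr P (rho M y) := by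
  have : Finite (V ≃ₗ[F] V) := Finite.of_injective _ DFunLike.coe_injective
  have : Finite (fx (rho M y) ≃ₗ[F] fx (rho M y)) := Finite.of_injective _ DFunLike.coe_injective
  have d := h.pd
  obtain ⟨D, d1, ⟨a, d2⟩, c, d3⟩ := hl
  obtain ⟨x, h1, h2, h3⟩ := h.lift_Pr hy ht.mem
  have a0 := hy.eg.rs_ne d d2
  have e1 : ∀ w : fx (rho M y), rho M (D * x) w = rho M (x * D) w := fun w =>
    smul_right_injective V a0 (by
      have := d2.mul h3 w
      rw [← Subgroup.coe_mul, e, Subgroup.coe_mul, h3.mul d2 w] at this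
      simpa using this.symm)
  have m := d.cen_T h.isq h.tt h.ns hK ((hy.eg.T_rs d d' h1 h2 h3).1 ht).1 D
    (d.comm_of_ctl d3 ((hy.eg.comm_iff d).1 h2) ((eq_on_fx d.two hy.sq).2 e1))
  have key : ∀ k ∈ Pr P (rho M y), ∃ b : F, rho _ (l * k * l⁻¹) = b • rho _ k := fun k hk => by
    obtain ⟨r, r1, r2, r3⟩ := h.lift_Pr hy hk
    obtain ⟨b, hb⟩ := d.loc_act hy d3 m r1 ((hy.eg.comm_iff d).1 r2)
    rw [← smul_mul_assoc, eq_on_fx d.two hy.sq] at hb
    have := (d2.mul r3).mul d2.inv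
    rw [← Subgroup.coe_inv, ← Subgroup.coe_mul, ← Subgroup.coe_mul] at this
    refine ⟨b, (this.eq_iff r3 b).2 fun w => ?_⟩
    simpa [smul_smul, a0] using hb w
  refine d'.mem_of_act ⟨mem_normalizer_of fun k hk => ?_, fun k hk => ?_⟩ <;> obtain ⟨b, e⟩ := key k hk
  exacts [d'.mem_of_smul hk e, d'.π_of_smul hk e]

theorem loc_dim {q' : E' → F2} (hq : IsQ (rho _) (Pr P (rho M y)) π' B' q') : 6 ≤ finrank F2 E' ∨
    4 ≤ finrank F2 E' ∧ ∀ a b, q' a = 0 → q' b = 0 → B' a b = 0 → a = 0 ∨ b = 0 ∨ a = b := by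
  have : Module.Finite F V := .of_finite
  have d := h.pd
  have e1 := Spn.finrank_le d' (hy.eg.spn d h.spn)
  have e2 := hy.eg.finrank_eq d
  refine h.dim.imp (fun e => le_of_sq_le (a := 7) e1 (by omega) (by norm_num))
    fun e => ⟨le_of_sq_le (a := 4) e1 (by omega) (by norm_num), fun a b qa qb ab => ?_⟩
  obtain ⟨k, hk, rfl⟩ := d'.surj a
  obtain ⟨k', hk', rfl⟩ := d'.surj b
  obtain ⟨r, r1, r2, r3⟩ := h.lift_Pr hy hk
  obtain ⟨s, s1, s2, s3⟩ := h.lift_Pr hy hk'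
  rw [hq.zero _ hk, ← one_smul F (1 : End F _), hy.eg.sq_of_rs d r1 r3, one_smul, ← h.isq.zero _ r1] at qa
  rw [hq.zero _ hk', ← one_smul F (1 : End F _), hy.eg.sq_of_rs d s1 s3, one_smul,
    ← h.isq.zero _ s1] at qb
  have := r3.mul s3
  rw [← map_mul, ← Subgroup.coe_mul, ← one_smul F (rho M (r * s))] at this
  rw [← one_smul F (rho M r)] at r3
  rw [← one_smul F (rho M s)] at s3
  rw [hy.eg.B_eq d d' r1 r2 r3 s1 s2 s3] at ab
  rw [← add_eq_zero (u := π' k) (v := π' k'), ← d'.mul _ hk _ hk', hy.eg.π_eq_zero d d' r1 r2 r3,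
    hy.eg.π_eq_zero d d' s1 s2 s3, hy.eg.π_eq_zero d d' (P.mul_mem r1 s1) (ρ_mul_comm r2 s2) this,
    d.mul r r1 s s1]
  rcases e.2 (π y) (π r) (π s) ((h.isq.zero y hy.mem).2 hy.sq) qa qb
    (d.sy.symm _ _ ▸ (hy.eg.comm_iff' d r1).1 r2) (d.sy.symm _ _ ▸ (hy.eg.comm_iff' d s1).1 s2) ab
    with e | e | e | e | e | e | e
  · exact absurd e hy.ne
  all_goals simp [e, add_self, add_comm (π y), add_add_cancel']

end Loc

theorem loc [Finite V] (hK : ∀ x, T (rho M) P π x → KN P x) {y : M} (hy : Iv (rho M) P π y) :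
    (Pr P (rho M y)).Normal ∧ Lr M (rho M y) ≤ Pr P (rho M y) := by
  have : Finite (fx (rho M y) ≃ₗ[F] fx (rho M y)) := Finite.of_injective _ DFunLike.coe_injective
  have d := h.pd
  obtain ⟨E', _, _, _, π', B', d'⟩ := hy.eg.exists_pd d h.spn
  obtain ⟨q', hq⟩ := d'.exists_q_iso
    (Mr_le_Iso h.iso (nd_fx (Y := rho M y) d.two (Fm.Iso.B (h.iso y.2)) hy.sq)) h.σ
  exact d'.normal_of_loc hq (hy.eg.tt d d' h.tt fun k hk => h.lift_Pr hy hk.mem) (h.Pr_le hy)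
    (fun t ht l hl => h.loc_cen hy d' hK ht hl) (h.loc_dim hy d' hq)

theorem normal_of_kn [Finite V] (hK : ∀ x, T (rho M) P π x → KN P x) : P.Normal := by
  have : Finite (V ≃ₗ[F] V) := Finite.of_injective _ DFunLike.coe_injective
  have d := h.pd
  refine d.normal_so h.isq h.tt h.ns (by rcases h.dimE with e | e <;> omega) hK
    (fun y hy g hg r hr e => ?_) fun y hy D hD c e => ?_
  · obtain ⟨s, h1, h2, c, h3⟩ := hy.eg.NE_of_normal d (ρ_comm hg) hr.mem (ρ_comm e) (h.loc hK hy).1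
    obtain ⟨s, h1, h2, h3⟩ := h.exists_pm hy h1 h2 h3
    exact ⟨s, h1, (hy.eg.comm_iff d).1 h2, (eq_on_fx d.two hy.sq).2 h3⟩
  · obtain ⟨k, hk⟩ := exists_rs (ρ_comm (ρ := rho M) hD)
    obtain ⟨r, h1, h2, a, h3⟩ := (h.loc hK hy).2 ⟨D, ρ_comm hD, ⟨1, by rwa [one_smul]⟩, c, e⟩
    exact ⟨r, h1, (hy.eg.comm_iff d).1 h2, a, by
      rw [← smul_mul_assoc, eq_on_fx d.two hy.sq]
      exact fun w => (hk w).symm.trans (h3 w)⟩

end SO

end Cfsg.Agent.Class.C6P
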