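import Mathlib
import Cfsg.Agent.Class.C6P.SOA
import Cfsg.Agent.Class.Max.FrT

/-!
The symplectic and orthogonal cases: groups containing the transvections of the centraliser of an
element of order four.
-/

set_option autoImplicit false

namespace Cfsg.Agent.Class.C6P

open Module Cfsg.Agent.Class.Max

universe v

variable {F : Type*} {V : Type v} [Field F] [AddCommGroup V] [Module F V] {Φ : Fm F V}
  {M : Subgroup (V ≃ₗ[F] V)} {P : Subgroup M} {E : Type*} [AddCommGroup E] [Module F2 E] {π : M → E}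
  {B : E →ₗ[F2] E →ₗ[F2] F2} {q : E → F2}

theorem Qd.ex11 [Finite E] (hq : Qd B q) (h : Sy B) (H : ∀ a b c, Ns B q [a, b, c]) {a b : E}
    (ha : a ≠ 0) (hb : b ≠ 0) : ∃ w, q w = 1 ∧ B a w = 1 ∧ B b w = 1 := by
  obtain ⟨w, w1, w2⟩ := h.ex11 ha hb
  rcases f2_cases (q w) with e | e
  · obtain ⟨z, z1, z2⟩ := H a b w
    exact ⟨w + z, by simp [hq w z, e, z1, z2], by simp [w1, z2], by simp [w2, z2]⟩
  · exact ⟨w, e, w1, w2⟩

variable (Φ M) in
/-- `M` contains the transvections of the centraliser of `X`. -/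
def BH (X : End F V) : Prop := ∀ v, Φ.B v v = 0 → Φ.B v (X v) = 0 → ∀ a b : F, Φ.ε * a = -a →
  Φ.ε * b = b → ∃ g ∈ M, ∀ u, g u = u + (a * Φ.B v u - b * Φ.B (X v) u) • v +
    (a * Φ.B (X v) u + b * Φ.B v u) • X v

theorem BH.neg {X : End F V} (h : BH Φ M X) : BH Φ M (-X) := fun v h1 h2 a b ha hb => by
  obtain ⟨g, hg, e⟩ := h v h1 (by simpa using h2) a (-b) ha (by rw [mul_neg, hb])
  exact ⟨g, hg, fun u => by simp only [e, LinearMap.neg_apply, Φ.bsimp]; module⟩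

theorem BH.conj (hM : M ≤ Φ.Iso) {x : M} (h : BH Φ M (rho M x)) (g : M) :
    BH Φ M (rho M (g * x * g⁻¹)) := fun v h1 h2 a b ha hb => by
  obtain ⟨v, rfl⟩ := g.1.surjective v
  have e1 : rho M (g * x * g⁻¹) (g.1 v) = g.1 (rho M x v) := by simp [rho_apply]
  have e2 := Fm.Iso.B (hM g.2)
  rw [e1] at h2 ⊢
  obtain ⟨k, hk, e⟩ := h v (e2 _ _ ▸ h1) (e2 _ _ ▸ h2) a b ha hb
  refine ⟨g * k * g⁻¹, M.mul_mem (M.mul_mem g.2 hk) g⁻¹.2, fun u => ?_⟩
  obtain ⟨u, rfl⟩ := g.1.surjective u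
  simp [e, e2]

namespace SO

variable [Finite E] (h : SO P π B Φ q)
include h

theorem BH_all [Finite V] {x x' : M} (hx : T (rho M) P π x) (hx' : T (rho M) P π x')
    (H : BH Φ M (rho M x)) : BH Φ M (rho M x') := by
  have : Finite (V ≃ₗ[F] V) := Finite.of_injective _ DFunLike.coe_injective
  have d := h.pd
  obtain ⟨σ, ⟨g, hg⟩, e⟩ := h.isq.qd.trans_all d.sy re_mul
    (fun u w hu hw => d.re_tt h.tt u w (d.exists_T h.isq hu) (d.exists_T h.isq hw))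
    (fun a => let ⟨w, h1, h2⟩ := h.ns a a a; ⟨w, h1, by simpa using h2⟩)
    (fun _ _ _ _ _ _ _ _ _ _ => h.ns _ _ _) hx.ne hx'.ne ((h.isq.of_T hx).trans (h.isq.of_T hx').symm)
  have m := hg.conj_mem hx.mem
  obtain ⟨c, hc⟩ := d.smul_of_π hx'.mem m (e.symm.trans (hg.eq x hx.mem).symm)
  have := H.conj h.iso g
  rcases d.sign_of_sq hc (hx'.sq.trans (d.T_conj hx m).sq.symm) with rfl | rfl
  · rwa [hc, one_smul]
  · rw [hc, neg_one_smul]
    exact this.neg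

omit [Finite E] in
theorem B_sq {r : M} {s : F} (e : rho M r * rho M r = s • 1) (u v : V) :
    Φ.B u (rho M r v) = s * Φ.ε * Φ.B v (rho M r u) := by
  rw [← Fm.Iso.B (h.iso r.2), ← rho_apply r (rho M r v), ← End.mul_apply, e, mul_assoc, ← h.σ (Φ.B v _),
    ← Φ.symm]
  simp [rho_apply]

variable [FiniteDimensional F V] (hp : ∀ a : F, ∃ n : ℕ, a = n)
include hp

omit [Finite E] in
theorem EG_le {v : V} (v0 : v ≠ 0) (hv : Φ.Q v = 0) (hΛ : ∀ c, Φ.π c = 0 → Φ.HasE M v 0 c)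
    (H : ∀ r ∈ P, rho M r * rho M r = -Φ.ε • 1 → Φ.InA M v (rho M r v)) : Φ.EG ≤ M := by
  have k : Φ.perp (Fm.subA hp M hv) ≤ Submodule.span F {v} := fun f hf => by
    by_contra hc
    obtain ⟨ψ, h1, h2⟩ := exists_dual_one _ hc
    obtain ⟨w, hw⟩ := Φ.exists_B_ne v0
    have := h.spn.ind (p := fun a => Φ.B f (a v) = Φ.B v (a f)) (fun r hr => ?_) (by simp)
      (fun a b e e' => by simp [e, e']) (fun c a e => by simp [e]) (ψ.smulRight w)
    · simp [h1 v (Submodule.mem_span_singleton_self v), h2, hw.symm] at this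
    have e : rho M r * rho M r = Φ.ε • 1 ∨ rho M r * rho M r = -Φ.ε • 1 := by
      rcases f2_cases (q (π r)) with e | e <;> rcases mul_self_eq_one_iff.1 Φ.eps_sq with e' | e' <;>
        simp [e', (h.isq.zero r hr).1, (h.isq.one r hr).1, e]
    rcases e with e | e
    · rw [h.B_sq e, Φ.eps_sq, one_mul]
    · rw [h.B_sq e v, Φ.perp_symm (hf _ (H r hr e)), mul_zero]
  have f : Φ.Full M v := fun w c hw => Fm.InA.hasE (show w ∈ Fm.subA hp M hv from
    (Φ.perp_perp _).le (Φ.perp_anti k (Φ.mem_perp_span_singleton.2 hw.perp))) hΛ hw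
  obtain ⟨r, -, hr⟩ := h.spn.exists_ne v0 (φ := Φ.B v) fun e => v0 (Φ.nondeg _ (LinearMap.congr_fun e))
  exact Fm.EG_le_of_full f (f.conj r.2 (h.iso r.2)) hv ((Fm.Iso.Q (h.iso r.2) v).trans hv) hr

variable (H : ∀ x, T (rho M) P π x → BH Φ M (rho M x))
include H

omit [Finite E] in
theorem big_o (hε : Φ.ε = 1) (hπ : ∀ c, Φ.π c = c) (hd : Φ.d ≤ 8) : Φ.EG ≤ M := by
  obtain ⟨v, -, v0, hv⟩ := Φ.iso ⊤ (by rw [finrank_top]; rcases h.dim with e | e <;> omega)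
  refine h.EG_le hp v0 hv (fun c hc => by rw [← hπ c, hc]; exact Fm.hasE_zero v) fun r hr e => ?_
  have e1 : Φ.B v (rho M r v) = 0 := eq_zero_of_eq_neg h.pd.two (by simpa [hε] using h.B_sq e v v)
  obtain ⟨g, hg, e2⟩ := H r (h.isq.T hr ((h.isq.one r hr).2 (by simpa [hε] using e))) v (Φ.B_self hv) e1
    0 1 (by simp) (by simp [hε])
  exact ⟨0, Fm.valid_zero hv e1 ((Fm.Iso.Q (h.iso r.2) v).trans hv), g, hg, fun u => by
    simp only [e2, Fm.ef, hε]; module⟩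

variable (hε : Φ.ε = -1)
include hε

omit hp [FiniteDimensional F V] in
theorem tv_of_two {y r : M} (hy : Iv (rho M) P π y) (hr : Iv (rho M) P π r) (hne : π y ≠ π r) {v : V}
    (e1 : rho M y v = v) (e2 : rho M r v = v) (c : F) : Φ.HasE M v 0 c := by
  have d := h.pd
  obtain ⟨z, z1, z2, z3⟩ := h.isq.qd.span₂ d.sy h.ns hy.ne hne
  obtain ⟨x, x1, x2, x3⟩ := h.isq.qd.ex11 d.sy h.ns hr.ne (h.isq.qd.ne z1)
  obtain ⟨z, hz, rfl⟩ := d.exists_T h.isq z1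
  obtain ⟨x, hx, rfl⟩ := d.exists_T h.isq x1
  have m := P.mul_mem hx.mem hz.mem
  have s : ∀ u w, Φ.B u w = -Φ.B w u := fun u w => by rw [Φ.symm, hε, h.σ, neg_one_mul]
  have alt : ∀ u, Φ.B u u = 0 := fun u => eq_zero_of_eq_neg d.two (s u u)
  have k : ∀ {a b : M}, a ∈ P → b ∈ P → B (π a) (π b) = 1 → rho M a v = v → Φ.B v (rho M b v) = 0 :=
    fun ha hb e e' => perp_of_neg (Y := rho M _) d.two (Fm.Iso.B (h.iso (Subtype.property _))) e' (by
      simpa [e'] using LinearMap.congr_fun (d.comm1 _ ha _ hb e) v)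
  have p1 := k hr.mem hx.mem x2 e2
  have p2 := k hr.mem m (by simp [d.mul _ hx.mem _ hz.mem, x2, z2]) e2
  have p3 : Φ.B (rho M x v) (rho M (x * z) v) = 0 :=
    (Fm.Iso.B (h.iso x.2) _ _).trans (k hy.mem hz.mem z3 e1)
  have p4 : rho M z (rho M x v) = -rho M (x * z) v := LinearMap.congr_fun (d.comm1 _ hz.mem _ hx.mem x3) v
  obtain ⟨g₁, m₁, g1⟩ := H x hx v (alt v) p1 (c / 2) 0 (by simp [hε]) (by simp)
  obtain ⟨g₂, m₂, g2⟩ := H _ (h.isq.T m (by
    rw [d.mul _ hx.mem _ hz.mem, h.isq.qd, x1, z1, d.sy.symm, x3]; rfl)) v (alt v) p2 (c / 2) 0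
    (by simp [hε]) (by simp)
  obtain ⟨g₃, m₃, g3⟩ := H z hz (rho M x v) (alt _) (by simp [p4, p3, -map_mul]) (-(c / 2)) 0
    (by simp [hε]) (by simp)
  rw [p4] at g3
  generalize rho M x v = a, rho M (x * z) v = b at p1 p2 p3 g1 g2 g3
  refine ⟨g₁ * g₂ * g₃, M.mul_mem (M.mul_mem m₁ m₂) m₃, fun u => ?_⟩
  have := d.two
  simp only [mul_app, g1, g2, g3, Φ.bsimp, alt, p1, p2, p3, Φ.perp_symm p1, Φ.perp_symm p2,
    Φ.perp_symm p3, Fm.ef, hε]
  match_scalars <;> field_simp <;> ring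

theorem big_sp (hπ : ∀ c, Φ.π c = 0) : Φ.EG ≤ M := by
  have d := h.pd
  have Q0 : ∀ v, Φ.Q v = 0 := fun v => let ⟨a, e⟩ := Φ.range v; e.symm.trans (hπ a)
  obtain ⟨a, a1, -⟩ := h.ns 0 0 0
  obtain ⟨f, hf⟩ := d.sy.ex_one (h.isq.qd.ne a1)
  obtain ⟨b, b1, b2⟩ := h.ns a f 0
  obtain ⟨g, g1, g2⟩ := d.sy.ex11 (h.isq.qd.ne a1) (h.isq.qd.ne b1)
  obtain ⟨c, c1, c2⟩ := h.ns a b g
  simp only [List.mem_cons, List.not_mem_nil, or_false, forall_eq_or_imp, forall_eq] at b2 c2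
  have n1 : a ≠ b := fun e => by simp [← e, d.sy.symm f, hf] at b2
  have n2 : a ≠ c := fun e => by simp [← e, d.sy.symm g, g1] at c2
  have n3 : b ≠ c := fun e => by simp [← e, d.sy.symm g, g2] at c2
  obtain ⟨y, m, e⟩ := d.surj (a + b)
  obtain ⟨y', m', e'⟩ := d.surj (a + c)
  have iv : ∀ {y u w}, y ∈ P → π y = u + w → q u = 1 → q w = 1 → B u w = 0 → u ≠ w →
      Iv (rho M) P π y := fun m e h1 h2 h3 h4 => ⟨m, (h.isq.zero _ m).1 (by
        rw [e, h.isq.qd, h1, h2, h3]; rfl), fun e' => h4 (add_eq_zero.1 (e.symm.trans e'))⟩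
  have hy := iv m e a1 b1 b2.1 n1
  have hy' := iv m' e' a1 c1 c2.1 n2
  have e'' : π (y * y') = b + c := by rw [d.mul _ m _ m', e, e', add_add_add_comm, add_self, zero_add]
  have hy'' := iv (P.mul_mem m m') e'' b1 c1 c2.2.1 n3
  have ne : π y' ≠ π y := fun e1 => n3 (add_left_cancel (e.symm.trans (e1.symm.trans e')))
  have cm := d.comm0 _ m _ m' (by simp [e, e', d.sy.alt, d.sy.symm b a, b2.1, c2.1, c2.2.1])
  obtain ⟨w, v0⟩ := DFunLike.ne_iff.1 (d.pi_ne m hy.ne m' hy'.ne ne)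
  have v1 : rho M y (((1 + rho M y) * (1 + rho M y')) w) = ((1 + rho M y) * (1 + rho M y')) w := by
    rw [← End.mul_apply, ← mul_assoc, mul_add (rho M y), hy.sq, mul_one, add_comm (rho M y)]
  have v2 : rho M y' (((1 + rho M y) * (1 + rho M y')) w) = ((1 + rho M y) * (1 + rho M y')) w := by
    rw [← End.mul_apply, ← mul_assoc, comm_add cm.symm, mul_assoc, mul_add (rho M y'), hy'.sq, mul_one,
      add_comm (rho M y')]
  generalize ((1 + rho M y) * (1 + rho M y')) w = v at v0 v1 v2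
  have t := h.tv_of_two H hε hy hy' ne.symm v1 v2
  refine h.EG_le hp v0 (Q0 v) (fun c _ => t c) fun r hr r1 => ?_
  obtain ⟨z, hz, z1, z2⟩ : ∃ z, Iv (rho M) P π z ∧ rho M z v = v ∧ B (π r) (π z) = 0 := by
    rcases f2_cases (B (π r) (π y)) with e1 | e1
    · exact ⟨y, hy, v1, e1⟩
    rcases f2_cases (B (π r) (π y')) with e2 | e2
    · exact ⟨y', hy', v2, e2⟩
    exact ⟨_, hy'', by simp [v1, v2], by rw [d.mul _ m _ m', map_add, e1, e2]; rfl⟩
  by_cases r0 : π r = 0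
  · obtain ⟨c, hc⟩ := (d.ker r hr).1 r0
    simpa [hc] using Fm.inA_smul_self (Q0 v) c
  by_cases r2 : π z = π r
  · obtain ⟨c, hc⟩ := d.smul_of_π hr hz.mem r2.symm
    simpa [hc, z1] using Fm.inA_smul_self (Q0 v) c
  have p : Φ.B v (rho M r v) = 0 := eq_zero_of_eq_neg d.two (by simpa [hε] using h.B_sq r1 v v)
  rw [hε, neg_neg, one_smul] at r1
  refine ⟨0, Fm.valid_zero (Q0 _) p (Q0 _), ?_⟩
  simpa [hε] using (Fm.hasE_add_center (Q0 _) (Q0 _) p (hπ 1) (h.tv_of_two H hε hz ⟨hr, r1, r0⟩ r2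
    (by rw [map_add, ← End.mul_apply, ← d.comm0 _ hr _ hz.mem z2, End.mul_apply, z1])
    (mem_fx.1 (add_mem_fx r1 v)) 1) (t 1)).1 (by simpa [rho_apply] using (t 1).conj r.2 (h.iso r.2))

end SO

end Cfsg.Agent.Class.C6P
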