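import Mathlib
import Cfsg.Agent.Class.C6P.SOB

/-!
The symplectic and orthogonal cases: centralisers of elements of order four when `-1` is a square.
-/

set_option autoImplicit false

namespace Cfsg.Agent.Class.C6P

open Module Cfsg.Agent.Class.Max

universe v

variable {F : Type*} {V : Type v} [Field F] [AddCommGroup V] [Module F V] {Φ : Fm F V}
  {M : Subgroup (V ≃ₗ[F] V)} {P : Subgroup M} {E : Type*} [AddCommGroup E] [Module F2 E] {π : M → E}
  {B : E →ₗ[F2] E →ₗ[F2] F2} {q : E → F2}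

theorem Q_of_B (h2 : (2 : F) ≠ 0) {x : V} (h : Φ.B x x = 0) : Φ.Q x = 0 := by
  obtain ⟨a, ha⟩ := Φ.range x
  have := congrArg Φ.π (Φ.trace a x ha)
  rw [map_add, Φ.π_conj, ha, h, map_zero, ← two_mul] at this
  exact (mul_eq_zero.1 this).resolve_left h2

theorem ext_fx (h2 : (2 : F) ≠ 0) {Y : End F V} (hY : Y * Y = 1)
    (hA : ∀ a b, Φ.B (Y a) (Y b) = -Φ.B a b) {g k : V ≃ₗ[F] V} (hg : g ∈ Φ.Iso) (hk : k ∈ Φ.Iso)
    (e1 : ∀ v, g (Y v) = Y (g v)) (e2 : ∀ v, k (Y v) = Y (k v)) (e : ∀ w : fx Y, g w = k w) : g = k := by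
  have y2 : ∀ v, Y (Y v) = v := LinearMap.congr_fun hY
  refine LinearEquiv.toLinearMap_injective (eq_of_pm h2 (y := Y) ((eq_on_fx h2 hY).2 e)
    (LinearMap.ext fun v => sub_eq_zero.1 (Φ.nondeg _ fun u => Φ.perp_symm ?_)))
  obtain ⟨u, rfl⟩ := g.surjective u
  have a1 := hA (g u) (g (v - Y v) - k (v - Y v))
  have a2 := Fm.Iso.B hg (u + Y u) (v - Y v)
  have a3 := Fm.Iso.B hk (u + Y u) (v - Y v)
  rw [← e ⟨_, add_mem_fx hY u⟩] at a3
  simp only [map_sub, map_add, e1, e2, y2, LinearMap.add_apply] at a1 a2 a3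
  refine (mul_eq_zero.1 ?_).resolve_left h2
  simp only [End.mul_apply, LinearMap.sub_apply, End.one_apply, LinearEquiv.coe_coe, map_sub, e1, e2]
  linear_combination a1 + a2 - a3

theorem three_ne (hp : ∀ a : F, ∃ n : ℕ, a = n) {i : F} (hi : i * i = -1) : (3 : F) ≠ 0 := fun c3 => by
  obtain ⟨n, rfl⟩ := hp i
  rw [← Nat.div_add_mod n 3] at hi
  rcases (by omega : n % 3 = 0 ∨ n % 3 = 1 ∨ n % 3 = 2) with e | e | e <;> simp [e, c3] at hi
  exacts [one_ne_zero (α := F) (by linear_combination c3 - hi),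
    one_ne_zero (α := F) (by linear_combination 2 * c3 - hi)]

namespace SO

variable [Finite E] (h : SO P π B Φ q)
include h

omit [Finite E] in
theorem sq {r : M} (hr : r ∈ P) : rho M r * rho M r = 1 ∨ rho M r * rho M r = -1 :=
  (f2_cases _).imp (h.isq.zero r hr).1 (h.isq.one r hr).1

theorem kn_lin [Finite F] [Finite V] (hp : ∀ a : F, ∃ n : ℕ, a = n) {i : F} (hi : i * i = -1) {x : M}
    (hx : T (rho M) P π x) : KN P x ∨ BH Φ M (rho M x) := by
  have : Module.Finite F V := .of_finite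
  have d := h.pd
  have h2 := d.two
  obtain ⟨Y, hY⟩ : ∃ Y, Y = -i • rho M x := ⟨_, rfl⟩
  have hy : Eg P π x Y := ⟨hx.mem, hx.ne, by simp [hY, smul_smul, hi, hx.sq], _, hY⟩
  have x1 : ∀ v, rho M x v = i • Y v := fun v => by simp [hY, smul_smul, hi]
  have x2 := (hy.comm_iff d).2 (rfl : x * x = x * x)
  have hA : ∀ a b, Φ.B (Y a) (Y b) = -Φ.B a b := fun a b => by
    simp only [hY, LinearMap.smul_apply, Φ.bsimp, h.σ, rho_apply, Fm.Iso.B (h.iso x.2)]
    linear_combination Φ.B a b * hi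
  obtain ⟨E', _, _, _, π', B', d'⟩ := hy.exists_pd d h.spn
  have l := hy.lu d d' (fun r hr e _ _ => (h.sq hr).elim (fun e' => ⟨x * r, P.mul_mem hx.mem hr, by
      rw [map_mul, mul_assoc, ← mul_assoc (rho M r), ρ_comm ((hy.comm_iff d).1 e), mul_assoc, e', mul_one,
        hx.sq], ρ_mul_comm x2 e, -i, fun w => by
      simp [x1, mem_fx.1 (app_mem_fx e w), smul_smul, hi]⟩) fun e' => ⟨r, hr, e', e, 1, by simp⟩)
    h.spn h.tt hi x2 fun w => by rw [x1, fx_app]
  refine (thm_lin hp (three_ne hp hi) _ rfl l fun e => absurd e (not_le.2 (le_of_sq_le (a := 4)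
    (Spn.finrank_le d' l.spn) ?_ (by norm_num)))).imp (fun hN g hg r hr e => ?_) fun hS v v1 v2 a b ha hb => ?_
  · have := hy.finrank_eq d
    rcases h.dim with e | e <;> omega
  · have g1 := (hy.comm_iff d).2 hg
    have r1 := (hy.comm_iff d).2 e
    obtain ⟨s, s1, s2, c, s3⟩ := hy.NE_of_normal d g1 hr r1 hN
    obtain ⟨w, w0⟩ := hy.exists_ne d
    have e1 : (rho M r * rho M r) w = (c * c) • (rho M s * rho M s) w := by
      rw [← d.conj_sq (d.sq_sc hr) g, End.mul_apply, s3, map_smul, s3 ⟨_, app_mem_fx s2 w⟩, smul_smul,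
        End.mul_apply]
    have inj := smul_left_injective F (show w.1 ≠ 0 from fun e => w0 (Subtype.ext e))
    obtain ⟨n, n1, n2⟩ := d.exists_neg hx.ne
    obtain ⟨z, z1, z2, z3⟩ : ∃ z ∈ P, rho M z * Y = Y * rho M z ∧ ∀ w : fx Y, rho M z w = c • w.1 := by
      have : c * c = 1 ∨ c * c = i * i := by
        rcases h.sq hr with a | a <;> rcases h.sq s1 with b | b <;> rw [a, b] at e1
        exacts [.inl (inj (by simpa using e1.symm)),
          .inr (inj (by simpa [hi, eq_neg_iff_add_eq_zero, add_comm] using e1)),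
          .inr (inj (by simpa [hi] using e1.symm)), .inl (inj (by simpa using e1.symm))]
      rcases this.imp mul_self_eq_one_iff.1 mul_self_eq_mul_self_iff.1 with (rfl | rfl) | rfl | rfl
      exacts [⟨1, P.one_mem, by simp, by simp⟩, ⟨n, n1, by simp [n2], by simp [n2]⟩,
        ⟨x, hx.mem, x2, by simp [x1, fx_app]⟩,
        ⟨n * x, P.mul_mem n1 hx.mem, by simp [n2, x2], by simp [n2, x1, fx_app]⟩]
    rw [show g * r * g⁻¹ = z * s from Subtype.ext (ext_fx h2 hy.sq hA (h.iso (g * r * g⁻¹).2)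
      (h.iso (z * s).2) (LinearMap.congr_fun (ρ_mul_comm (ρ_mul_comm g1 r1) (ρ_inv_comm g1)))
      (LinearMap.congr_fun (ρ_mul_comm z2 s2)) fun w => (s3 w).trans (z3 ⟨_, app_mem_fx s2 w⟩).symm)]
    exact P.mul_mem z1 s1
  · have y2 : ∀ v, Y (Y v) = v := LinearMap.congr_fun hy.sq
    obtain ⟨e, w, rfl, e1, w1⟩ : ∃ e w, v = e + w ∧ Y e = e ∧ Y w = -w :=
      ⟨(2 : F)⁻¹ • (v + Y v), (2 : F)⁻¹ • (v - Y v), by match_scalars <;> field_simp <;> ring,
        by simp [y2, add_comm], by simp [y2, ← smul_neg]⟩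
    have e2 : ∀ u, Φ.B e (Y u) = -Φ.B e u := fun u => by rw [← hA, e1]
    have w2 : ∀ u, Φ.B w (Y u) = Φ.B w u := fun u => by rw [← neg_inj, ← Φ.B_neg_left, ← w1, hA]
    have e3 : ∀ u, Y u = u → Φ.B e u = 0 := fun u e => eq_zero_of_eq_neg h2 (by rw [← e2, e])
    have w3 : Φ.B w w = 0 := eq_zero_of_eq_neg h2 (by rw [← map_neg, ← w1, w2])
    have i0 : i ≠ 0 := fun e => by simp [e] at hi
    simp only [x1, map_add Y, e1, w1, Φ.bsimp, e3 e e1, w3] at v1 v2
    have p : Φ.B e w = 0 := (mul_eq_zero.1 (show 2 * i * Φ.B e w = 0 by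
      linear_combination i * v1 - v2)).resolve_left (mul_ne_zero h2 i0)
    obtain ⟨k, hk, k1⟩ := hasTv_SLV (φ := (2 * (a + b * i)) • Φ.B w ∘ₗ (fx Y).subtype)
      (v := ⟨e, mem_fx.2 e1⟩) (by simp [Φ.perp_symm p])
    obtain ⟨g, g1, g2⟩ := hS hk
    have hv : Φ.Valid e ((2 * (a - b * i)) • w) 0 := Fm.valid_zero (Q_of_B h2 (e3 e e1)) (by simp [p])
      (Φ.Q_smul_zero (Q_of_B h2 w3) _)
    refine ⟨g, g.2, fun u => ?_⟩
    rw [ext_fx h2 hy.sq hA (h.iso g.2) (hv.mem_Iso hv.eich_apply) (LinearMap.congr_fun g1) (fun u => by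
      simp only [hv.eich_apply, Fm.ef, Φ.bsimp, e2, w2, map_add, map_sub, map_smul, e1, w1]; module)
      fun u => by
        rw [← rho_apply, ← g2, k1, hv.eich_apply, Fm.ef_apply_of_perp' (e3 _ (fx_app u))]
        simp only [Submodule.coe_add, Submodule.coe_smul, LinearMap.smul_apply, LinearMap.comp_apply,
          Submodule.subtype_apply, Φ.bsimp, h.σ, smul_eq_mul]
        match_scalars <;> grind]
    simp only [hv.eich_apply, Fm.ef, x1, map_add Y, e1, w1, Φ.bsimp, h.σ]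
    match_scalars <;> grind

end SO

end Cfsg.Agent.Class.C6P
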